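import Mathlib
import Cfsg.Agent.Lib.Helper65.MonoDefs

set_option autoImplicit false

namespace Cfsg.Agent.Lib.Helper65.Mono

open Matrix

variable {F : Type*} [Field F] {κ : Type} [Fintype κ] [DecidableEq κ]

/-- the diagonal element with `t` at `k`, `1` elsewhere -/
def g_unbal_h (k : κ) (t : Fˣ) : GL κ F := diagU (fun m => if m = k then t else 1)

theorem g_unbal_h_mem {Y : Subgroup (GL κ F)} (hY : GMonIn Y) (k : κ) (t : Fˣ) :
    g_unbal_h k t ∈ Y :=
  hY _ (isMono_diagU _)

theorem g_unbal_h_val (k : κ) (t : Fˣ) :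
    (g_unbal_h k t : Matrix κ κ F) = Matrix.diagonal (fun m => if m = k then (t : F) else 1) := by
  rw [g_unbal_h, diagU_val]
  congr 1
  funext m
  by_cases hm : m = k
  · simp [hm]
  · simp [hm]

theorem g_unbal_conj (x : GL κ F) (k : κ) (t : Fˣ) (i l : κ) :
    ((x * g_unbal_h k t * x⁻¹ : GL κ F) : Matrix κ κ F) i l =
      (if i = l then 1 else 0) +
        ((t : F) - 1) * (x : Matrix κ κ F) i k * ((x⁻¹ : GL κ F) : Matrix κ κ F) k l := by
  rw [g_unbal_h, conj_diagU_apply, ← gl_mul_inv_apply x i l]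
  have h : ∀ m, (x : Matrix κ κ F) i m * (((if m = k then t else 1 : Fˣ)) : F) *
      ((x⁻¹ : GL κ F) : Matrix κ κ F) m l =
      (x : Matrix κ κ F) i m * ((x⁻¹ : GL κ F) : Matrix κ κ F) m l +
      (if m = k then ((t : F) - 1) * (x : Matrix κ κ F) i k *
        ((x⁻¹ : GL κ F) : Matrix κ κ F) k l else 0) := by
    intro m
    by_cases hm : m = k
    · subst hm
      simp
      ring
    · simp [hm]
  rw [Finset.sum_congr rfl (fun m _ => h m), Finset.sum_add_distrib,
    Finset.sum_ite_eq' Finset.univ k]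
  simp

theorem g_unbal_unit [Fintype F] (hq : 5 ≤ Fintype.card F) : ∃ t : Fˣ, (t : F) ≠ 1 := by
  classical
  have h : ∃ a : F, a ≠ 0 ∧ a ≠ 1 := by
    by_contra hcon
    push Not at hcon
    have hsub : (Finset.univ : Finset F) ⊆ {0, 1} := fun a _ => by
      by_cases h : a = 0
      · simp [h]
      · simp [hcon a h]
    have h1 := Finset.card_le_card hsub
    have h2 : ({0, 1} : Finset F).card ≤ 2 := Finset.card_le_two
    rw [Finset.card_univ] at h1
    omega
  obtain ⟨a, ha0, ha1⟩ := h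
  exact ⟨Units.mk0 a ha0, ha1⟩

/-- GUNBAL -/
theorem g_unbal [Fintype F] (hq : 5 ≤ Fintype.card F) (h3 : 3 ≤ Fintype.card κ)
    {Y : Subgroup (GL κ F)} (hY : GMonIn Y) (x : GL κ F) (hx : x ∈ Y) (k j : κ)
    (h1 : (x : Matrix κ κ F) j k ≠ 0) (h2 : ((x⁻¹ : GL κ F) : Matrix κ κ F) k j = 0) :
    RootIn Y := by
  classical
  obtain ⟨t, ht⟩ := g_unbal_unit (F := F) hq
  have ht0 : (t : F) ≠ 0 := t.ne_zero
  set u : κ → F := fun i => (x : Matrix κ κ F) i k with hu
  set φ : κ → F := fun l => ((x⁻¹ : GL κ F) : Matrix κ κ F) k l with hφ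
  have hφu : ∑ m, φ m * u m = 1 := by
    have := gl_inv_mul_apply x k k
    rw [if_pos rfl] at this
    exact this
  have hφj : φ j = 0 := h2
  have huj : u j ≠ 0 := h1
  obtain ⟨l, hl⟩ : ∃ l, φ l ≠ 0 := by
    by_contra hcon
    push Not at hcon
    rw [Finset.sum_eq_zero (fun m _ => by rw [hcon m, zero_mul])] at hφu
    exact zero_ne_one hφu
  have hlj : l ≠ j := by
    rintro rfl
    exact hl hφj
  obtain ⟨y, hyY, hyval⟩ : ∃ y : GL κ F, y ∈ Y ∧ ∀ i n, (y : Matrix κ κ F) i n =
      (if i = n then 1 else 0) + ((t : F) - 1) * u i * φ n :=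
    ⟨x * g_unbal_h k t * x⁻¹, Y.mul_mem (Y.mul_mem hx (g_unbal_h_mem hY k t)) (Y.inv_mem hx),
      fun i n => g_unbal_conj x k t i n⟩
  obtain ⟨d, hdY, hdval⟩ : ∃ d : GL κ F, d ∈ Y ∧ (d : Matrix κ κ F) =
      Matrix.diagonal (fun m => if m = j then (t : F) else 1) :=
    ⟨g_unbal_h j t, g_unbal_h_mem hY j t, g_unbal_h_val j t⟩
  obtain ⟨z, hzY, hz⟩ : ∃ z : GL κ F, z ∈ Y ∧ z = d * y * (y * d)⁻¹ :=
    ⟨d * y * d⁻¹ * y⁻¹,
      Y.mul_mem (Y.mul_mem (Y.mul_mem hdY hyY) (Y.inv_mem hdY)) (Y.inv_mem hyY), by group⟩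
  set c : F := ((t : F) - 1) * (1 - (t : F)⁻¹) * u j with hc
  have ht1 : (t : F) - 1 ≠ 0 := sub_ne_zero.mpr ht
  have ht1' : 1 - (t : F)⁻¹ ≠ 0 := by
    intro h
    apply ht
    have : (t : F)⁻¹ = 1 := (sub_eq_zero.mp h).symm
    exact inv_eq_one.mp this
  have hc0 : c ≠ 0 := mul_ne_zero (mul_ne_zero ht1 ht1') huj
  have hφy : ∀ n, ∑ m, φ m * (y : Matrix κ κ F) m n = (t : F) * φ n := by
    intro n
    have h : ∀ m, φ m * (y : Matrix κ κ F) m n =
        (if m = n then φ n else 0) + (φ m * u m) * (((t : F) - 1) * φ n) := by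
      intro m
      rw [hyval]
      by_cases hm : m = n
      · subst hm
        simp
        ring
      · simp [hm]
        ring
    rw [Finset.sum_congr rfl (fun m _ => h m), Finset.sum_add_distrib,
      Finset.sum_ite_eq' Finset.univ n, ← Finset.sum_mul, hφu]
    simp
    ring
  -- the matrix of `z`
  set Z : Matrix κ κ F := Matrix.of (fun i n =>
    (if i = n then (1 : F) else 0) + (if i = j then c * φ n else 0)) with hZ
  have hZsplit : Z = 1 + Matrix.of (fun i n => if i = j then c * φ n else (0 : F)) := by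
    ext i n
    simp [hZ, Matrix.one_apply]
  have key : Z * ((y * d : GL κ F) : Matrix κ κ F) = ((d * y : GL κ F) : Matrix κ κ F) := by
    ext i n
    rw [Units.val_mul, Units.val_mul, hdval, Matrix.diagonal_mul, hZsplit,
      Matrix.add_mul, Matrix.one_mul, Matrix.add_apply, Matrix.mul_diagonal, Matrix.mul_apply]
    have hs : ∑ m, (Matrix.of (fun i n => if i = j then c * φ n else (0 : F))) i m *
        ((y : Matrix κ κ F) * Matrix.diagonal (fun m => if m = j then (t : F) else 1)) m n =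
        if i = j then c * (if n = j then (t : F) else 1) * ((t : F) * φ n) else 0 := by
      by_cases hij : i = j
      · rw [if_pos hij]
        rw [← hφy n, Finset.mul_sum]
        refine Finset.sum_congr rfl fun m _ => ?_
        rw [Matrix.mul_diagonal, Matrix.of_apply, if_pos hij]
        ring
      · rw [if_neg hij]
        apply Finset.sum_eq_zero
        intro m _
        rw [Matrix.of_apply, if_neg hij, zero_mul]
    rw [hs, hyval]
    by_cases hij : i = j
    · subst hij
      by_cases hnj : n = i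
      · subst hnj
        simp [hφj]
      · have hnj' : ¬ i = n := fun h => hnj h.symm
        simp only [hnj, hnj', if_false, if_true, hc]
        field_simp
        ring
    · by_cases hnj : n = j
      · subst hnj
        simp [hij, hφj]
      · simp [hij, hnj]
  have hzeq : (z : Matrix κ κ F) = Z := by
    rw [hz, Units.val_mul, ← key, Matrix.mul_assoc, ← Units.val_mul, mul_inv_cancel,
      Units.val_one, Matrix.mul_one]
  -- second commutator
  obtain ⟨d', hd'Y, hd'val⟩ : ∃ d' : GL κ F, d' ∈ Y ∧ (d' : Matrix κ κ F) =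
      Matrix.diagonal (fun m => if m = l then (t : F) else 1) :=
    ⟨g_unbal_h l t, g_unbal_h_mem hY l t, g_unbal_h_val l t⟩
  obtain ⟨w, hwY, hw⟩ : ∃ w : GL κ F, w ∈ Y ∧ w = z * d' * (d' * z)⁻¹ :=
    ⟨z * d' * z⁻¹ * d'⁻¹,
      Y.mul_mem (Y.mul_mem (Y.mul_mem hzY hd'Y) (Y.inv_mem hzY)) (Y.inv_mem hd'Y), by group⟩
  set a : F := c * φ l * (1 - (t : F)⁻¹) with ha
  have ha0 : a ≠ 0 := mul_ne_zero (mul_ne_zero hc0 hl) ht1'
  have key2 : Matrix.transvection j l a * ((d' * z : GL κ F) : Matrix κ κ F) =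
      ((z * d' : GL κ F) : Matrix κ κ F) := by
    ext i n
    rw [Units.val_mul, Units.val_mul, hd'val, hzeq, Matrix.transvection,
      Matrix.add_mul, Matrix.one_mul, Matrix.add_apply, Matrix.diagonal_mul, Matrix.mul_diagonal]
    by_cases hij : i = j
    · subst hij
      rw [Matrix.single_mul_apply_same, Matrix.diagonal_mul]
      have hil : ¬ i = l := fun h => hlj h.symm
      simp only [hZ, Matrix.of_apply, hil, hlj, if_false, if_true]
      by_cases hnl : n = l
      · subst hnl
        simp only [hil, if_false, if_true, ha]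
        field_simp
        ring
      · have hnl' : ¬ l = n := fun h => hnl h.symm
        simp [hnl, hnl']
    · rw [Matrix.single_mul_apply_of_ne (i := j) (j := l) (a := i) (b := n) (h := hij)]
      simp only [hZ, Matrix.of_apply, hij, if_false]
      by_cases hin : i = n
      · subst hin
        simp
      · simp [hin]
  have hweq : (w : Matrix κ κ F) = Matrix.transvection j l a := by
    rw [hw, Units.val_mul, ← key2, Matrix.mul_assoc, ← Units.val_mul, mul_inv_cancel,
      Units.val_one, Matrix.mul_one]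
  exact ⟨j, l, a, w, hlj.symm, ha0, hwY, hweq⟩

end Cfsg.Agent.Lib.Helper65.Mono
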