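import Cfsg.Agent.Lib.Helper10.LC0

/-! # Piece B10 of the lattice characterisation: sign normalisation -/

set_option autoImplicit false

namespace Cfsg.Agent.Lib.Helper5.LCB10

open Matrix Cfsg.Agent.Lib.Helper10.LC

/-- The sum of a binary word is its weight modulo 2. -/
theorem sum_eq_hammingNorm (c : Fin 24 → ZMod 2) : ∑ i, c i = (hammingNorm c : ZMod 2) := by
  classical
  rw [hammingNorm, Finset.card_eq_sum_ones, Nat.cast_sum, Finset.sum_filter]
  refine Finset.sum_congr rfl fun i _ => ?_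
  have h : c i = 0 ∨ c i = 1 := by
    generalize c i = a
    fin_cases a
    · exact Or.inl rfl
    · exact Or.inr rfl
  rcases h with h | h <;> simp [h]

/-- The coordinate sum of an even vector of the lattice is divisible by 4. -/
theorem four_dvd_sum {M : AddSubgroup (Fin 24 → ℤ)} (hw : ∀ c ∈ code M, 4 ∣ hammingNorm c)
    (y : Fin 24 → ℤ) (hy : y ∈ M) (he : ∀ i, y i % 2 = 0) : (4 : ℤ) ∣ ∑ i, y i := by
  have hc : (fun i => ((y i / 2 : ℤ) : ZMod 2)) ∈ code M := ⟨y, hy, he, fun i => rfl⟩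
  have h1 := hw _ hc
  have h2 := sum_eq_hammingNorm (fun i => ((y i / 2 : ℤ) : ZMod 2))
  have h3 : ((hammingNorm (fun i => ((y i / 2 : ℤ) : ZMod 2)) : ℕ) : ZMod 2) = 0 := by
    obtain ⟨k, hk⟩ := h1
    rw [hk]
    push_cast
    have : (4 : ZMod 2) = 0 := by decide
    rw [this, zero_mul]
  rw [h3, ← Int.cast_sum] at h2
  have h5 : ((2 : ℕ) : ℤ) ∣ ∑ i, y i / 2 := (ZMod.intCast_zmod_eq_zero_iff_dvd _ 2).mp h2
  have h6 : ∑ i, y i = 2 * ∑ i, y i / 2 := by
    rw [Finset.mul_sum]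
    refine Finset.sum_congr rfl fun i _ => ?_
    have := he i
    omega
  rw [h6]
  obtain ⟨k, hk⟩ := h5
  exact ⟨k, by rw [hk]; push_cast; ring⟩

/-- Two even vectors with the same word have coordinate sums congruent modulo 8. -/
theorem sum_congr_of_word {M : AddSubgroup (Fin 24 → ℤ)}
    (h4 : ∀ z : Fin 24 → ℤ, (fun i => 4 * z i) ∈ M ↔ (∑ i, z i) % 2 = 0)
    (y y' : Fin 24 → ℤ) (hy : y ∈ M) (hy' : y' ∈ M) (he : ∀ i, y i % 2 = 0)
    (he' : ∀ i, y' i % 2 = 0)
    (hc : ∀ i, ((y i / 2 : ℤ) : ZMod 2) = ((y' i / 2 : ℤ) : ZMod 2)) :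
    (8 : ℤ) ∣ ∑ i, y i - ∑ i, y' i := by
  have key : ∀ i, 4 * ((y i - y' i) / 4) = y i - y' i := by
    intro i
    have h1 := hc i
    rw [ZMod.intCast_eq_intCast_iff_dvd_sub] at h1
    have h1' : (2 : ℤ) ∣ y' i / 2 - y i / 2 := by exact_mod_cast h1
    have := he i
    have := he' i
    omega
  have hz : (fun i => 4 * ((y i - y' i) / 4)) ∈ M := by
    have : (fun i => 4 * ((y i - y' i) / 4)) = y - y' := by
      funext i
      rw [key i, Pi.sub_apply]
    rw [this]
    exact M.sub_mem hy hy'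
  have h5 := (h4 _).mp hz
  have h6 : ∑ i, y i - ∑ i, y' i = 4 * ∑ i, (y i - y' i) / 4 := by
    rw [← Finset.sum_sub_distrib, Finset.mul_sum]
    exact Finset.sum_congr rfl fun i _ => (key i).symm
  rw [h6]
  omega

/-- The character: a quarter of the coordinate sum, modulo 2. -/
def chi (y : Fin 24 → ℤ) : ZMod 2 := (((∑ i, y i) / 4 : ℤ) : ZMod 2)

theorem chi_eq_of_word {M : AddSubgroup (Fin 24 → ℤ)}
    (h4 : ∀ z : Fin 24 → ℤ, (fun i => 4 * z i) ∈ M ↔ (∑ i, z i) % 2 = 0)
    (hw : ∀ c ∈ code M, 4 ∣ hammingNorm c)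
    (y y' : Fin 24 → ℤ) (hy : y ∈ M) (hy' : y' ∈ M) (he : ∀ i, y i % 2 = 0)
    (he' : ∀ i, y' i % 2 = 0)
    (hc : ∀ i, ((y i / 2 : ℤ) : ZMod 2) = ((y' i / 2 : ℤ) : ZMod 2)) :
    chi y = chi y' := by
  have h1 := four_dvd_sum hw y hy he
  have h2 := four_dvd_sum hw y' hy' he'
  have h3 := sum_congr_of_word h4 y y' hy hy' he he' hc
  unfold chi
  rw [ZMod.intCast_eq_intCast_iff_dvd_sub]
  have : (2 : ℤ) ∣ (∑ i, y' i) / 4 - (∑ i, y i) / 4 := by omega
  exact_mod_cast this

theorem chi_add {M : AddSubgroup (Fin 24 → ℤ)}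
    (hw : ∀ c ∈ code M, 4 ∣ hammingNorm c)
    (y y' : Fin 24 → ℤ) (hy : y ∈ M) (hy' : y' ∈ M) (he : ∀ i, y i % 2 = 0)
    (he' : ∀ i, y' i % 2 = 0) : chi (y + y') = chi y + chi y' := by
  have h1 := four_dvd_sum hw y hy he
  have h2 := four_dvd_sum hw y' hy' he'
  unfold chi
  rw [← Int.cast_add]
  congr 1
  have : ∑ i, (y + y') i = ∑ i, y i + ∑ i, y' i := by
    rw [← Finset.sum_add_distrib]
    rfl
  rw [this]
  omega

theorem sign_normalise {M : AddSubgroup (Fin 24 → ℤ)} (hM : Good M)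
    (h4 : ∀ z : Fin 24 → ℤ, (fun i => 4 * z i) ∈ M ↔ (∑ i, z i) % 2 = 0)
    (hw : ∀ c ∈ code M, 4 ∣ hammingNorm c) :
    ∃ ε : Fin 24 → ℤ, (∀ i, ε i = 1 ∨ ε i = -1) ∧
      ∀ y ∈ M, (∀ i, y i % 2 = 0) → (∑ i, ε i * y i) % 8 = 0 := by
  classical
  -- lifts of code words
  have hl : ∀ c : code M, ∃ y ∈ M, (∀ i, y i % 2 = 0) ∧
      ∀ i, c.1 i = ((y i / 2 : ℤ) : ZMod 2) := fun c => c.2
  choose lift hlM hle hlc using hl
  -- the functional on the code
  let f : code M →+ ZMod 2 := AddMonoidHom.mk' (fun c => chi (lift c)) (by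
    intro c c'
    have h1 : chi (lift (c + c')) = chi (lift c + lift c') := by
      refine chi_eq_of_word h4 hw _ _ (hlM _) (M.add_mem (hlM c) (hlM c')) (hle _) ?_ ?_
      · intro i
        have := hle c i
        have := hle c' i
        simp only [Pi.add_apply]
        omega
      · intro i
        rw [← hlc (c + c') i]
        have h2 : (lift c + lift c') i / 2 = lift c i / 2 + lift c' i / 2 := by
          have := hle c i
          have := hle c' i
          simp only [Pi.add_apply]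
          omega
        rw [h2, Int.cast_add, ← hlc c i, ← hlc c' i]
        rfl
    show chi (lift (c + c')) = chi (lift c) + chi (lift c')
    rw [h1, chi_add hw _ _ (hlM c) (hlM c') (hle c) (hle c')])
  obtain ⟨g, hg⟩ := (f.toZModLinearMap 2).exists_extend
  let T : Fin 24 → ZMod 2 := fun i => g (fun j => if i = j then 1 else 0)
  have hgT : ∀ c : Fin 24 → ZMod 2, g c = ∑ i, c i * T i := by
    intro c
    rw [LinearMap.pi_apply_eq_sum_univ g c]
    rfl
  -- the key identity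
  have hkey : ∀ y ∈ M, (∀ i, y i % 2 = 0) →
      chi y = ∑ i, ((y i / 2 : ℤ) : ZMod 2) * T i := by
    intro y hy he
    have hc : (fun i => ((y i / 2 : ℤ) : ZMod 2)) ∈ code M := ⟨y, hy, he, fun i => rfl⟩
    have h1 : g (fun i => ((y i / 2 : ℤ) : ZMod 2)) = chi (lift ⟨_, hc⟩) := by
      have := congrArg (fun F => F ⟨_, hc⟩) hg
      exact this
    rw [← hgT, h1]
    refine chi_eq_of_word h4 hw _ _ hy (hlM _) he (hle _) ?_
    intro i
    exact hlc ⟨_, hc⟩ i
  refine ⟨fun i => if T i = 1 then -1 else 1, ?_, ?_⟩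
  · intro i
    by_cases h : T i = 1
    · right
      simp [h]
    · left
      simp [h]
  · intro y hy he
    have h1 := four_dvd_sum hw y hy he
    have h2 := hkey y hy he
    have hT : ∀ i, T i = (((if T i = 1 then 1 else 0 : ℤ)) : ZMod 2) := by
      intro i
      have h : T i = 0 ∨ T i = 1 := by
        generalize T i = a
        fin_cases a
        · exact Or.inl rfl
        · exact Or.inr rfl
      rcases h with h | h <;> simp [h]
    have h3 : ∑ i, ((y i / 2 : ℤ) : ZMod 2) * T i =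
        ((∑ i, (y i / 2) * (if T i = 1 then 1 else 0 : ℤ) : ℤ) : ZMod 2) := by
      rw [Int.cast_sum]
      refine Finset.sum_congr rfl fun i _ => ?_
      rw [Int.cast_mul, ← hT i]
    rw [h3] at h2
    unfold chi at h2
    rw [ZMod.intCast_eq_intCast_iff_dvd_sub] at h2
    have h2' : (2 : ℤ) ∣ (∑ i, (y i / 2) * (if T i = 1 then 1 else 0 : ℤ)) - (∑ i, y i) / 4 := by
      exact_mod_cast h2
    have h5 : ∑ i, (if T i = 1 then -1 else 1 : ℤ) * y i =
        ∑ i, y i - 4 * ∑ i, (y i / 2) * (if T i = 1 then 1 else 0 : ℤ) := by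
      rw [Finset.mul_sum, ← Finset.sum_sub_distrib]
      refine Finset.sum_congr rfl fun i _ => ?_
      have := he i
      by_cases h : T i = 1
      · simp only [h, if_true]
        omega
      · simp only [h, if_false]
        omega
    show (∑ i, (if T i = 1 then -1 else 1 : ℤ) * y i) % 8 = 0
    rw [h5]
    omega

end Cfsg.Agent.Lib.Helper5.LCB10
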