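import Mathlib
import Cfsg.Agent.Lib.Helper47.QuadDefs

set_option autoImplicit false

namespace Cfsg.Agent.Lib.Helper5.QuadAC

open Cfsg.Agent.Lib.Helper47 Polynomial

/-- an anisotropic binary form over a finite field represents every nonzero element -/
theorem aniso_surj {F : Type*} [Field F] [Fintype F] (a c : F) (h : IsAniso a c) (e : F) :
    ∃ z₁ z₂ : F, z₁ ^ 2 + a * z₁ * z₂ + c * z₂ ^ 2 = e := by
  by_cases hch : ringChar F = 2
  · obtain ⟨r, hr⟩ := FiniteField.isSquare_of_char_two hch e
    exact ⟨r, 0, by rw [hr]; ring⟩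
  · have h2 : (2 : F) ≠ 0 := Ring.two_ne_zero hch
    have hodd : Fintype.card F % 2 = 1 := FiniteField.odd_card_of_char_ne_two hch
    set i2 : F := (2 : F)⁻¹ with hi2
    have h2i : 2 * i2 = 1 := mul_inv_cancel₀ h2
    have hD : c - a ^ 2 * i2 ^ 2 ≠ 0 := by
      intro hD
      have := h (-(a * i2)) 1 (by linear_combination hD + a ^ 2 * i2 * h2i)
      exact one_ne_zero this.2
    have hf2 : degree (X ^ 2 : F[X]) = 2 := degree_X_pow 2
    have hg2 : degree (C (c - a ^ 2 * i2 ^ 2) * X ^ 2 + C 0 * X + C (-e) : F[X]) = 2 :=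
      degree_quadratic hD
    obtain ⟨x, y, hxy⟩ := FiniteField.exists_root_sum_quadratic hf2 hg2 hodd
    simp only [eval_pow, eval_X, eval_add, eval_mul, eval_C] at hxy
    refine ⟨x - a * y * i2, y, ?_⟩
    linear_combination hxy - (a * x * y - a ^ 2 * y ^ 2 * i2) * h2i

theorem isTyp_aniso {F : Type*} [Field F] [Fintype F] (a c : F) (h : IsAniso a c) :
    IsTyp (fun v : F × F => v.1 ^ 2 + a * v.1 * v.2 + c * v.2 ^ 2) 0 (-1) := by
  classical
  set N : F × F → F := fun v => v.1 ^ 2 + a * v.1 * v.2 + c * v.2 ^ 2 with hN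
  let mul : F × F → F × F → F × F := fun z w =>
    (z.1 * w.1 - c * z.2 * w.2, z.1 * w.2 + z.2 * w.1 + a * z.2 * w.2)
  have hmulN : ∀ z w, N (mul z w) = N z * N w := by
    intro z w
    simp only [hN, mul]
    ring
  have hmulsub : ∀ z w w', mul z (w - w') = mul z w - mul z w' := by
    intro z w w'
    simp only [mul, Prod.fst_sub, Prod.snd_sub, Prod.mk_sub_mk]
    apply Prod.ext <;> simp only <;> ring
  have hN0 : ∀ z, N z = 0 → z = 0 := fun z hz =>
    Prod.ext (h z.1 z.2 hz).1 (h z.1 z.2 hz).2
  have hNz : N 0 = 0 := by simp [hN]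
  let n : F → ℕ := fun e => (Finset.univ.filter (fun v : F × F => N v = e)).card
  have hncard : ∀ e, Nat.card {v : F × F // N v = e} = n e := by
    intro e
    rw [Nat.card_eq_fintype_card, Fintype.card_subtype]
  have hn0 : n 0 = 1 := by
    show (Finset.univ.filter (fun v : F × F => N v = 0)).card = 1
    rw [Finset.card_eq_one]
    refine ⟨0, ?_⟩
    ext v
    simp only [Finset.mem_filter, Finset.mem_univ, true_and, Finset.mem_singleton]
    exact ⟨hN0 v, fun hv => by rw [hv]; exact hNz⟩
  have hinv : ∀ z : F × F, N z ≠ 0 → ∀ e, n (N z * e) = n e := by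
    intro z hz e
    have hinj : Function.Injective (mul z) := by
      intro w w' hww
      have h1 : mul z (w - w') = 0 := by rw [hmulsub, hww, sub_self]
      have h2 := hmulN z (w - w')
      rw [h1, hNz] at h2
      have h3 : N (w - w') = 0 := by
        rcases mul_eq_zero.1 h2.symm with h4 | h4
        · exact absurd h4 hz
        · exact h4
      exact sub_eq_zero.1 (hN0 _ h3)
    have hbij : Function.Bijective (mul z) := hinj.bijective_of_finite
    symm
    apply Finset.card_bijective (mul z) hbij
    intro w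
    simp only [Finset.mem_filter, Finset.mem_univ, true_and]
    rw [hmulN]
    constructor
    · intro hw
      rw [hw]
    · intro hw
      exact mul_left_cancel₀ hz hw
  have hconst : ∀ e, e ≠ 0 → n e = n 1 := by
    intro e he
    obtain ⟨z₁, z₂, hz⟩ := aniso_surj a c h e
    have hz' : N (z₁, z₂) = e := hz
    have := hinv (z₁, z₂) (by rw [hz']; exact he) 1
    rwa [hz', mul_one] at this
  have hsum : ∑ e : F, n e = Fintype.card F * Fintype.card F := by
    have := Finset.card_eq_sum_card_fiberwise (f := N) (s := (Finset.univ : Finset (F × F)))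
      (t := (Finset.univ : Finset F)) (fun x _ => Finset.mem_univ _)
    rw [Finset.card_univ, Fintype.card_prod] at this
    rw [this]
  rw [← Finset.add_sum_erase Finset.univ _ (Finset.mem_univ (0 : F)), hn0,
    Finset.sum_congr rfl (fun e he => hconst e (Finset.ne_of_mem_erase he)), Finset.sum_const,
    Finset.card_erase_of_mem (Finset.mem_univ _), Finset.card_univ, smul_eq_mul] at hsum
  have hq : 2 ≤ Fintype.card F := Fintype.one_lt_card
  have hn1 : n 1 = Fintype.card F + 1 := by
    generalize Fintype.card F = q at hsum hq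
    generalize n 1 = m at hsum
    obtain ⟨k, rfl⟩ : ∃ k, q = k + 2 := ⟨q - 2, by omega⟩
    have e1 : k + 2 - 1 = k + 1 := by omega
    rw [e1] at hsum
    have hk : 0 < k + 1 := by omega
    apply Nat.eq_of_mul_eq_mul_left hk
    have : (k + 2) * (k + 2) = 1 + (k + 1) * (k + 2 + 1) := by ring
    omega
  unfold IsTyp IsBal
  refine ⟨?_, ?_⟩
  · rw [hncard, hn0]
    push_cast
    ring
  · intro e he
    rw [hncard, hconst e he, hn1]
    push_cast
    ring

end Cfsg.Agent.Lib.Helper5.QuadAC
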