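import Mathlib

set_option autoImplicit false

namespace Cfsg.Agent.Lib.Helper5

section SylowConj

variable {G : Type*} [Group G]

/-- Every `p`-element is conjugate into a given Sylow `p`-subgroup. -/
theorem sylow_conj_mem [Finite G] {p : ℕ} [Fact p.Prime] (P : Sylow p G) (t : G)
    (ht : IsPGroup p (Subgroup.zpowers t)) : ∃ g : G, g⁻¹ * t * g ∈ (P : Subgroup G) := by
  obtain ⟨Q, hQ⟩ := ht.exists_le_sylow
  obtain ⟨g, rfl⟩ := MulAction.exists_smul_eq G P Q
  refine ⟨g, ?_⟩
  have h1 : t ∈ ((g • P : Sylow p G) : Subgroup G) := hQ (Subgroup.mem_zpowers t)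
  rw [Sylow.coe_subgroup_smul, Subgroup.mem_pointwise_smul_iff_inv_smul_mem] at h1
  simpa [MulAut.smul_def, mul_assoc] using h1

/-- A `p`-element normalizing a Sylow `p`-subgroup lies in it. -/
theorem sylow_mem_of_normalizer {p : ℕ} [Fact p.Prime] (P : Sylow p G) (t : G)
    (ht : IsPGroup p (Subgroup.zpowers t)) (hn : t ∈ Subgroup.normalizer (P : Set G)) :
    t ∈ (P : Subgroup G) := by
  have h1 : IsPGroup p (Subgroup.zpowers t ⊔ (P : Subgroup G) : Subgroup G) :=
    IsPGroup.to_sup_of_normal_right' ht P.2 (Subgroup.zpowers_le.mpr hn)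
  have h2 := P.is_maximal' h1 le_sup_right
  have h3 : t ∈ (Subgroup.zpowers t ⊔ (P : Subgroup G) : Subgroup G) :=
    (le_sup_left : Subgroup.zpowers t ≤ _) (Subgroup.mem_zpowers t)
  rw [h2] at h3
  exact h3

/-- An odd power of an element of a finite group that is a `2`-element. -/
theorem exists_odd_pow_two_elt [Finite G] (n : G) :
    ∃ m : ℕ, Odd m ∧ IsPGroup 2 (Subgroup.zpowers (n ^ m)) := by
  obtain ⟨k, m, hm, hkm⟩ := Nat.exists_eq_two_pow_mul_odd (orderOf_pos n).ne'
  refine ⟨m, hm, ?_⟩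
  rintro ⟨g, hg⟩
  obtain ⟨i, rfl⟩ := Subgroup.mem_zpowers_iff.mp hg
  refine ⟨k, Subtype.ext ?_⟩
  show ((n ^ m) ^ i) ^ 2 ^ k = 1
  have h1 : (n ^ m) ^ 2 ^ k = 1 := by
    rw [← pow_mul, mul_comm, ← hkm, pow_orderOf_eq_one]
  rw [← zpow_natCast, ← zpow_mul, mul_comm, zpow_mul, zpow_natCast, h1, one_zpow]

end SylowConj

section Klein

variable {G : Type*} [Group G] [Finite G] (P : Sylow 2 G)

theorem klein_mul_self (hP : IsKleinFour (P : Subgroup G)) (x : G) (hx : x ∈ (P : Subgroup G)) :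
    x * x = 1 := by
  have := IsKleinFour.mul_self (⟨x, hx⟩ : (P : Subgroup G))
  exact congrArg Subtype.val this

theorem klein_comm (hP : IsKleinFour (P : Subgroup G)) (x y : G) (hx : x ∈ (P : Subgroup G))
    (hy : y ∈ (P : Subgroup G)) : x * y = y * x := by
  have := mul_comm_of_exponent_two hP.exponent_two (⟨x, hx⟩ : (P : Subgroup G)) ⟨y, hy⟩
  exact congrArg Subtype.val this

theorem klein_orderOf (hP : IsKleinFour (P : Subgroup G)) (x : G) (hx : x ∈ (P : Subgroup G))
    (hx1 : x ≠ 1) : orderOf x = 2 :=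
  orderOf_eq_prime (by rw [pow_two]; exact klein_mul_self P hP x hx) hx1

theorem klein_eq_mul (hP : IsKleinFour (P : Subgroup G)) (x y z : G) (hx : x ∈ (P : Subgroup G))
    (hy : y ∈ (P : Subgroup G)) (hz : z ∈ (P : Subgroup G)) (hx1 : x ≠ 1) (hy1 : y ≠ 1)
    (hxy : x ≠ y) (hz1 : z ≠ 1) (hzx : z ≠ x) (hzy : z ≠ y) : z = x * y := by
  have := IsKleinFour.eq_mul_of_ne_all (G := (P : Subgroup G)) (x := ⟨x, hx⟩) (y := ⟨y, hy⟩)
    (z := ⟨z, hz⟩) (fun h => hx1 (congrArg Subtype.val h)) (fun h => hy1 (congrArg Subtype.val h))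
    (fun h => hxy (congrArg Subtype.val h)) (fun h => hz1 (congrArg Subtype.val h))
    (fun h => hzx (congrArg Subtype.val h)) (fun h => hzy (congrArg Subtype.val h))
  exact congrArg Subtype.val this

theorem klein_exists (hP : IsKleinFour (P : Subgroup G)) :
    ∃ x y : G, x ∈ (P : Subgroup G) ∧ y ∈ (P : Subgroup G) ∧ x ≠ 1 ∧ y ≠ 1 ∧ x ≠ y := by
  have hc : Nat.card (P : Subgroup G) = 4 := hP.card_four
  haveI : Fintype (P : Subgroup G) := Fintype.ofFinite _
  have h2 : 2 < Fintype.card (P : Subgroup G) := by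
    rw [← Nat.card_eq_fintype_card, hc]; norm_num
  obtain ⟨a, b, c, hab, hac, hbc⟩ := Fintype.two_lt_card_iff.mp h2
  have key : ∀ u v : (P : Subgroup G), u ≠ 1 → v ≠ 1 → u ≠ v →
      ∃ x y : G, x ∈ (P : Subgroup G) ∧ y ∈ (P : Subgroup G) ∧ x ≠ 1 ∧ y ≠ 1 ∧ x ≠ y :=
    fun u v hu hv huv => ⟨u, v, u.2, v.2, fun h => hu (Subtype.ext h), fun h => hv (Subtype.ext h),
      fun h => huv (Subtype.ext h)⟩
  by_cases ha : a = 1
  · exact key b c (fun h => hab (ha.trans h.symm)) (fun h => hac (ha.trans h.symm)) hbc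
  · by_cases hb : b = 1
    · exact key a c ha (fun h => hbc (hb.trans h.symm)) hac
    · exact key a b ha hb hab

theorem klein_fusion (hP : IsKleinFour (P : Subgroup G)) (x g : G) (hx : x ∈ (P : Subgroup G))
    (hy : g * x * g⁻¹ ∈ (P : Subgroup G)) :
    ∃ n ∈ Subgroup.normalizer ((P : Subgroup G) : Set G), g * x * g⁻¹ = n * x * n⁻¹ := by
  haveI : IsMulCommutative (P : Subgroup G) := IsKleinFour.isMulCommutative
  have hy' : (g⁻¹)⁻¹ * x * g⁻¹ ∈ (P : Subgroup G) := by rw [inv_inv]; exact hy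
  obtain ⟨n, hn, h⟩ := P.conj_eq_normalizer_conj_of_mem x g⁻¹ hx hy'
  exact ⟨n⁻¹, inv_mem hn, by simpa using h⟩

theorem klein_no_swap (hP : IsKleinFour (P : Subgroup G)) (n : G)
    (hn : n ∈ Subgroup.normalizer ((P : Subgroup G) : Set G)) (x y : G)
    (hx : x ∈ (P : Subgroup G)) (hxy : x ≠ y) (h1 : n * x * n⁻¹ = y) (h2 : n * y * n⁻¹ = x) :
    False := by
  obtain ⟨m, hm, hpg⟩ := exists_odd_pow_two_elt n
  have hmem : n ^ m ∈ (P : Subgroup G) := sylow_mem_of_normalizer P _ hpg (pow_mem hn m)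
  have hcx : Commute (n * n) x := by
    show n * n * x = x * (n * n)
    calc n * n * x = n * (n * x * n⁻¹) * n⁻¹ * (n * n) := by group
      _ = n * y * n⁻¹ * (n * n) := by rw [h1]
      _ = x * (n * n) := by rw [h2]
  have hcy : Commute (n * n) y := by
    show n * n * y = y * (n * n)
    calc n * n * y = n * (n * y * n⁻¹) * n⁻¹ * (n * n) := by group
      _ = n * x * n⁻¹ * (n * n) := by rw [h2]
      _ = y * (n * n) := by rw [h1]
  obtain ⟨j, rfl⟩ := hm
  have h3 : n ^ (2 * j + 1) * x * (n ^ (2 * j + 1))⁻¹ = y := by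
    have e : n ^ (2 * j + 1) = (n * n) ^ j * n := by rw [pow_succ, pow_mul, pow_two]
    rw [e]
    have hc : (n * n) ^ j * y = y * (n * n) ^ j := hcy.pow_left j
    calc (n * n) ^ j * n * x * ((n * n) ^ j * n)⁻¹
        = (n * n) ^ j * (n * x * n⁻¹) * ((n * n) ^ j)⁻¹ := by
          rw [mul_inv_rev]; simp only [mul_assoc]
      _ = (n * n) ^ j * y * ((n * n) ^ j)⁻¹ := by rw [h1]
      _ = y := by rw [hc, mul_inv_cancel_right]
  have h4 := klein_comm P hP (n ^ (2 * j + 1)) x hmem hx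
  rw [h4, mul_inv_cancel_right] at h3
  exact hxy h3

theorem klein_conj_third (hP : IsKleinFour (P : Subgroup G)) (x y : G)
    (hx : x ∈ (P : Subgroup G)) (hy : y ∈ (P : Subgroup G)) (hx1 : x ≠ 1) (hy1 : y ≠ 1)
    (hxy : x ≠ y) (hc : IsConj x y) : IsConj y (x * y) := by
  obtain ⟨g, hg⟩ := isConj_iff.mp hc
  obtain ⟨n, hn, hn'⟩ := klein_fusion P hP x g hx (by rw [hg]; exact hy)
  rw [hg] at hn'
  have hz : n * y * n⁻¹ ∈ (P : Subgroup G) := (Subgroup.mem_normalizer_iff.mp hn y).mp hy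
  have hz1 : n * y * n⁻¹ ≠ 1 := by
    intro h
    apply hy1
    calc y = n⁻¹ * (n * y * n⁻¹) * n := by group
      _ = 1 := by rw [h]; group
  have hzy : n * y * n⁻¹ ≠ y := by
    intro h
    apply hxy
    have h5 : n * y * n⁻¹ = n * x * n⁻¹ := h.trans hn'
    calc x = n⁻¹ * (n * x * n⁻¹) * n := by group
      _ = n⁻¹ * (n * y * n⁻¹) * n := by rw [h5]
      _ = y := by group
  by_cases hzx : n * y * n⁻¹ = x
  · exact (klein_no_swap P hP n hn x y hx hxy hn'.symm hzx).elim
  · have := klein_eq_mul P hP x y (n * y * n⁻¹) hx hy hz hx1 hy1 hxy hz1 hzx hzy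
    exact isConj_iff.mpr ⟨n, this⟩

/-- The classes of involutions of a group with Klein four Sylow `2`-subgroup `{1, x, y, xy}`:
either the three involutions of `P` are pairwise non-conjugate and there are three classes,
or they are all conjugate and there is one class. -/
theorem klein_classes (hP : IsKleinFour (P : Subgroup G)) (x y : G)
    (hx : x ∈ (P : Subgroup G)) (hy : y ∈ (P : Subgroup G)) (hx1 : x ≠ 1) (hy1 : y ≠ 1)
    (hxy : x ≠ y) :
    (¬ IsConj x y ∧ ¬ IsConj x (x * y) ∧ ¬ IsConj y (x * y) ∧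
      Nat.card {C : ConjClasses G // ∃ t : G, orderOf t = 2 ∧ ConjClasses.mk t = C} = 3) ∨
    (IsConj x y ∧
      Nat.card {C : ConjClasses G // ∃ t : G, orderOf t = 2 ∧ ConjClasses.mk t = C} = 1) := by
  have hxyP : x * y ∈ (P : Subgroup G) := mul_mem hx hy
  have hxy1 : x * y ≠ 1 := by
    intro h
    apply hxy
    calc x = x * (x * y) := by rw [h, mul_one]
      _ = y := by rw [← mul_assoc, klein_mul_self P hP x hx, one_mul]
  have hxxy : x ≠ x * y := fun h => hy1 (by simpa using h)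
  have hyxy : y ≠ x * y := fun h => hx1 (by simpa using h)
  have hinv : ∀ t : G, orderOf t = 2 → IsConj t x ∨ IsConj t y ∨ IsConj t (x * y) := by
    intro t ht
    have hpg : IsPGroup 2 (Subgroup.zpowers t) :=
      IsPGroup.of_card (n := 1) (by rw [Nat.card_zpowers, ht, pow_one])
    obtain ⟨g, hg⟩ := sylow_conj_mem P t hpg
    have hc : IsConj t (g⁻¹ * t * g) := isConj_iff.mpr ⟨g⁻¹, by simp⟩
    have h1 : g⁻¹ * t * g ≠ 1 := by
      intro h
      have ht1 : t = 1 := by
        calc t = g * (g⁻¹ * t * g) * g⁻¹ := by group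
          _ = 1 := by rw [h]; group
      rw [ht1, orderOf_one] at ht
      norm_num at ht
    by_cases h2 : g⁻¹ * t * g = x
    · left; rw [← h2]; exact hc
    by_cases h3 : g⁻¹ * t * g = y
    · right; left; rw [← h3]; exact hc
    right; right
    rw [← klein_eq_mul P hP x y _ hx hy hg hx1 hy1 hxy h1 h2 h3]; exact hc
  have hox : orderOf x = 2 := klein_orderOf P hP x hx hx1
  have hoy : orderOf y = 2 := klein_orderOf P hP y hy hy1
  have hoxy : orderOf (x * y) = 2 := klein_orderOf P hP (x * y) hxyP hxy1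
  by_cases hall : IsConj x y ∨ IsConj x (x * y) ∨ IsConj y (x * y)
  · right
    have hcxy : IsConj x y ∧ IsConj y (x * y) := by
      rcases hall with h | h | h
      · exact ⟨h, klein_conj_third P hP x y hx hy hx1 hy1 hxy h⟩
      · have h' := klein_conj_third P hP x (x * y) hx hxyP hx1 hxy1 hxxy h
        have e : x * (x * y) = y := by rw [← mul_assoc, klein_mul_self P hP x hx, one_mul]
        rw [e] at h'
        exact ⟨h.trans h', h'.symm⟩
      · have h' := klein_conj_third P hP y (x * y) hy hxyP hy1 hxy1 hyxy h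
        have e : y * (x * y) = x := by
          rw [klein_comm P hP x y hx hy, ← mul_assoc, klein_mul_self P hP y hy, one_mul]
        rw [e] at h'
        exact ⟨h'.symm.trans h.symm, h⟩
    refine ⟨hcxy.1, ?_⟩
    rw [Nat.card_eq_one_iff_unique]
    refine ⟨⟨?_⟩, ⟨⟨ConjClasses.mk x, x, hox, rfl⟩⟩⟩
    have key : ∀ C : {C : ConjClasses G // ∃ t : G, orderOf t = 2 ∧ ConjClasses.mk t = C},
        C.1 = ConjClasses.mk x := by
      rintro ⟨C, t, ht, rfl⟩
      rw [ConjClasses.mk_eq_mk_iff_isConj]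
      rcases hinv t ht with h | h | h
      · exact h
      · exact h.trans hcxy.1.symm
      · exact h.trans (hcxy.1.trans hcxy.2).symm
    intro C D
    exact Subtype.ext ((key C).trans (key D).symm)
  · left
    push Not at hall
    refine ⟨hall.1, hall.2.1, hall.2.2, ?_⟩
    show Nat.card ({C : ConjClasses G | ∃ t : G, orderOf t = 2 ∧ ConjClasses.mk t = C} : Set _) = 3
    rw [Nat.card_coe_set_eq, Set.ncard_eq_three]
    refine ⟨ConjClasses.mk x, ConjClasses.mk y, ConjClasses.mk (x * y),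
      fun h => hall.1 (ConjClasses.mk_eq_mk_iff_isConj.mp h),
      fun h => hall.2.1 (ConjClasses.mk_eq_mk_iff_isConj.mp h),
      fun h => hall.2.2 (ConjClasses.mk_eq_mk_iff_isConj.mp h), ?_⟩
    ext C
    simp only [Set.mem_ofPred_eq, Set.mem_insert_iff, Set.mem_singleton_iff]
    constructor
    · rintro ⟨t, ht, rfl⟩
      rcases hinv t ht with h | h | h
      · left; exact ConjClasses.mk_eq_mk_iff_isConj.mpr h
      · right; left; exact ConjClasses.mk_eq_mk_iff_isConj.mpr h
      · right; right; exact ConjClasses.mk_eq_mk_iff_isConj.mpr h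
    · rintro (rfl | rfl | rfl)
      · exact ⟨x, hox, rfl⟩
      · exact ⟨y, hoy, rfl⟩
      · exact ⟨x * y, hoxy, rfl⟩

/-- If the involutions of a Klein four Sylow subgroup are pairwise non-conjugate, its
normalizer centralizes it. -/
theorem klein_normalizer_le_centralizer (hP : IsKleinFour (P : Subgroup G)) (x y : G)
    (hx : x ∈ (P : Subgroup G)) (hy : y ∈ (P : Subgroup G)) (hx1 : x ≠ 1) (hy1 : y ≠ 1)
    (hxy : x ≠ y) (h1 : ¬ IsConj x y) (h2 : ¬ IsConj x (x * y)) (h3 : ¬ IsConj y (x * y)) :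
    Subgroup.normalizer ((P : Subgroup G) : Set G) ≤
      Subgroup.centralizer ((P : Subgroup G) : Set G) := by
  have hcase : ∀ z ∈ (P : Subgroup G), z = 1 ∨ z = x ∨ z = y ∨ z = x * y := by
    intro z hz
    by_cases hz1 : z = 1
    · exact Or.inl hz1
    by_cases hzx : z = x
    · exact Or.inr (Or.inl hzx)
    by_cases hzy : z = y
    · exact Or.inr (Or.inr (Or.inl hzy))
    exact Or.inr (Or.inr (Or.inr (klein_eq_mul P hP x y z hx hy hz hx1 hy1 hxy hz1 hzx hzy)))
  have hnc : ∀ u ∈ (P : Subgroup G), ∀ v ∈ (P : Subgroup G), IsConj u v → u = v := by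
    intro u hu v hv huv
    rcases hcase u hu with rfl | rfl | rfl | rfl
    · exact (isConj_one_right.mp huv).symm
    · rcases hcase v hv with rfl | rfl | rfl | rfl
      · exact isConj_one_left.mp huv
      · rfl
      · exact (h1 huv).elim
      · exact (h2 huv).elim
    · rcases hcase v hv with rfl | rfl | rfl | rfl
      · exact isConj_one_left.mp huv
      · exact (h1 huv.symm).elim
      · rfl
      · exact (h3 huv).elim
    · rcases hcase v hv with rfl | rfl | rfl | rfl
      · exact isConj_one_left.mp huv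
      · exact (h2 huv.symm).elim
      · exact (h3 huv.symm).elim
      · rfl
  intro n hn
  rw [Subgroup.mem_centralizer_iff]
  intro z hz
  have hw : n * z * n⁻¹ ∈ (P : Subgroup G) := (Subgroup.mem_normalizer_iff.mp hn z).mp hz
  have := hnc z hz _ hw (isConj_iff.mpr ⟨n, rfl⟩)
  calc z * n = n * z * n⁻¹ * n := by rw [← this]
    _ = n * z := by group

/-- If a Klein four Sylow subgroup has a normal complement, distinct elements of it are not
conjugate. -/
theorem klein_not_conj_of_complement (hP : IsKleinFour (P : Subgroup G)) (N : Subgroup G)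
    (hN : N.Normal) (hc : Subgroup.IsComplement' N (P : Subgroup G)) (x y : G)
    (hx : x ∈ (P : Subgroup G)) (hy : y ∈ (P : Subgroup G)) (hxy : x ≠ y) : ¬ IsConj x y := by
  intro h
  obtain ⟨g, hg⟩ := isConj_iff.mp h
  obtain ⟨⟨n, p⟩, hnp⟩ := hc.2 g
  simp only at hnp
  have hpx : (p : G) * x * (p : G)⁻¹ = x := by
    rw [klein_comm P hP p x p.2 hx, mul_inv_cancel_right]
  have hg' : (n : G) * x * (n : G)⁻¹ = y := by
    rw [← hg, ← hnp]
    calc (n : G) * x * (n : G)⁻¹ = (n : G) * ((p : G) * x * (p : G)⁻¹) * (n : G)⁻¹ := by rw [hpx]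
      _ = (n : G) * (p : G) * x * ((n : G) * (p : G))⁻¹ := by group
  have hmemN : y * x⁻¹ ∈ N := by
    rw [← hg']
    have : (n : G) * x * (n : G)⁻¹ * x⁻¹ = (n : G) * (x * (n : G)⁻¹ * x⁻¹) := by group
    rw [this]
    exact N.mul_mem n.2 (hN.conj_mem _ (N.inv_mem n.2) x)
  have hmemP : y * x⁻¹ ∈ (P : Subgroup G) := mul_mem hy (inv_mem hx)
  have h1 : y * x⁻¹ = 1 := by
    have hd := hc.disjoint
    rw [Subgroup.disjoint_def] at hd
    exact hd hmemN hmemP
  apply hxy
  calc x = 1 * x := (one_mul x).symm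
    _ = y * x⁻¹ * x := by rw [h1]
    _ = y := by group

end Klein

end Cfsg.Agent.Lib.Helper5
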