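import Mathlib
import Cfsg.Agent.Lib.Helper45.MinIdxA

set_option autoImplicit false

namespace Cfsg.Agent.Lib.Helper5.MinIdx

open Matrix Cfsg.Agent.Lib.Helper50 Cfsg.Agent.Lib.Helper45.MinIdx

/-- `SL_k` (`k ≥ 2`) is transitive on non-zero vectors. -/
theorem exists_sl_move {F : Type*} [Field F] (k : ℕ) (hk : 2 ≤ k) (w w' : Fin k → F)
    (hw : w ≠ 0) (hw' : w' ≠ 0) :
    ∃ B : Matrix.SpecialLinearGroup (Fin k) F, (B : Matrix (Fin k) (Fin k) F) *ᵥ w = w' := by
  have h01 : (⟨0, by omega⟩ : Fin k) ≠ ⟨1, by omega⟩ := by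
    intro h
    exact absurd (congrArg Fin.val h) (by norm_num)
  obtain ⟨g, hg⟩ := Cfsg.Agent.Lib.Helper87.exists_sl_single (F := F) h01 hw
  obtain ⟨g', hg'⟩ := Cfsg.Agent.Lib.Helper87.exists_sl_single (F := F) h01 hw'
  refine ⟨g' * g⁻¹, ?_⟩
  rw [← hg, Matrix.SpecialLinearGroup.coe_mul, Matrix.mulVec_mulVec, Matrix.mul_assoc]
  have h1 : ((g⁻¹ : Matrix.SpecialLinearGroup (Fin k) F) : Matrix (Fin k) (Fin k) F)
      * (g : Matrix (Fin k) (Fin k) F) = 1 := by
    rw [← Matrix.SpecialLinearGroup.coe_mul, inv_mul_cancel, Matrix.SpecialLinearGroup.coe_one]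
  rw [h1, Matrix.mul_one, hg']

theorem kappa_count {F : Type*} [Field F] [Fintype F] (k : ℕ) (hk : 2 ≤ k) (t : ℕ)
    (P : Fin t → AddSubgroup (Fin k → F))
    (hinv : ∀ B : Matrix.SpecialLinearGroup (Fin k) F, ∃ π : Equiv.Perm (Fin t), ∀ i x,
      ((B : Matrix (Fin k) (Fin k) F) *ᵥ x ∈ P (π i) ↔ x ∈ P i)) :
    ∃ κ : ℕ, (∀ w : Fin k → F, w ≠ 0 → Nat.card {i : Fin t // w ∈ P i} = κ) ∧
      ∑ i, Nat.card (P i) = κ * (Fintype.card F ^ k - 1) + t := by
  classical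
  have hk0 : 0 < k := by omega
  set w0 : Fin k → F := Pi.single ⟨0, hk0⟩ 1 with hw0def
  have hw0 : w0 ≠ 0 := by
    intro h
    have h1 := congrFun h ⟨0, hk0⟩
    rw [hw0def, Pi.single_eq_same, Pi.zero_apply] at h1
    exact one_ne_zero h1
  have hκ : ∀ w : Fin k → F, w ≠ 0 →
      Nat.card {i : Fin t // w ∈ P i} = Nat.card {i : Fin t // w0 ∈ P i} := by
    intro w hw
    obtain ⟨B, hB⟩ := exists_sl_move k hk w w0 hw hw0
    obtain ⟨π, hπ⟩ := hinv B
    refine Nat.card_congr (π.subtypeEquiv ?_)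
    intro i
    rw [← hB]
    exact (hπ i w).symm
  refine ⟨Nat.card {i : Fin t // w0 ∈ P i}, hκ, ?_⟩
  have h1 : ∀ i, Nat.card (P i) = ∑ w : Fin k → F, if w ∈ P i then 1 else 0 := by
    intro i
    rw [Finset.sum_boole, Nat.cast_id]
    rw [← Fintype.card_subtype, ← Nat.card_eq_fintype_card]
  have h2 : ∀ w : Fin k → F, (∑ i : Fin t, if w ∈ P i then 1 else 0)
      = Nat.card {i : Fin t // w ∈ P i} := by
    intro w
    rw [Finset.sum_boole, Nat.cast_id]
    rw [← Fintype.card_subtype, ← Nat.card_eq_fintype_card]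
  rw [Finset.sum_congr rfl (fun i _ => h1 i), Finset.sum_comm,
    Finset.sum_congr rfl (fun w _ => h2 w)]
  rw [← Finset.add_sum_erase Finset.univ _ (Finset.mem_univ (0 : Fin k → F))]
  have h3 : Nat.card {i : Fin t // (0 : Fin k → F) ∈ P i} = t := by
    have : Nat.card {i : Fin t // (0 : Fin k → F) ∈ P i} = Nat.card (Fin t) := by
      refine Nat.card_congr (Equiv.subtypeUnivEquiv ?_)
      intro i
      exact (P i).zero_mem
    rw [this, Nat.card_eq_fintype_card, Fintype.card_fin]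
  rw [h3]
  have h4 : ∑ w ∈ Finset.univ.erase (0 : Fin k → F), Nat.card {i : Fin t // w ∈ P i}
      = ∑ w ∈ Finset.univ.erase (0 : Fin k → F), Nat.card {i : Fin t // w0 ∈ P i} := by
    refine Finset.sum_congr rfl ?_
    intro w hw
    exact hκ w (Finset.ne_of_mem_erase hw)
  rw [h4, Finset.sum_const, Finset.card_erase_of_mem (Finset.mem_univ _), Finset.card_univ,
    Fintype.card_pi, Finset.prod_const, Finset.card_univ, Fintype.card_fin, smul_eq_mul]
  ring

end Cfsg.Agent.Lib.Helper5.MinIdx
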