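import Mathlib
import Cfsg.Agent.Lib.Helper45.MinIdxA

set_option autoImplicit false

namespace Cfsg.Agent.Lib.Helper5.MinIdx

open Matrix Cfsg.Agent.Lib.Helper50 Cfsg.Agent.Lib.Helper45.MinIdx

theorem exists_index_eq {F : Type*} [Field F] [Fintype F] (n : ℕ) (hn : 3 ≤ n) :
    ∃ H : Subgroup (Matrix.ProjectiveSpecialLinearGroup (Fin n) F),
      H.index = (Fintype.card F ^ n - 1) / (Fintype.card F - 1) := by
  classical
  have hn0 : 0 < n := by omega
  have hv : (Pi.single (⟨0, hn0⟩ : Fin n) (1 : F) : Fin n → F) ≠ 0 := by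
    intro h
    have h1 := congrFun h ⟨0, hn0⟩
    rw [Pi.single_eq_same, Pi.zero_apply] at h1
    exact one_ne_zero h1
  let x : Projectivization F (Fin n → F) := Projectivization.mk F _ hv
  have : MulAction.IsPretransitive (Matrix.ProjectiveSpecialLinearGroup (Fin n) F)
      (Projectivization F (Fin n → F)) := MulAction.IsPreprimitive.toIsPretransitive
  refine ⟨MulAction.stabilizer (Matrix.ProjectiveSpecialLinearGroup (Fin n) F) x, ?_⟩
  rw [MulAction.index_stabilizer_of_transitive, Projectivization.card'', Nat.card_eq_fintype_card,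
    Nat.card_eq_fintype_card, Fintype.card_pi, Finset.prod_const, Finset.card_univ,
    Fintype.card_fin]

end Cfsg.Agent.Lib.Helper5.MinIdx
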