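import Mathlib
import Cfsg.Agent.Lib.Helper48.MulA

set_option autoImplicit false
open scoped commutatorElement

namespace Cfsg.Agent.Lib.Helper48.Mul

open Cfsg.Agent.Lib.Helper48 Cfsg.Agent.Lib.Helper48.St Cfsg.Agent.Lib.Helper70

section general

/-- piece CEN -/
theorem center_equiv_zmod {F : Type*} [Field F] [Fintype F] (n : ℕ) (hn : 2 ≤ n) :
    Nonempty (Subgroup.center (Matrix.SpecialLinearGroup (Fin n) F) ≃*
      Multiplicative (ZMod (Nat.gcd n (Fintype.card F - 1)))) := by
  have hk : max (Fintype.card (Fin n)) 1 = n := by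
    rw [Fintype.card_fin]
    exact max_eq_left (by omega)
  have e1 : Subgroup.center (Matrix.SpecialLinearGroup (Fin n) F) ≃* rootsOfUnity n F := by
    have e := Matrix.SpecialLinearGroup.center_equiv_rootsOfUnity (n := Fin n) (R := F)
    rw [hk] at e
    exact e
  have hker : rootsOfUnity n F = (powMonoidHom n : Fˣ →* Fˣ).ker := by
    ext ζ
    rw [mem_rootsOfUnity, MonoidHom.mem_ker, powMonoidHom_apply]
  have hcyc : IsCyclic (rootsOfUnity n F) := Subgroup.isCyclic _
  have hcard : Nat.card (rootsOfUnity n F) = Nat.gcd n (Fintype.card F - 1) := by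
    rw [hker, IsCyclic.card_powMonoidHom_ker, Nat.card_units, Nat.card_eq_fintype_card,
      Nat.gcd_comm]
  rw [← hcard]
  exact ⟨e1.trans (zmodCyclicMulEquiv hcyc).symm⟩

end general

end Cfsg.Agent.Lib.Helper48.Mul
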