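import Mathlib
import Cfsg.Agent.Lib.Helper48.MulA

set_option autoImplicit false
open scoped commutatorElement

namespace Cfsg.Agent.Lib.Helper48.Mul

open Cfsg.Agent.Lib.Helper48 Cfsg.Agent.Lib.Helper48.St Cfsg.Agent.Lib.Helper70

section abstract

variable {Γ : Type*} [Group Γ] {G : Type*} [Group G] {K : Type*} [Field K] {n : ℕ}

/-- piece HD5 -/
theorem hypD5 (σ : Γ →* G) (hs : Function.Surjective σ) (hc : σ.ker ≤ Subgroup.center Γ) (hn : 5 ≤ n)
    (x : Fin n → Fin n → K → G) (hx : StRel x) : HypD σ x := by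
  intro i j k l hij hik hil hjk hjl hkl a b
  obtain ⟨m, hmi, hmj, hmk, hml⟩ : ∃ m : Fin n, m ≠ i ∧ m ≠ j ∧ m ≠ k ∧ m ≠ l := by
    classical
    by_contra hcon
    push Not at hcon
    have hsub : (Finset.univ : Finset (Fin n)) ⊆ {i, j, k, l} := by
      intro m _
      by_cases h1 : m = i
      · simp [h1]
      by_cases h2 : m = j
      · simp [h2]
      by_cases h3 : m = k
      · simp [h3]
      have h4 := hcon m h1 h2 h3
      simp [h4]
    have h1 := Finset.card_le_card hsub
    have h2 : ({i, j, k, l} : Finset (Fin n)).card ≤ 4 := Finset.card_le_four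
    rw [Finset.card_univ, Fintype.card_fin] at h1
    omega
  obtain ⟨u, hu⟩ := hs (x i j a)
  obtain ⟨v, hv⟩ := hs (x k m 1)
  obtain ⟨w, hw⟩ := hs (x m l b)
  have h1 : Commute (σ u) (σ v) := by
    rw [hu, hv]
    exact hx.comm i j k m hij hmk.symm hmi.symm hjk a 1
  have h2 : Commute (σ u) (σ w) := by
    rw [hu, hw]
    exact hx.comm i j m l hij hml hil hmj.symm a b
  have h3 := commute_lift_comm hc h1 h2
  have h4 : σ ⁅v, w⁆ = x k l b := by
    rw [map_commutatorElement, hv, hw, commutatorElement_def,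
      hx.comm3 k m l hmk.symm hml hkl 1 b, one_mul]
  exact CL_of_exists hc ⟨u, ⁅v, w⁆, hu, h4, h3⟩

end abstract

end Cfsg.Agent.Lib.Helper48.Mul
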