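import Mathlib
import Cfsg.Agent.Lib.Helper4.BrSpan
import Cfsg.Agent.Lib.Helper5.CharInd

set_option autoImplicit false

namespace Cfsg.Agent.Lib.Helper5

open Cfsg Cfsg.Agent.Lib.Helper4
open scoped ComplexConjugate

section Mobius

variable {A : Type*} [Group A] [Fintype A]

/-- Möbius-type lemma: if the sum of `ν` over every subgroup is an integer, so is the sum of
`ν` over the generators of every (cyclic) subgroup. -/
theorem sum_gen_int [DecidableEq (Subgroup A)] [∀ B : Subgroup A, DecidablePred (· ∈ B)]
    (ν : A → ℂ)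
    (hν : ∀ B : Subgroup A, ∃ z : ℤ, ∑ k : A, (if k ∈ B then ν k else 0) = z) :
    ∀ (n : ℕ) (B : Subgroup A), Nat.card B = n →
      ∃ z : ℤ, ∑ k : A, (if Subgroup.zpowers k = B then ν k else 0) = z := by
  classical
  haveI : Fintype (Subgroup A) := Fintype.ofFinite _
  intro n
  induction n using Nat.strong_induction_on with
  | _ n ih =>
    intro B hB
    have key : ∑ k : A, (if k ∈ B then ν k else 0) = ∑ C : Subgroup A,
        if C ≤ B then ∑ k : A, (if Subgroup.zpowers k = C then ν k else 0) else 0 := by
      have h1 : ∀ C : Subgroup A,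
          (if C ≤ B then ∑ k : A, (if Subgroup.zpowers k = C then ν k else 0) else 0) =
            ∑ k : A, if (C ≤ B ∧ Subgroup.zpowers k = C) then ν k else 0 := by
        intro C
        by_cases hC : C ≤ B
        · simp [hC]
        · simp [hC]
      simp only [h1]
      rw [Finset.sum_comm]
      apply Finset.sum_congr rfl
      intro k _
      rw [Finset.sum_eq_single (Subgroup.zpowers k)]
      · by_cases hk : k ∈ B
        · simp [hk, Subgroup.zpowers_le]
        · simp [hk, Subgroup.zpowers_le]
      · intro C _ hC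
        rw [if_neg]
        rintro ⟨_, h⟩
        exact hC h.symm
      · intro h
        exact absurd (Finset.mem_univ _) h
    obtain ⟨zB, hzB⟩ := hν B
    rw [key, ← Finset.add_sum_erase Finset.univ _ (Finset.mem_univ B), if_pos le_rfl] at hzB
    have hrest : ∃ z : ℤ, ∑ C ∈ Finset.univ.erase B,
        (if C ≤ B then ∑ k : A, (if Subgroup.zpowers k = C then ν k else 0) else 0) = z := by
      have h2 : ∀ C : Subgroup A, ∃ z : ℤ, C ∈ Finset.univ.erase B →
          (if C ≤ B then ∑ k : A, (if Subgroup.zpowers k = C then ν k else 0) else 0) = z := by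
        intro C
        by_cases hC : C ∈ Finset.univ.erase B
        · by_cases hCB : C ≤ B
          · have hlt : Nat.card C < n := by
              by_contra hge
              push Not at hge
              rw [← hB] at hge
              exact (Finset.ne_of_mem_erase hC) (Subgroup.eq_of_le_of_card_ge hCB hge)
            obtain ⟨z, hz⟩ := ih (Nat.card C) hlt C rfl
            exact ⟨z, fun _ => by rw [if_pos hCB]; exact hz⟩
          · exact ⟨0, fun _ => by rw [if_neg hCB]; simp⟩
        · exact ⟨0, fun h => absurd h hC⟩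
      choose z hz using h2
      refine ⟨∑ C ∈ Finset.univ.erase B, z C, ?_⟩
      push_cast
      exact Finset.sum_congr rfl (fun C hC => hz C hC)
    obtain ⟨zr, hzr⟩ := hrest
    refine ⟨zB - zr, ?_⟩
    push_cast
    rw [← hzB, hzr]
    ring

end Mobius

section Artin

variable {G : Type*} [Group G] [Fintype G]

/-- The Artin coefficient `∑_{k generating A} φ(k) conj(χ(k))` of a character `φ` at an
irreducible character `χ` of a subgroup `A` is an integer. -/
theorem artin_coeff_int (A : Subgroup G) [Fintype A] [DecidableEq (Subgroup G)] (φ : G → ℂ)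
    (hφ : IsCharacter G φ) (χ : IrrCharacter A) :
    ∃ z : ℤ, ∑ k : A,
      (if Subgroup.zpowers (k : G) = A then φ k * conj ((χ : A → ℂ) k) else 0) = z := by
  classical
  have hν : ∀ B : Subgroup A, ∃ z : ℤ,
      ∑ k : A, (if k ∈ B then φ k * conj ((χ : A → ℂ) k) else 0) = z := by
    intro B
    have hφB : IsCharacter B (fun b : B => φ ((b : A) : G)) :=
      isCharacter_restrict B (fun a : A => φ a) (isCharacter_restrict A φ hφ)
    have hχB : IsCharacter B (fun b : B => (χ : A → ℂ) b) :=
      isCharacter_restrict B _ (isCharacter_of_irr χ)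
    obtain ⟨m, hm⟩ := classInner_isCharacter_isCharacter_nat _ _ hφB hχB
    refine ⟨(Nat.card B : ℤ) * m, ?_⟩
    rw [classInner_def] at hm
    have hne : (Nat.card B : ℂ) ≠ 0 := by
      exact_mod_cast (Nat.card_pos (α := B)).ne'
    have h1 : ∑ k : A, (if k ∈ B then φ k * conj ((χ : A → ℂ) k) else 0)
        = ∑ b : B, φ ((b : A) : G) * conj ((χ : A → ℂ) b) := by
      rw [← Finset.sum_filter]
      exact Finset.sum_subtype (Finset.univ.filter (fun k : A => k ∈ B)) (by simp)
        (fun k : A => φ k * conj ((χ : A → ℂ) k))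
    rw [h1]
    push_cast
    rw [← hm, ← mul_assoc, mul_inv_cancel₀ hne, one_mul]
  obtain ⟨z, hz⟩ := sum_gen_int (fun k : A => φ k * conj ((χ : A → ℂ) k)) hν (Nat.card (⊤ : Subgroup A))
    ⊤ rfl
  refine ⟨z, ?_⟩
  rw [← hz]
  apply Finset.sum_congr rfl
  intro k _
  have hiff : Subgroup.zpowers (k : G) = A ↔ Subgroup.zpowers k = (⊤ : Subgroup A) := by
    have h1 : (Subgroup.zpowers k).map A.subtype = Subgroup.zpowers (k : G) :=
      MonoidHom.map_zpowers A.subtype k
    have h2 : (⊤ : Subgroup A).map A.subtype = A := by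
      rw [← MonoidHom.range_eq_map, Subgroup.range_subtype]
    constructor
    · intro h
      apply Subgroup.map_injective A.subtype_injective
      rw [h1, h2, h]
    · intro h
      rw [← h1, h, h2]
  by_cases hk : Subgroup.zpowers (k : G) = A
  · rw [if_pos hk, if_pos (hiff.mp hk)]
  · rw [if_neg hk, if_neg (fun h => hk (hiff.mpr h))]

theorem extendByZero_gen (A : Subgroup G) [DecidableEq (Subgroup G)] (c : ℂ) (φ : G → ℂ)
    (y : G) :
    extendByZero A (fun k : A => if Subgroup.zpowers (k : G) = A then c * φ k else 0) y =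
      if Subgroup.zpowers y = A then c * φ y else 0 := by
  by_cases hy : y ∈ A
  · rw [extendByZero_apply_mem' A _ hy]
  · rw [extendByZero_apply_not_mem A _ hy, if_neg]
    intro h
    apply hy
    rw [← h]
    exact Subgroup.mem_zpowers y

/-- **Artin's induction theorem** with integer coefficients: `|G| φ` is an integer
combination of characters induced from irreducible characters of cyclic subgroups. -/
theorem artin_exists (φ : G → ℂ) (hφ : IsCharacter G φ) :
    ∃ c : ∀ A : Subgroup G, IrrCharacter A → ℤ,
      ∀ (_ : Fintype {A : Subgroup G // IsCyclic A}) (_ : ∀ A : Subgroup G, Fintype (IrrCharacter A)),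
        (Nat.card G : ℂ) • φ = ∑ A : {A : Subgroup G // IsCyclic A},
          ∑ χ : IrrCharacter A.1, (c A.1 χ : ℂ) • indFun A.1 (χ : A.1 → ℂ) := by
  classical
  have hcf := isClassFunction_of_isCharacter φ hφ
  have hc : ∀ (A : Subgroup G) (χ : IrrCharacter A), ∃ z : ℤ, ∑ k : A,
      (if Subgroup.zpowers (k : G) = A then φ k * conj ((χ : A → ℂ) k) else 0) = z :=
    fun A χ => artin_coeff_int A φ hφ χ
  choose c hc using hc
  refine ⟨c, ?_⟩
  intro inst1 inst2
  funext x
  have hA : ∀ A : {A : Subgroup G // IsCyclic A},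
      (∑ χ : IrrCharacter A.1, (c A.1 χ : ℂ) • indFun A.1 (χ : A.1 → ℂ)) x =
        ∑ t : G, if Subgroup.zpowers (t⁻¹ * x * t) = A.1 then φ x else 0 := by
    rintro ⟨A, hAc⟩
    have hcardA : (Nat.card A : ℂ) ≠ 0 := by
      exact_mod_cast (Nat.card_pos (α := A)).ne'
    have hFcf : IsClassFunction A
        (fun k : A => if Subgroup.zpowers (k : G) = A then (Nat.card A : ℂ) * φ k else 0) := by
      intro k h
      have hcomm : h * k * h⁻¹ = k := by
        have h3 := (IsCyclic.commGroup (α := A)).mul_comm h k
        rw [h3, mul_inv_cancel_right]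
      rw [hcomm]
    have hexp := classFunction_expansion _ hFcf
    have hcoef : ∀ χ : IrrCharacter A, classInner
        (fun k : A => if Subgroup.zpowers (k : G) = A then (Nat.card A : ℂ) * φ k else 0)
        (χ : A → ℂ) = (c A χ : ℂ) := by
      intro χ
      rw [← hc A χ, classInner_def, Finset.mul_sum]
      apply Finset.sum_congr rfl
      intro k _
      by_cases hk : Subgroup.zpowers (k : G) = A
      · rw [if_pos hk, if_pos hk, ← mul_assoc, ← mul_assoc, inv_mul_cancel₀ hcardA, one_mul]
      · rw [if_neg hk, if_neg hk, zero_mul, mul_zero]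
    have hsum : ∑ χ : IrrCharacter A, (c A χ : ℂ) • indFun A (χ : A → ℂ) = indFun A
        (fun k : A => if Subgroup.zpowers (k : G) = A then (Nat.card A : ℂ) * φ k else 0) := by
      conv_rhs => rw [hexp]
      rw [indFun_sum]
      apply Finset.sum_congr rfl
      intro χ _
      rw [indFun_smul, hcoef]
    show (∑ χ : IrrCharacter A, (c A χ : ℂ) • indFun A (χ : A → ℂ)) x = _
    rw [hsum, indFun_def, Finset.mul_sum]
    apply Finset.sum_congr rfl
    intro t _
    rw [extendByZero_gen]
    by_cases ht : Subgroup.zpowers (t⁻¹ * x * t) = A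
    · rw [if_pos ht, if_pos ht]
      have h4 : φ (t⁻¹ * x * t) = φ x := by
        have h5 := hcf x t⁻¹
        rwa [inv_inv] at h5
      rw [h4, ← mul_assoc, inv_mul_cancel₀ hcardA, one_mul]
    · rw [if_neg ht, if_neg ht, mul_zero]
  rw [Finset.sum_apply]
  simp only [hA]
  rw [Finset.sum_comm]
  have h6 : ∀ t : G, ∑ A : {A : Subgroup G // IsCyclic A},
      (if Subgroup.zpowers (t⁻¹ * x * t) = A.1 then φ x else 0) = φ x := by
    intro t
    rw [Finset.sum_eq_single ⟨Subgroup.zpowers (t⁻¹ * x * t), inferInstance⟩]
    · rw [if_pos rfl]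
    · intro B _ hB
      rw [if_neg]
      intro h
      exact hB (Subtype.ext h.symm)
    · intro h
      exact absurd (Finset.mem_univ _) h
  simp only [h6, Finset.sum_const, Finset.card_univ, nsmul_eq_mul]
  rw [Pi.smul_apply, smul_eq_mul, Nat.card_eq_fintype_card]

end Artin

end Cfsg.Agent.Lib.Helper5
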