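import Mathlib
import Cfsg.Agent.Lib.Helper79.Prin2
import Cfsg.Agent.Lib.Helper79.PReg

/-!
# Principal block characters are constant on sections with `p`-nilpotent centralizer (helper5)
-/

set_option autoImplicit false

namespace Cfsg.Agent.Lib.Helper5

open Cfsg Subgroup

section DihB

variable {G : Type*} [Group G] [Finite G]

/-- A subgroup of a group with a normal `2`-complement has a normal `2`-complement. -/
theorem dh_index_core {H C : Subgroup G} (hHC : H ≤ C) (N : Subgroup ↥C) [N.Normal]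
    (hodd : Odd (Nat.card N)) (k : ℕ) (hidx : N.index = 2 ^ k) :
    ∃ j : ℕ, (Cfsg.pPrimeCore 2 ↥H).index = 2 ^ j := by
  set f : ↥H →* ↥C := Subgroup.inclusion hHC with hf
  have hinj : Function.Injective f := Subgroup.inclusion_injective hHC
  have hN'n : (N.comap f).Normal := inferInstance
  have hcard : Nat.card (N.comap f) ∣ Nat.card N := Subgroup.card_comap_dvd_of_injective N f hinj
  have hodd' : (Nat.card (N.comap f)).Coprime 2 :=
    (Odd.of_dvd_nat hodd hcard).coprime_two_right
  have hidx' : (N.comap f).index ∣ 2 ^ k := by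
    rw [Subgroup.index_comap, ← hidx]
    exact Subgroup.relIndex_dvd_index_of_normal N f.range
  have hle := Cfsg.Agent.Lib.Helper81.le_pPrimeCore 2 (N.comap f) hN'n hodd'
  have h1 : (Cfsg.pPrimeCore 2 ↥H).index ∣ 2 ^ k := (Subgroup.index_dvd_of_le hle).trans hidx'
  obtain ⟨j, _, hj⟩ := (Nat.dvd_prime_pow Nat.prime_two).mp h1
  exact ⟨j, hj⟩

variable {p : ℕ} [Fact p.Prime] {M : Ideal Cfsg.AlgInt}

/-- A character of the principal block is constant on the `p`-section of a `p`-element whose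
centralizer has a normal `p`-complement. -/
theorem dh_const_section (hM : Cfsg.IsPModular p M) (u : G) (hu : ∃ k : ℕ, orderOf u = p ^ k)
    (j : ℕ) (hidx : (Cfsg.pPrimeCore p ↥(centralizer ({u} : Set G))).index = p ^ j)
    (χ : IrrCharacter G) (hχ : χ ∈ principalBlock M G) (y : G)
    (hy : y ∈ centralizer ({u} : Set G)) (hreg : ¬ p ∣ orderOf y) :
    (χ : G → ℂ) (u * y) = (χ : G → ℂ) u := by
  have hp : p.Prime := Fact.out
  have hy' : ¬ p ∣ orderOf (⟨y, hy⟩ : ↥(centralizer ({u} : Set G))) := by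
    rwa [Subgroup.orderOf_mk]
  have hone : ¬ p ∣ orderOf (1 : ↥(centralizer ({u} : Set G))) := by
    rw [orderOf_one]
    exact hp.one_lt.ne' ∘ Nat.dvd_one.mp
  have h1 := Cfsg.Agent.Lib.Helper79.twist_eq_blockPart_principal hM u hu χ hχ ⟨y, hy⟩ hy'
  have h2 := Cfsg.Agent.Lib.Helper79.twist_eq_blockPart_principal hM u hu χ hχ 1 hone
  haveI hKn : (Cfsg.pPrimeCore p ↥(centralizer ({u} : Set G))).Normal :=
    Cfsg.Agent.Lib.Helper81.pPrimeCore_normal p
  have hmem : (⟨y, hy⟩ : ↥(centralizer ({u} : Set G))) ∈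
      Cfsg.pPrimeCore p ↥(centralizer ({u} : Set G)) :=
    (Cfsg.Agent.Lib.Helper79.mem_iff_pRegular_of_index _ j hidx
      (Cfsg.Agent.Lib.Helper81.pPrimeCore_coprime (G := ↥(centralizer ({u} : Set G))) p) _).mpr hy'
  have h3 : blockPart (principalBlock M ↥(centralizer ({u} : Set G)))
      (fun c : ↥(centralizer ({u} : Set G)) => (χ : G → ℂ) (u * (c : G))) ⟨y, hy⟩ =
      blockPart (principalBlock M ↥(centralizer ({u} : Set G)))
      (fun c : ↥(centralizer ({u} : Set G)) => (χ : G → ℂ) (u * (c : G))) 1 := by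
    unfold blockPart
    apply finsum_mem_congr rfl
    intro ψ hψ
    rw [(Cfsg.Agent.Lib.Helper79.mem_principal_iff_of_index hM j hidx ψ).mp hψ _ hmem]
  have h4 : (χ : G → ℂ) (u * y) = (χ : G → ℂ) (u * ((1 : ↥(centralizer ({u} : Set G))) : G)) := by
    rw [h2, ← h3]
    exact h1
  rw [h4]
  simp

end DihB

end Cfsg.Agent.Lib.Helper5
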