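import Mathlib
import Cfsg.Agent.Lib.Helper5.DihIso
import Cfsg.Agent.Lib.Helper79.PReg
import Cfsg.Agent.Lib.Helper72.TwoClosed

/-!
# The centralizer of the central involution of a dihedral Sylow `2`-subgroup (helper5)

`P = ⟨σ, τ⟩` a dihedral Sylow `2`-subgroup, `J = σ ^ (m / 2)`, `C = C_G(J)` with a normal
subgroup `N` of odd order and `2`-power index: `C / N` is a copy of `P`.
-/

set_option autoImplicit false

namespace Cfsg.Agent.Lib.Helper5

open Subgroup

section Decomp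

/-- Decomposition of an element into its `2`-part and its odd part. -/
theorem dh_decomp {H : Type*} [Group H] [Finite H] (c : H) :
    ∃ u y : H, c = u * y ∧ Commute u y ∧ (∃ e : ℕ, orderOf u = 2 ^ e) ∧ Odd (orderOf y) := by
  obtain ⟨m, e, hm, -, -, hme⟩ := Cfsg.Agent.Lib.Helper72.two_part' c
  have hco : (2 ^ e).Coprime m := Nat.Coprime.pow_left e (Nat.coprime_two_left.mpr hm)
  obtain ⟨a, ha1, ha0⟩ := Nat.chineseRemainder hco 1 0
  obtain ⟨b, hb0, hb1⟩ := Nat.chineseRemainder hco 0 1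
  refine ⟨c ^ a, c ^ b, ?_, (Commute.pow_pow_self c a b), ?_, ?_⟩
  · rw [← pow_add]
    have h1 : a + b ≡ 1 [MOD 2 ^ e] := by
      have := Nat.ModEq.add ha1 hb0
      simpa using this
    have h2 : a + b ≡ 1 [MOD m] := by
      have := Nat.ModEq.add ha0 hb1
      simpa using this
    have h3 : a + b ≡ 1 [MOD orderOf c] := by
      rw [← hme]
      exact (Nat.modEq_and_modEq_iff_modEq_mul hco).mp ⟨h1, h2⟩
    have h4 := (pow_eq_pow_iff_modEq (x := c)).mpr h3
    rw [h4, pow_one]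
  · have h1 : (c ^ a) ^ (2 ^ e) = 1 := by
      rw [← pow_mul]
      apply orderOf_dvd_iff_pow_eq_one.mp
      rw [← hme, mul_comm a]
      exact Nat.mul_dvd_mul_left _ ((Nat.modEq_zero_iff_dvd).mp ha0)
    obtain ⟨j, _, hj⟩ := (Nat.dvd_prime_pow Nat.prime_two).mp (orderOf_dvd_of_pow_eq_one h1)
    exact ⟨j, hj⟩
  · have h1 : (c ^ b) ^ m = 1 := by
      rw [← pow_mul]
      apply orderOf_dvd_iff_pow_eq_one.mp
      rw [← hme]
      exact Nat.mul_dvd_mul_right ((Nat.modEq_zero_iff_dvd).mp hb0) _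
    exact Odd.of_dvd_nat hm (orderOf_dvd_of_pow_eq_one h1)

end Decomp

section DihC

variable {G : Type*} [Group G] [Finite G] (P : Sylow 2 G) {σ τ : G} {m : ℕ}

omit [Finite G] in
theorem dc_J_order (hσo : orderOf σ = m) (hm2 : 2 ≤ m) (hev : Even m) :
    orderOf (σ ^ (m / 2)) = 2 := by
  obtain ⟨h, rfl⟩ := hev
  have hh : (h + h) / 2 = h := by omega
  rw [hh]
  apply orderOf_eq_prime
  · rw [← pow_mul]
    have : h * 2 = orderOf σ := by rw [hσo]; ring
    rw [this, pow_orderOf_eq_one]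
  · apply pow_ne_one_of_lt_orderOf (by omega)
    rw [hσo]; omega

omit [Finite G] in
theorem dc_sigma_mem {J : G} (hJ : J = σ ^ (m / 2)) : σ ∈ centralizer ({J} : Set G) := by
  rw [mem_centralizer_iff]
  intro h hh
  rw [Set.mem_singleton_iff] at hh
  rw [hh, hJ]
  exact (Commute.pow_self σ _).eq

omit [Finite G] in
theorem dc_tau_mem (hσo : orderOf σ = m) (hm2 : 2 ≤ m) (hev : Even m)
    (hrel : τ * σ * τ⁻¹ = σ⁻¹) {J : G} (hJ : J = σ ^ (m / 2)) :
    τ ∈ centralizer ({J} : Set G) := by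
  rw [mem_centralizer_iff]
  intro h hh
  rw [Set.mem_singleton_iff] at hh
  have hJo := dc_J_order hσo hm2 hev
  have h1 : τ * J * τ⁻¹ = J⁻¹ := by rw [hJ]; exact dh_conj_pow hrel _
  have h2 : J⁻¹ = J := by rw [hJ]; exact dh_tau_inv hJo
  rw [h2] at h1
  rw [hh]
  exact (mul_inv_eq_iff_eq_mul.mp h1).symm

omit [Finite G] in
include P in
theorem dc_P_le (hσo : orderOf σ = m) (hm2 : 2 ≤ m) (hev : Even m)
    (hrel : τ * σ * τ⁻¹ = σ⁻¹) (hgen : closure ({σ, τ} : Set G) = (P : Subgroup G))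
    {J : G} (hJ : J = σ ^ (m / 2)) : (P : Subgroup G) ≤ centralizer ({J} : Set G) := by
  rw [← hgen, closure_le]
  rintro x (rfl | hx)
  · exact dc_sigma_mem hJ
  · rw [Set.mem_singleton_iff] at hx
    subst hx
    exact dc_tau_mem hσo hm2 hev hrel hJ

variable {J : G} (N : Subgroup ↥(centralizer ({J} : Set G))) [N.Normal]

include P in
/-- `N ∩ P = 1` -/
theorem dc_inj (hodd : Odd (Nat.card N)) (a b : ↥(centralizer ({J} : Set G)))
    (ha : (a : G) ∈ (P : Subgroup G)) (hb : (b : G) ∈ (P : Subgroup G))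
    (h : (a : ↥(centralizer ({J} : Set G)) ⧸ N) = b) : a = b := by
  have h1 : a⁻¹ * b ∈ N := QuotientGroup.eq.mp h
  have h2 : ((a⁻¹ * b : ↥(centralizer ({J} : Set G))) : G) ∈ (P : Subgroup G) := by
    push_cast
    exact mul_mem (inv_mem ha) hb
  obtain ⟨j, hj⟩ := IsPGroup.iff_orderOf.mp P.isPGroup' ⟨_, h2⟩
  rw [Subgroup.orderOf_mk, Subgroup.orderOf_coe] at hj
  have h3 : orderOf (a⁻¹ * b) ∣ Nat.card N := Subgroup.orderOf_dvd_natCard N h1
  have h4 : (2 ^ j).Coprime (Nat.card N) := Nat.Coprime.pow_left j hodd.coprime_two_left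
  rw [hj] at h3
  have h5 := Nat.Coprime.eq_one_of_dvd h4 h3
  rw [← hj, orderOf_eq_one_iff] at h5
  exact (inv_mul_eq_one.mp h5)

include P in
/-- `C = N P` -/
theorem dc_surj (hodd : Odd (Nat.card N)) {k : ℕ} (hidx : N.index = 2 ^ k)
    (hPC : (P : Subgroup G) ≤ centralizer ({J} : Set G)) (c : ↥(centralizer ({J} : Set G))) :
    ∃ q : ↥(centralizer ({J} : Set G)), (q : G) ∈ (P : Subgroup G) ∧
      (q : ↥(centralizer ({J} : Set G)) ⧸ N) = c := by
  set φ : ↥(P : Subgroup G) → ↥(centralizer ({J} : Set G)) ⧸ N :=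
    fun p => ((⟨p, hPC p.2⟩ : ↥(centralizer ({J} : Set G))) :
      ↥(centralizer ({J} : Set G)) ⧸ N) with hφ
  have hinj : Function.Injective φ := by
    intro p q hpq
    have := dc_inj P N hodd ⟨p, hPC p.2⟩ ⟨q, hPC q.2⟩ p.2 q.2 hpq
    exact Subtype.ext (congrArg (fun z : ↥(centralizer ({J} : Set G)) => (z : G)) this)
  have hcard : Nat.card (↥(centralizer ({J} : Set G)) ⧸ N) ≤ Nat.card ↥(P : Subgroup G) := by
    rw [← Subgroup.index_eq_card, hidx, P.card_eq_multiplicity]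
    apply Nat.pow_le_pow_right (by norm_num)
    apply (Nat.Prime.pow_dvd_iff_le_factorization Nat.prime_two Nat.card_pos.ne').mp
    rw [← hidx]
    exact (Subgroup.index_dvd_card N).trans (Subgroup.card_subgroup_dvd_card _)
  obtain ⟨p, hp⟩ := (hinj.bijective_of_nat_card_le hcard).2 (c : ↥(centralizer ({J} : Set G)) ⧸ N)
  exact ⟨⟨p, hPC p.2⟩, p.2, hp⟩

theorem dc_mem_N (hodd : Odd (Nat.card N)) {k : ℕ} (hidx : N.index = 2 ^ k)
    (c : ↥(centralizer ({J} : Set G))) : c ∈ N ↔ ¬ 2 ∣ orderOf c :=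
  Cfsg.Agent.Lib.Helper79.mem_iff_pRegular_of_index N k hidx hodd.coprime_two_right c

/-- An element of square one which is congruent to `J` modulo `N` is `J`. -/
theorem dc_eq_J (hodd : Odd (Nat.card N)) {k : ℕ} (hidx : N.index = 2 ^ k)
    {JC : ↥(centralizer ({J} : Set G))} (hJC : (JC : G) = J) (hJJ : J * J = 1)
    (z : ↥(centralizer ({J} : Set G))) (hz : z * z = 1)
    (h : (z : ↥(centralizer ({J} : Set G)) ⧸ N) = JC) : z = JC := by
  have h1 : z⁻¹ * JC ∈ N := QuotientGroup.eq.mp h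
  have hcomm : ∀ c : ↥(centralizer ({J} : Set G)), c * JC = JC * c := by
    intro c
    apply Subtype.ext
    push_cast
    rw [hJC]
    exact (mem_centralizer_iff.mp c.2 J rfl).symm
  have hJJ' : JC * JC = 1 := by
    apply Subtype.ext
    push_cast
    rw [hJC, hJJ]
  have hzi : z⁻¹ = z := inv_eq_of_mul_eq_one_left hz
  have h2 : (z⁻¹ * JC) ^ 2 = 1 := by
    rw [sq, hzi]
    calc z * JC * (z * JC) = z * (JC * z) * JC := by group
      _ = z * (z * JC) * JC := by rw [hcomm z]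
      _ = (z * z) * (JC * JC) := by group
      _ = 1 := by rw [hz, hJJ', mul_one]
  have h3 : orderOf (z⁻¹ * JC) ∣ 2 := orderOf_dvd_of_pow_eq_one h2
  have h4 := (dc_mem_N N hodd hidx _).mp h1
  have h5 : orderOf (z⁻¹ * JC) = 1 := by
    rcases (Nat.dvd_prime Nat.prime_two).mp h3 with h | h
    · exact h
    · exact absurd (h ▸ dvd_refl _) h4
  rw [orderOf_eq_one_iff] at h5
  exact inv_mul_eq_one.mp h5

omit [Finite G] in
/-- Every `2`-element is conjugate to an element of a given Sylow `2`-subgroup. -/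
theorem dh_conj_sylow {H : Type*} [Group H] [Finite H] (S : Sylow 2 H) (g : H)
    (hg : ∃ k : ℕ, orderOf g = 2 ^ k) : ∃ w ∈ (S : Subgroup H), ∃ h : H, h * g * h⁻¹ = w := by
  obtain ⟨k, hk⟩ := hg
  have hp : IsPGroup 2 (Subgroup.zpowers g) := by
    apply IsPGroup.of_card (n := k)
    rw [Nat.card_zpowers, hk]
  obtain ⟨S', hS'⟩ := hp.exists_le_sylow
  obtain ⟨h, rfl⟩ := MulAction.exists_smul_eq H S S'
  have hgS : g ∈ ((h • S : Sylow 2 H) : Subgroup H) := hS' (Subgroup.mem_zpowers g)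
  rw [Sylow.coe_subgroup_smul, Subgroup.mem_pointwise_smul_iff_inv_smul_mem] at hgS
  refine ⟨(MulAut.conj h)⁻¹ • g, hgS, h⁻¹, ?_⟩
  simp [MulAut.smul_def]

include P in
/-- Non-central involutions of `C` are reflections modulo `N`. -/
theorem dc_refl (hodd : Odd (Nat.card N)) {k : ℕ} (hidx : N.index = 2 ^ k)
    (hPC : (P : Subgroup G) ≤ centralizer ({J} : Set G))
    (hσo : orderOf σ = m) (hm2 : 2 ≤ m) (hev : Even m)
    (hτo : orderOf τ = 2) (hrel : τ * σ * τ⁻¹ = σ⁻¹)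
    (hgen : closure ({σ, τ} : Set G) = (P : Subgroup G)) (hJ : J = σ ^ (m / 2))
    {σC τC JC : ↥(centralizer ({J} : Set G))} (hσC : (σC : G) = σ) (hτC : (τC : G) = τ)
    (hJC : (JC : G) = J) (x : ↥(centralizer ({J} : Set G))) (hx : orderOf x = 2)
    (hxJ : x ≠ JC) :
    ∃ i : ℕ, (x : ↥(centralizer ({J} : Set G)) ⧸ N) =
      ((σC ^ i * τC : ↥(centralizer ({J} : Set G))) : ↥(centralizer ({J} : Set G)) ⧸ N) := by
  obtain ⟨q, hqP, hq⟩ := dc_surj P N hodd hidx hPC x
  have hxx : x * x = 1 := by rw [← sq, ← hx, pow_orderOf_eq_one]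
  have hJJ : J * J = 1 := by
    rw [hJ]
    exact dh_tau_sq (dc_J_order hσo hm2 hev)
  have hqq : q * q = 1 := by
    apply dc_inj P N hodd (q * q) 1
    · push_cast; exact mul_mem hqP hqP
    · push_cast; exact one_mem _
    · rw [QuotientGroup.mk_mul, hq, ← QuotientGroup.mk_mul, hxx]
  have hq1 : q ≠ 1 := by
    rintro rfl
    have h1 : x ∈ N := (QuotientGroup.eq_one_iff x).mp hq.symm
    exact (dc_mem_N N hodd hidx x).mp h1 (by rw [hx])
  have hqo : orderOf (q : G) = 2 := by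
    apply orderOf_eq_prime
    · rw [sq]; exact congrArg Subtype.val hqq
    · intro h; exact hq1 (Subtype.ext h)
  have hqc : (q : G) ∈ closure ({σ, τ} : Set G) := hgen ▸ hqP
  rcases dh_invol hσo hev (by omega) hτo hrel hqc hqo with h | ⟨i, hi⟩
  · exfalso
    apply hxJ
    apply dc_eq_J N hodd hidx hJC hJJ x hxx
    rw [← hq]
    congr 1
    exact Subtype.ext (h.trans (hJ.symm.trans hJC.symm))
  · refine ⟨i, ?_⟩
    rw [← hq]
    congr 1
    apply Subtype.ext
    push_cast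
    rw [hσC, hτC]
    exact hi

omit [Finite G] in
/-- The product of two reflections modulo `N`. -/
theorem dc_refl_mul (hσo : orderOf σ = m) (hm2 : 2 ≤ m)
    (hτo : orderOf τ = 2) (hrel : τ * σ * τ⁻¹ = σ⁻¹)
    {σC τC : ↥(centralizer ({J} : Set G))} (hσC : (σC : G) = σ) (hτC : (τC : G) = τ)
    (x y : ↥(centralizer ({J} : Set G))) (i j : ℕ)
    (hx : (x : ↥(centralizer ({J} : Set G)) ⧸ N) =
      ((σC ^ i * τC : ↥(centralizer ({J} : Set G))) : ↥(centralizer ({J} : Set G)) ⧸ N))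
    (hy : (y : ↥(centralizer ({J} : Set G)) ⧸ N) =
      ((σC ^ j * τC : ↥(centralizer ({J} : Set G))) : ↥(centralizer ({J} : Set G)) ⧸ N)) :
    ((x * y : ↥(centralizer ({J} : Set G))) : ↥(centralizer ({J} : Set G)) ⧸ N) =
      ((σC ^ (i + j * (m - 1)) : ↥(centralizer ({J} : Set G))) :
        ↥(centralizer ({J} : Set G)) ⧸ N) := by
  have hm : σ ^ m = 1 := by rw [← hσo]; exact pow_orderOf_eq_one σ
  rw [QuotientGroup.mk_mul, hx, hy, ← QuotientGroup.mk_mul]
  congr 1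
  apply Subtype.ext
  push_cast
  rw [hσC, hτC]
  exact dh_refl_mul hm (by omega) hτo hrel i j

end DihC

end Cfsg.Agent.Lib.Helper5
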