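import Mathlib
import Cfsg.Agent.Lib.Helper5.DihC

/-!
# Values of a class function on `C_G(J)` through the dihedral quotient (helper5)
-/

set_option autoImplicit false

namespace Cfsg.Agent.Lib.Helper5

open Subgroup

section DihD

variable {G : Type*} [Group G] [Finite G] (P : Sylow 2 G) {σ τ : G} {m : ℕ}
  {J : G} (N : Subgroup ↥(centralizer ({J} : Set G))) [N.Normal]

include P in
/-- A class function `Λ` vanishing on the elements of odd order and with prescribed values on the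
`2`-sections of the powers of `σ`, evaluated on an element of `C` which is a rotation modulo
`N`. -/
theorem dc_key (hodd : Odd (Nat.card N)) {k : ℕ} (hidx : N.index = 2 ^ k)
    (hPC : (P : Subgroup G) ≤ centralizer ({J} : Set G))
    (hσo : orderOf σ = m) (hm2 : 2 ≤ m)
    (hτo : orderOf τ = 2) (hrel : τ * σ * τ⁻¹ = σ⁻¹)
    (hgen : closure ({σ, τ} : Set G) = (P : Subgroup G))
    {σC : ↥(centralizer ({J} : Set G))} (hσC : (σC : G) = σ)
    (Λ : G → ℂ) (δ ζ : ℂ) (hζ : ζ ^ m = 1)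
    (hcf : ∀ g x : G, Λ (g * x * g⁻¹) = Λ x) (hΛodd : ∀ x : G, Odd (orderOf x) → Λ x = 0)
    (hsec : ∀ l : ℕ, 0 < l → l < m → ∀ ρ : G, ρ ∈ centralizer ({σ ^ l} : Set G) →
      Odd (orderOf ρ) → Λ (σ ^ l * ρ) = δ * (ζ ^ l + (ζ ^ l)⁻¹ - 2))
    (c : ↥(centralizer ({J} : Set G))) (r : ℕ)
    (hcr : (c : ↥(centralizer ({J} : Set G)) ⧸ N) =
      ((σC ^ r : ↥(centralizer ({J} : Set G))) : ↥(centralizer ({J} : Set G)) ⧸ N)) :
    Λ (c : G) = δ * (ζ ^ r + (ζ ^ r)⁻¹ - 2) := by
  have hm : σ ^ m = 1 := by rw [← hσo]; exact pow_orderOf_eq_one σ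
  by_cases hmr : m ∣ r
  · have hσr : σC ^ r = 1 := by
      apply Subtype.ext
      push_cast
      rw [hσC]
      exact orderOf_dvd_iff_pow_eq_one.mp (hσo ▸ hmr)
    have hcN : c ∈ N := by
      apply (QuotientGroup.eq_one_iff c).mp
      rw [hcr, hσr]
      rfl
    have hoddc : Odd (orderOf (c : G)) := by
      rw [Subgroup.orderOf_coe, ← Nat.not_even_iff_odd, even_iff_two_dvd]
      exact (dc_mem_N N hodd hidx c).mp hcN
    have hζr : ζ ^ r = 1 := by
      obtain ⟨s, rfl⟩ := hmr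
      rw [pow_mul, hζ, one_pow]
    rw [hΛodd _ hoddc, hζr]
    norm_num
  · obtain ⟨u, y, hcuy, hcomm, ⟨e, hue⟩, hyodd⟩ := dh_decomp c
    have hyN : y ∈ N := by
      apply (dc_mem_N N hodd hidx y).mpr
      rw [← even_iff_two_dvd, Nat.not_even_iff_odd]
      exact hyodd
    have hu : (u : ↥(centralizer ({J} : Set G)) ⧸ N) =
        ((σC ^ r : ↥(centralizer ({J} : Set G))) : ↥(centralizer ({J} : Set G)) ⧸ N) := by
      rw [← hcr, hcuy, QuotientGroup.mk_mul, (QuotientGroup.eq_one_iff y).mpr hyN, mul_one]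
    obtain ⟨w, hwS, g, hg⟩ := dh_conj_sylow (P.subtype hPC) u ⟨e, hue⟩
    have hwP : (w : G) ∈ (P : Subgroup G) := by
      rw [Sylow.coe_subtype, mem_subgroupOf] at hwS
      exact hwS
    obtain ⟨q, hqP, hq⟩ := dc_surj P N hodd hidx hPC g
    have hσP : σ ∈ (P : Subgroup G) := by
      rw [← hgen]
      exact subset_closure (Set.mem_insert _ _)
    have hw : w = q * σC ^ r * q⁻¹ := by
      apply dc_inj P N hodd w _ hwP
      · push_cast
        rw [hσC]
        exact mul_mem (mul_mem hqP (pow_mem hσP r)) (inv_mem hqP)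
      · rw [← hg, QuotientGroup.mk_mul, QuotientGroup.mk_mul, QuotientGroup.mk_inv, hu,
          QuotientGroup.mk_mul, QuotientGroup.mk_mul, QuotientGroup.mk_inv, hq]
    have hqc : (q : G) ∈ closure ({σ, τ} : Set G) := hgen ▸ hqP
    have hwG : (w : G) = (q : G) * σ ^ r * (q : G)⁻¹ := by
      rw [hw]
      push_cast
      rw [hσC]
    have hr0 : 0 < r % m := Nat.pos_of_ne_zero (fun h0 => hmr (Nat.dvd_of_mod_eq_zero h0))
    have hrm : r % m < m := Nat.mod_lt _ (by omega)
    have hex : ∃ l : ℕ, 0 < l ∧ l < m ∧ (w : G) = σ ^ l ∧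
        ζ ^ l + (ζ ^ l)⁻¹ = ζ ^ r + (ζ ^ r)⁻¹ := by
      rcases dh_conj_rot hm (by omega) hτo hrel hqc r with h | h
      · refine ⟨r % m, hr0, hrm, ?_, ?_⟩
        · rw [hwG, h, dh_pow_mod' hm]
        · rw [dh_pow_mod' hζ]
      · refine ⟨m - r % m, by omega, by omega, ?_, ?_⟩
        · rw [hwG, h]
          apply inv_eq_of_mul_eq_one_left
          rw [← dh_pow_mod' hm r, ← pow_add, Nat.sub_add_cancel hrm.le, hm]
        · have hz : ζ ^ (m - r % m) = (ζ ^ r)⁻¹ := by
            apply eq_inv_of_mul_eq_one_left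
            rw [← dh_pow_mod' hζ r, ← pow_add, Nat.sub_add_cancel hrm.le, hζ]
          rw [hz, inv_inv, add_comm]
    obtain ⟨l, hl0, hlm, hwl, hζl⟩ := hex
    set ρ : G := (g : G) * (y : G) * (g : G)⁻¹ with hρ
    have hρodd : Odd (orderOf ρ) := by
      have h1 : orderOf ρ = orderOf (y : G) := by
        rw [hρ]
        exact (MulAut.conj (g : G)).orderOf_eq (y : G)
      rw [h1, Subgroup.orderOf_coe]
      exact hyodd
    have huw : (g : G) * (u : G) * (g : G)⁻¹ = σ ^ l := by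
      rw [← hwl, ← hg]
      push_cast
      rfl
    have hρc : ρ ∈ centralizer ({σ ^ l} : Set G) := by
      rw [mem_centralizer_iff]
      intro h hh
      rw [Set.mem_singleton_iff] at hh
      rw [hh, ← huw, hρ]
      have hc' : (u : G) * (y : G) = (y : G) * (u : G) := by
        have := congrArg (fun z : ↥(centralizer ({J} : Set G)) => (z : G)) hcomm.eq
        simpa using this
      calc (g : G) * (u : G) * (g : G)⁻¹ * ((g : G) * (y : G) * (g : G)⁻¹)
          = (g : G) * ((u : G) * (y : G)) * (g : G)⁻¹ := by group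
        _ = (g : G) * ((y : G) * (u : G)) * (g : G)⁻¹ := by rw [hc']
        _ = (g : G) * (y : G) * (g : G)⁻¹ * ((g : G) * (u : G) * (g : G)⁻¹) := by group
    have hcc : (g : G) * (c : G) * (g : G)⁻¹ = σ ^ l * ρ := by
      rw [← huw, hρ, hcuy]
      push_cast
      group
    rw [← hcf (g : G) (c : G), hcc, hsec l hl0 hlm ρ hρc hρodd, hζl]

end DihD

end Cfsg.Agent.Lib.Helper5
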