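import Mathlib
import Cfsg.Agent.Lib.Helper5.DihD

/-!
# The local count in `C_G(J)` for a dihedral Sylow `2`-subgroup (helper5)
-/

set_option autoImplicit false

namespace Cfsg.Agent.Lib.Helper5

open Subgroup

section DhE

variable {Q : Type*} [Group Q]

/-- the index function on the reflections `s ^ i * t` -/
noncomputable def dhE (s t : Q) (ζ : ℂ) (q : Q) : ℂ :=
  open scoped Classical in
  if h : ∃ i : ℕ, q = s ^ i * t then ζ ^ h.choose else 0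

theorem dhE_eq (s t : Q) (ζ : ℂ) (hpow : ∀ i j : ℕ, s ^ i = s ^ j → ζ ^ i = ζ ^ j) (i : ℕ) :
    dhE s t ζ (s ^ i * t) = ζ ^ i := by
  have h : ∃ j : ℕ, s ^ i * t = s ^ j * t := ⟨i, rfl⟩
  rw [dhE, dif_pos h]
  exact hpow _ _ (mul_right_cancel h.choose_spec).symm

end DhE

section DihE

variable {G : Type*} [Group G] [Finite G]

/-- The hypotheses of the local count. -/
structure DhCtx (P : Sylow 2 G) (σ τ : G) (m : ℕ) (J : G)
    (N : Subgroup ↥(centralizer ({J} : Set G))) (k : ℕ)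
    (σC τC JC : ↥(centralizer ({J} : Set G))) (Λ : G → ℂ) (δ ζ : ℂ) : Prop where
  hodd : Odd (Nat.card N)
  hidx : N.index = 2 ^ k
  hσo : orderOf σ = m
  hm4 : 4 ≤ m
  hev : Even m
  hτo : orderOf τ = 2
  hrel : τ * σ * τ⁻¹ = σ⁻¹
  hgen : closure ({σ, τ} : Set G) = (P : Subgroup G)
  hJ : J = σ ^ (m / 2)
  hσC : (σC : G) = σ
  hτC : (τC : G) = τ
  hJC : (JC : G) = J
  hζ : IsPrimitiveRoot ζ m
  hcf : ∀ g x : G, Λ (g * x * g⁻¹) = Λ x
  hΛodd : ∀ x : G, Odd (orderOf x) → Λ x = 0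
  hsec : ∀ l : ℕ, 0 < l → l < m → ∀ ρ : G, ρ ∈ centralizer ({σ ^ l} : Set G) →
      Odd (orderOf ρ) → Λ (σ ^ l * ρ) = δ * (ζ ^ l + (ζ ^ l)⁻¹ - 2)

variable {P : Sylow 2 G} {σ τ : G} {m : ℕ} {J : G}
  {N : Subgroup ↥(centralizer ({J} : Set G))} [N.Normal] {k : ℕ}
  {σC τC JC : ↥(centralizer ({J} : Set G))} {Λ : G → ℂ} {δ ζ : ℂ}

theorem DhCtx.hPC (h : DhCtx P σ τ m J N k σC τC JC Λ δ ζ) :
    (P : Subgroup G) ≤ centralizer ({J} : Set G) :=
  dc_P_le P h.hσo (by have := h.hm4; omega) h.hev h.hrel h.hgen h.hJ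

theorem DhCtx.hJo (h : DhCtx P σ τ m J N k σC τC JC Λ δ ζ) : orderOf J = 2 := by
  rw [h.hJ]
  exact dc_J_order h.hσo (by have := h.hm4; omega) h.hev

theorem DhCtx.hJJ (h : DhCtx P σ τ m J N k σC τC JC Λ δ ζ) : J * J = 1 :=
  dh_tau_sq h.hJo

theorem DhCtx.hm (h : DhCtx P σ τ m J N k σC τC JC Λ δ ζ) : σ ^ m = 1 := by
  rw [← h.hσo]; exact pow_orderOf_eq_one σ

theorem DhCtx.hζm (h : DhCtx P σ τ m J N k σC τC JC Λ δ ζ) : ζ ^ m = 1 := h.hζ.pow_eq_one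

/-- powers of `σ` modulo `N` determine the powers of `ζ` -/
theorem DhCtx.hpow (h : DhCtx P σ τ m J N k σC τC JC Λ δ ζ) (i j : ℕ)
    (hij : ((σC : ↥(centralizer ({J} : Set G))) : ↥(centralizer ({J} : Set G)) ⧸ N) ^ i =
      ((σC : ↥(centralizer ({J} : Set G))) : ↥(centralizer ({J} : Set G)) ⧸ N) ^ j) :
    ζ ^ i = ζ ^ j := by
  have hσP : σ ∈ (P : Subgroup G) := by
    rw [← h.hgen]
    exact subset_closure (Set.mem_insert _ _)
  have h1 : σC ^ i = σC ^ j := by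
    apply dc_inj P N h.hodd
    · push_cast; rw [h.hσC]; exact pow_mem hσP i
    · push_cast; rw [h.hσC]; exact pow_mem hσP j
    · rw [QuotientGroup.mk_pow, QuotientGroup.mk_pow]; exact hij
  have h2 : σ ^ i = σ ^ j := by
    have := congrArg (fun z : ↥(centralizer ({J} : Set G)) => (z : G)) h1
    simpa [h.hσC] using this
  have h3 : i ≡ j [MOD m] := by
    rw [← h.hσo]
    exact pow_eq_pow_iff_modEq.mp h2
  rw [← dh_pow_mod' h.hζm i, ← dh_pow_mod' h.hζm j, h3]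

/-- the function `e` on `G` -/
noncomputable def dhEG (N : Subgroup ↥(centralizer ({J} : Set G))) [N.Normal]
    (σC τC : ↥(centralizer ({J} : Set G))) (ζ : ℂ) (x : G) : ℂ :=
  open scoped Classical in
  if hx : x ∈ centralizer ({J} : Set G) then
    dhE ((σC : ↥(centralizer ({J} : Set G))) : ↥(centralizer ({J} : Set G)) ⧸ N)
      ((τC : ↥(centralizer ({J} : Set G))) : ↥(centralizer ({J} : Set G)) ⧸ N) ζ
      ((⟨x, hx⟩ : ↥(centralizer ({J} : Set G))) : ↥(centralizer ({J} : Set G)) ⧸ N)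
  else 0

theorem DhCtx.dhEG_eq (h : DhCtx P σ τ m J N k σC τC JC Λ δ ζ) (x : G)
    (hx : x ∈ centralizer ({J} : Set G)) (i : ℕ)
    (hi : ((⟨x, hx⟩ : ↥(centralizer ({J} : Set G))) : ↥(centralizer ({J} : Set G)) ⧸ N) =
      ((σC ^ i * τC : ↥(centralizer ({J} : Set G))) : ↥(centralizer ({J} : Set G)) ⧸ N)) :
    dhEG N σC τC ζ x = ζ ^ i := by
  rw [dhEG, dif_pos hx, hi, QuotientGroup.mk_mul, QuotientGroup.mk_pow]
  exact dhE_eq _ _ ζ h.hpow i

/-- membership in the set of non-central involutions of `C` -/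
def DhIC (J : G) (x : G) : Prop := x ∈ centralizer ({J} : Set G) ∧ orderOf x = 2 ∧ x ≠ J

theorem DhCtx.refl_of_IC (h : DhCtx P σ τ m J N k σC τC JC Λ δ ζ) {x : G} (hx : DhIC J x) :
    ∃ i : ℕ, ((⟨x, hx.1⟩ : ↥(centralizer ({J} : Set G))) : ↥(centralizer ({J} : Set G)) ⧸ N) =
      ((σC ^ i * τC : ↥(centralizer ({J} : Set G))) : ↥(centralizer ({J} : Set G)) ⧸ N) := by
  apply dc_refl P N h.hodd h.hidx h.hPC h.hσo (by have := h.hm4; omega) h.hev h.hτo h.hrel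
    h.hgen h.hJ h.hσC h.hτC h.hJC
  · rw [Subgroup.orderOf_mk]; exact hx.2.1
  · intro h0
    apply hx.2.2
    have := congrArg (fun z : ↥(centralizer ({J} : Set G)) => (z : G)) h0
    simpa [h.hJC] using this

end DihE

end Cfsg.Agent.Lib.Helper5
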