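import Mathlib
import Cfsg.Agent.Lib.Helper5.DihE

/-!
# The local count in `C_G(J)`, continued (helper5)
-/

set_option autoImplicit false

namespace Cfsg.Agent.Lib.Helper5

open Subgroup

section DihF

variable {G : Type*} [Group G] [Finite G]
  {P : Sylow 2 G} {σ τ : G} {m : ℕ} {J : G}
  {N : Subgroup ↥(centralizer ({J} : Set G))} [N.Normal] {k : ℕ}
  {σC τC JC : ↥(centralizer ({J} : Set G))} {Λ : G → ℂ} {δ ζ : ℂ}

omit [Finite G] in
theorem dhIC_conj {J x c : G} (hc : c ∈ centralizer ({J} : Set G)) (hx : DhIC J x) :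
    DhIC J (c * x * c⁻¹) := by
  refine ⟨mul_mem (mul_mem hc hx.1) (inv_mem hc), ?_, ?_⟩
  · exact ((MulAut.conj c).orderOf_eq x).trans hx.2.1
  · intro h0
    apply hx.2.2
    have hcJ : J * c = c * J := mem_centralizer_iff.mp hc J rfl
    calc x = c⁻¹ * (c * x * c⁻¹) * c := by group
      _ = c⁻¹ * J * c := by rw [h0]
      _ = c⁻¹ * (J * c) := by group
      _ = J := by rw [hcJ]; group

omit [Finite G] in
theorem dhIC_conj_iff {J x c : G} (hc : c ∈ centralizer ({J} : Set G)) :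
    DhIC J (c * x * c⁻¹) ↔ DhIC J x := by
  constructor
  · intro h
    have h1 := dhIC_conj (inv_mem hc) h
    have h2 : c⁻¹ * (c * x * c⁻¹) * c⁻¹⁻¹ = x := by group
    rwa [h2] at h1
  · exact dhIC_conj hc

theorem DhCtx.dhEG_conj (h : DhCtx P σ τ m J N k σC τC JC Λ δ ζ) {x : G} (hx : DhIC J x) :
    dhEG N σC τC ζ (σ * x * σ⁻¹) = ζ ^ 2 * dhEG N σC τC ζ x := by
  obtain ⟨i, hi⟩ := h.refl_of_IC hx
  have hσmem : σ ∈ centralizer ({J} : Set G) := dc_sigma_mem h.hJ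
  have hx' := dhIC_conj hσmem hx
  rw [h.dhEG_eq x hx.1 i hi, h.dhEG_eq (σ * x * σ⁻¹) hx'.1 (i + 2), pow_add, mul_comm]
  have h1 : (⟨σ * x * σ⁻¹, hx'.1⟩ : ↥(centralizer ({J} : Set G))) = σC * ⟨x, hx.1⟩ * σC⁻¹ := by
    apply Subtype.ext
    push_cast
    rw [h.hσC]
  rw [h1, QuotientGroup.mk_mul, QuotientGroup.mk_mul, hi, ← QuotientGroup.mk_mul,
    ← QuotientGroup.mk_mul]
  congr 1
  apply Subtype.ext
  push_cast
  rw [h.hσC, h.hτC]
  exact dh_conj_sigma_refl h.hrel i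

open scoped Classical in
/-- The sum of `e` over the non-central involutions of `C` vanishes. -/
theorem DhCtx.sum_e [Fintype G] (h : DhCtx P σ τ m J N k σC τC JC Λ δ ζ) :
    ∑ x : G, (if DhIC J x then dhEG N σC τC ζ x else 0) = 0 := by
  have hσmem : σ ∈ centralizer ({J} : Set G) := dc_sigma_mem h.hJ
  set S : ℂ := ∑ x : G, (if DhIC J x then dhEG N σC τC ζ x else 0) with hS
  have h1 : S = ∑ x : G, (if DhIC J (σ * x * σ⁻¹) then dhEG N σC τC ζ (σ * x * σ⁻¹) else 0) :=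
    (Equiv.sum_comp (MulAut.conj σ).toEquiv
      (fun x => if DhIC J x then dhEG N σC τC ζ x else 0)).symm
  have h2 : ∑ x : G, (if DhIC J (σ * x * σ⁻¹) then dhEG N σC τC ζ (σ * x * σ⁻¹) else 0) =
      ζ ^ 2 * S := by
    rw [hS, Finset.mul_sum]
    refine Finset.sum_congr rfl fun x _ => ?_
    by_cases hx : DhIC J x
    · rw [if_pos ((dhIC_conj_iff hσmem).mpr hx), if_pos hx, h.dhEG_conj hx]
    · rw [if_neg (fun h0 => hx ((dhIC_conj_iff hσmem).mp h0)), if_neg hx, mul_zero]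
  have h3 : ζ ^ 2 ≠ 1 := h.hζ.pow_ne_one_of_pos_of_lt (by norm_num) (by have := h.hm4; omega)
  have h4 : (1 - ζ ^ 2) * S = 0 := by
    rw [sub_mul, one_mul, ← h2, ← h1, sub_self]
  rcases mul_eq_zero.mp h4 with h5 | h5
  · exact absurd (sub_eq_zero.mp h5).symm h3
  · exact h5

end DihF

end Cfsg.Agent.Lib.Helper5
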