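import Mathlib
import Cfsg.Agent.Lib.Helper5.DihF

/-!
# The local count in `C_G(J)`: values on products of two involutions (helper5)
-/

set_option autoImplicit false

namespace Cfsg.Agent.Lib.Helper5

open Subgroup

section DihG

variable {G : Type*} [Group G] [Finite G]
  {P : Sylow 2 G} {σ τ : G} {m : ℕ} {J : G}
  {N : Subgroup ↥(centralizer ({J} : Set G))} [N.Normal] {k : ℕ}
  {σC τC JC : ↥(centralizer ({J} : Set G))} {Λ : G → ℂ} {δ ζ : ℂ}

omit [Finite G] in
/-- If `J` is the involution in `⟨x y⟩` for involutions `x`, `y`, then `x`, `y` are non-central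
involutions of `C_G(J)`. -/
theorem dh_restrict {J x y : G} (hJo : orderOf J = 2) (hx : orderOf x = 2) (hy : orderOf y = 2)
    (hev : Even (orderOf (x * y))) (hι : (x * y) ^ (orderOf (x * y) / 2) = J) :
    DhIC J x ∧ DhIC J y := by
  have hxx : x * x = 1 := dh_tau_sq hx
  have hyy : y * y = 1 := dh_tau_sq hy
  have hxi : x⁻¹ = x := dh_tau_inv hx
  have hyi : y⁻¹ = y := dh_tau_inv hy
  have hJi : J⁻¹ = J := dh_tau_inv hJo
  have h1 : x * (x * y) * x⁻¹ = (x * y)⁻¹ := by
    rw [mul_inv_rev, hxi, hyi]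
    calc x * (x * y) * x = (x * x) * y * x := by group
      _ = y * x := by rw [hxx, one_mul]
  have h1' : y * (x * y) * y⁻¹ = (x * y)⁻¹ := by
    rw [mul_inv_rev, hxi, hyi]
    calc y * (x * y) * y = y * x * (y * y) := by group
      _ = y * x := by rw [hyy, mul_one]
  have hxJ : x * J * x⁻¹ = J := by
    have h2 := map_pow (MulAut.conj x) (x * y) (orderOf (x * y) / 2)
    simp only [MulAut.conj_apply] at h2
    rw [h1, inv_pow, hι, hJi] at h2
    exact h2
  have hyJ : y * J * y⁻¹ = J := by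
    have h2 := map_pow (MulAut.conj y) (x * y) (orderOf (x * y) / 2)
    simp only [MulAut.conj_apply] at h2
    rw [h1', inv_pow, hι, hJi] at h2
    exact h2
  have hxC : x ∈ centralizer ({J} : Set G) := by
    rw [mem_centralizer_iff]
    intro h hh
    rw [Set.mem_singleton_iff] at hh
    rw [hh]
    exact (mul_inv_eq_iff_eq_mul.mp hxJ).symm
  have hyC : y ∈ centralizer ({J} : Set G) := by
    rw [mem_centralizer_iff]
    intro h hh
    rw [Set.mem_singleton_iff] at hh
    rw [hh]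
    exact (mul_inv_eq_iff_eq_mul.mp hyJ).symm
  have key : ∀ g : G, g * g = 1 → Even (orderOf g) → g ^ (orderOf g / 2) = g := by
    intro g hg hev
    have h3 : orderOf g ∣ 2 := orderOf_dvd_of_pow_eq_one (by rw [sq]; exact hg)
    rcases (Nat.dvd_prime Nat.prime_two).mp h3 with h4 | h4
    · rw [h4] at hev; exact absurd hev (by decide)
    · rw [h4]; norm_num
  refine ⟨⟨hxC, hx, ?_⟩, ⟨hyC, hy, ?_⟩⟩
  · intro h0
    have hJy : J * y = y * J := mem_centralizer_iff.mp hyC J rfl
    have hgg : (x * y) * (x * y) = 1 := by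
      rw [h0]
      calc J * y * (J * y) = J * (y * J) * y := by group
        _ = J * (J * y) * y := by rw [hJy]
        _ = (J * J) * (y * y) := by group
        _ = 1 := by rw [dh_tau_sq hJo, hyy, one_mul]
    have h5 := key _ hgg hev
    rw [hι, h0] at h5
    have h6 : y = 1 := by
      have : J * 1 = J * y := by rw [mul_one]; exact h5
      exact (mul_left_cancel this).symm
    rw [h6, orderOf_one] at hy
    exact absurd hy (by norm_num)
  · intro h0
    have hJx : J * x = x * J := mem_centralizer_iff.mp hxC J rfl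
    have hgg : (x * y) * (x * y) = 1 := by
      rw [h0]
      calc x * J * (x * J) = x * (J * x) * J := by group
        _ = x * (x * J) * J := by rw [hJx]
        _ = (x * x) * (J * J) := by group
        _ = 1 := by rw [dh_tau_sq hJo, hxx, one_mul]
    have h5 := key _ hgg hev
    rw [hι, h0] at h5
    have h6 : x = 1 := by
      have : 1 * J = x * J := by rw [one_mul]; exact h5
      exact (mul_right_cancel this).symm
    rw [h6, orderOf_one] at hx
    exact absurd hx (by norm_num)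

open scoped Classical in
/-- The value of `Λ` on the product of two non-central involutions of `C`. -/
theorem DhCtx.val (h : DhCtx P σ τ m J N k σC τC JC Λ δ ζ) {x y : G} (hx : DhIC J x)
    (hy : DhIC J y) :
    (if Even (orderOf (x * y)) ∧ (x * y) ^ (orderOf (x * y) / 2) = J then Λ (x * y) else 0) =
      δ * (dhEG N σC τC ζ x * (dhEG N σC τC ζ y)⁻¹ +
        (dhEG N σC τC ζ x)⁻¹ * dhEG N σC τC ζ y - 2) := by
  obtain ⟨i, hi⟩ := h.refl_of_IC hx
  obtain ⟨j, hj⟩ := h.refl_of_IC hy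
  rw [h.dhEG_eq x hx.1 i hi, h.dhEG_eq y hy.1 j hj]
  have hm2 : 2 ≤ m := by have := h.hm4; omega
  have hσP : σ ∈ (P : Subgroup G) := by
    rw [← h.hgen]
    exact subset_closure (Set.mem_insert _ _)
  have hxy := dc_refl_mul N h.hσo hm2 h.hτo h.hrel h.hσC h.hτC ⟨x, hx.1⟩ ⟨y, hy.1⟩ i j hi hj
  have hΛ := dc_key P N h.hodd h.hidx h.hPC h.hσo hm2 h.hτo h.hrel h.hgen h.hσC Λ δ ζ h.hζm
    h.hcf h.hΛodd h.hsec (⟨x, hx.1⟩ * ⟨y, hy.1⟩) (i + j * (m - 1)) hxy
  have hcoe : (((⟨x, hx.1⟩ * ⟨y, hy.1⟩ : ↥(centralizer ({J} : Set G))) : G)) = x * y := rfl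
  rw [hcoe] at hΛ
  have hζj : ζ ^ (j * (m - 1)) = (ζ ^ j)⁻¹ := by
    apply eq_inv_of_mul_eq_one_left
    rw [← pow_add]
    have : j * (m - 1) + j = m * j := by
      obtain ⟨k', rfl⟩ : ∃ k', m = k' + 1 := ⟨m - 1, by omega⟩
      simp only [Nat.add_sub_cancel]
      ring
    rw [this, pow_mul, h.hζm, one_pow]
  have hζr : ζ ^ (i + j * (m - 1)) = ζ ^ i * (ζ ^ j)⁻¹ := by rw [pow_add, hζj]
  have hζr' : (ζ ^ (i + j * (m - 1)))⁻¹ = (ζ ^ i)⁻¹ * ζ ^ j := by rw [hζr, mul_inv, inv_inv]
  rw [hζr', hζr] at hΛ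
  by_cases hmr : m ∣ i + j * (m - 1)
  · have h1 : ζ ^ (i + j * (m - 1)) = 1 := by
      obtain ⟨s, hs⟩ := hmr
      rw [hs, pow_mul, h.hζm, one_pow]
    have h2 : ζ ^ i * (ζ ^ j)⁻¹ = 1 := by rw [← hζr, h1]
    have h3 : (ζ ^ i)⁻¹ * ζ ^ j = 1 := by rw [← hζr', h1, inv_one]
    rw [h2, h3] at hΛ ⊢
    have hΛ0 : Λ (x * y) = 0 := by rw [hΛ]; norm_num
    rw [hΛ0, ite_self]
    norm_num
  · rw [← hΛ]
    apply if_pos
    have hnotN : (⟨x, hx.1⟩ * ⟨y, hy.1⟩ : ↥(centralizer ({J} : Set G))) ∉ N := by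
      intro hN
      have h1 : ((σC ^ (i + j * (m - 1)) : ↥(centralizer ({J} : Set G))) :
          ↥(centralizer ({J} : Set G)) ⧸ N) = ((1 : ↥(centralizer ({J} : Set G))) :
          ↥(centralizer ({J} : Set G)) ⧸ N) := by
        rw [← hxy]
        exact (QuotientGroup.eq_one_iff _).mpr hN
      have h2 : σC ^ (i + j * (m - 1)) = 1 := by
        apply dc_inj P N h.hodd _ _ _ _ h1
        · push_cast; rw [h.hσC]; exact pow_mem hσP _
        · push_cast; exact one_mem _
      have h3 : σ ^ (i + j * (m - 1)) = 1 := by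
        have := congrArg (fun z : ↥(centralizer ({J} : Set G)) => (z : G)) h2
        simpa [h.hσC] using this
      have h0 : orderOf σ ∣ i + j * (m - 1) := orderOf_dvd_of_pow_eq_one h3
      rw [h.hσo] at h0
      exact hmr h0
    have h2dvd : 2 ∣ orderOf (⟨x, hx.1⟩ * ⟨y, hy.1⟩ : ↥(centralizer ({J} : Set G))) := by
      by_contra hnd
      exact hnotN ((dc_mem_N N h.hodd h.hidx _).mpr hnd)
    have ho : orderOf (x * y) =
        orderOf (⟨x, hx.1⟩ * ⟨y, hy.1⟩ : ↥(centralizer ({J} : Set G))) := by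
      rw [← hcoe, Subgroup.orderOf_coe]
    rw [ho]
    refine ⟨even_iff_two_dvd.mpr h2dvd, ?_⟩
    rw [← hcoe]
    generalize hc : (⟨x, hx.1⟩ * ⟨y, hy.1⟩ : ↥(centralizer ({J} : Set G))) = c at hxy h2dvd hnotN ⊢
    generalize ho' : orderOf c = o at h2dvd ⊢
    have hopos : 0 < o := by rw [← ho']; exact orderOf_pos c
    have hhalf : o / 2 + o / 2 = o := by
      obtain ⟨t, ht⟩ := h2dvd
      omega
    have hz2 : c ^ (o / 2) * c ^ (o / 2) = 1 := by
      rw [← pow_add, hhalf, ← ho']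
      exact pow_orderOf_eq_one c
    have hz1 : c ^ (o / 2) ≠ 1 :=
      pow_ne_one_of_lt_orderOf (by omega) (by rw [ho']; omega)
    have hzo : orderOf (c ^ (o / 2)) = 2 :=
      orderOf_eq_prime (by rw [sq]; exact hz2) hz1
    have hzN : c ^ (o / 2) ∉ N := fun hN =>
      (dc_mem_N N h.hodd h.hidx _).mp hN (by rw [hzo])
    have hqz : (((σC ^ (i + j * (m - 1))) ^ (o / 2) : ↥(centralizer ({J} : Set G))) :
        ↥(centralizer ({J} : Set G)) ⧸ N) = ((c ^ (o / 2) : ↥(centralizer ({J} : Set G))) :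
        ↥(centralizer ({J} : Set G)) ⧸ N) := by
      rw [QuotientGroup.mk_pow N (σC ^ (i + j * (m - 1))) (o / 2),
        QuotientGroup.mk_pow N c (o / 2), hxy]
    have hqP : (((σC ^ (i + j * (m - 1))) ^ (o / 2) : ↥(centralizer ({J} : Set G))) : G) ∈
        (P : Subgroup G) := by
      push_cast; rw [h.hσC]; exact pow_mem (pow_mem hσP _) _
    have hqq : (σC ^ (i + j * (m - 1))) ^ (o / 2) * (σC ^ (i + j * (m - 1))) ^ (o / 2) = 1 := by
      apply dc_inj P N h.hodd
      · push_cast; exact mul_mem hqP hqP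
      · push_cast; exact one_mem _
      · rw [QuotientGroup.mk_mul, hqz, ← QuotientGroup.mk_mul, hz2]
    have hq1 : (σC ^ (i + j * (m - 1))) ^ (o / 2) ≠ 1 := by
      intro h0
      apply hzN
      apply (QuotientGroup.eq_one_iff _).mp
      rw [← hqz, h0]
      rfl
    have hqo : orderOf (σ ^ ((i + j * (m - 1)) * (o / 2))) = 2 := by
      apply orderOf_eq_prime
      · have := congrArg (fun z : ↥(centralizer ({J} : Set G)) => (z : G)) hqq
        simp only [Subgroup.coe_mul, Subgroup.coe_pow, h.hσC, Subgroup.coe_one] at this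
        rw [sq, pow_mul]
        exact this
      · intro h0
        apply hq1
        apply Subtype.ext
        push_cast
        rw [h.hσC, ← pow_mul]
        exact h0
    have hqJ := dh_invol_pow h.hσo h.hev _ hqo
    have hqJC : (σC ^ (i + j * (m - 1))) ^ (o / 2) = JC := by
      apply Subtype.ext
      push_cast
      rw [h.hσC, h.hJC, h.hJ, ← pow_mul]
      exact hqJ
    have hzJ : c ^ (o / 2) = JC :=
      dc_eq_J N h.hodd h.hidx h.hJC h.hJJ _ hz2 (by rw [← hqz, hqJC])
    have := congrArg (fun z : ↥(centralizer ({J} : Set G)) => (z : G)) hzJ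
    simpa [h.hJC] using this

end DihG

end Cfsg.Agent.Lib.Helper5
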