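import Mathlib
import Cfsg.Agent.Lib.Helper5.DihG

/-!
# The local count in `C_G(J)`: the sum over pairs of involutions (helper5)
-/

set_option autoImplicit false

namespace Cfsg.Agent.Lib.Helper5

open Subgroup

section DihH

variable {G : Type*} [Group G] [Finite G]
  {P : Sylow 2 G} {σ τ : G} {m : ℕ} {J : G}
  {N : Subgroup ↥(centralizer ({J} : Set G))} [N.Normal] {k : ℕ}
  {σC τC JC : ↥(centralizer ({J} : Set G))} {Λ : G → ℂ} {δ ζ : ℂ}

open scoped Classical in
/-- The local count: the sum of `Λ (x * y)` over the pairs of involutions `x`, `y` such that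
`J` is the involution of `⟨x * y⟩`. -/
theorem DhCtx.local_sum [Fintype G] (h : DhCtx P σ τ m J N k σC τC JC Λ δ ζ) :
    ∑ x : G, ∑ y : G, (if orderOf x = 2 ∧ orderOf y = 2 ∧ Even (orderOf (x * y)) ∧
        (x * y) ^ (orderOf (x * y) / 2) = J then Λ (x * y) else 0) =
      -2 * δ * ((Finset.univ.filter (fun x : G => DhIC J x)).card : ℂ) ^ 2 := by
  set e : G → ℂ := dhEG N σC τC ζ with he
  set f : G → ℂ := fun x => if DhIC J x then e x else 0 with hf
  set g : G → ℂ := fun x => if DhIC J x then (e x)⁻¹ else 0 with hg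
  set c : G → ℂ := fun x => if DhIC J x then 1 else 0 with hc
  have hterm : ∀ x y : G, (if orderOf x = 2 ∧ orderOf y = 2 ∧ Even (orderOf (x * y)) ∧
        (x * y) ^ (orderOf (x * y) / 2) = J then Λ (x * y) else 0) =
      δ * (f x * g y + g x * f y - 2 * (c x * c y)) := by
    intro x y
    by_cases hx : DhIC J x
    · by_cases hy : DhIC J y
      · have := h.val hx hy
        simp only [hf, hg, hc, if_pos hx, if_pos hy, hx.2.1, hy.2.1, true_and]
        rw [this]; ring
      · rw [if_neg]
        · simp only [hf, hg, hc, if_neg hy]; ring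
        · rintro ⟨h1, h2, h3, h4⟩
          exact hy (dh_restrict h.hJo h1 h2 h3 h4).2
    · rw [if_neg]
      · simp only [hf, hg, hc, if_neg hx]; ring
      · rintro ⟨h1, h2, h3, h4⟩
        exact hx (dh_restrict h.hJo h1 h2 h3 h4).1
  have hsf : ∑ x : G, f x = 0 := h.sum_e
  have hsc : ∑ x : G, c x = ((Finset.univ.filter (fun x : G => DhIC J x)).card : ℂ) := by
    simp only [hc]; rw [Finset.sum_boole]
  calc _ = ∑ x : G, ∑ y : G, δ * (f x * g y + g x * f y - 2 * (c x * c y)) := by
        refine Finset.sum_congr rfl fun x _ => Finset.sum_congr rfl fun y _ => hterm x y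
    _ = δ * ((∑ x, f x) * (∑ y, g y) + (∑ x, g x) * (∑ y, f y) -
          2 * ((∑ x, c x) * (∑ y, c y))) := by
        rw [Finset.sum_mul_sum, Finset.sum_mul_sum, Finset.sum_mul_sum]
        simp only [← Finset.mul_sum, Finset.sum_sub_distrib, Finset.sum_add_distrib]
    _ = _ := by rw [hsf, hsc]; ring

end DihH

end Cfsg.Agent.Lib.Helper5
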