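import Mathlib
import Cfsg.Agent.Lib.Helper5.DihA

/-!
# Regrouping the sum over pairs of involutions by the involution of `⟨x * y⟩` (helper5)
-/

set_option autoImplicit false

namespace Cfsg.Agent.Lib.Helper5

open Subgroup

section DihI

variable {G : Type*} [Group G] [Finite G]

theorem dh_iota_order (g : G) (hev : Even (orderOf g)) :
    orderOf (g ^ (orderOf g / 2)) = 2 := by
  obtain ⟨t, ht⟩ := hev
  have hpos : 0 < orderOf g := orderOf_pos g
  have h2 : orderOf g / 2 = t := by omega
  rw [h2, orderOf_pow_of_dvd (by omega) ⟨2, by omega⟩, ht, ← two_mul,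
    Nat.mul_div_cancel _ (by omega)]

open scoped Classical in
/-- the summand of the regrouped sum -/
noncomputable def dhF (Λ : G → ℂ) (x y z : G) : ℂ :=
  if orderOf x = 2 ∧ orderOf y = 2 ∧ Even (orderOf (x * y)) ∧
    (x * y) ^ (orderOf (x * y) / 2) = z then Λ (x * y) else 0

omit [Finite G] in
theorem dhF_conj (Λ : G → ℂ) (hcf : ∀ g x : G, Λ (g * x * g⁻¹) = Λ x) (g x y z : G) :
    dhF Λ (g * x * g⁻¹) (g * y * g⁻¹) (g * z * g⁻¹) = dhF Λ x y z := by
  have ho : ∀ a : G, orderOf (g * a * g⁻¹) = orderOf a := fun a => (MulAut.conj g).orderOf_eq a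
  have hp : (g * x * g⁻¹) * (g * y * g⁻¹) = g * (x * y) * g⁻¹ := by group
  have hiff : ∀ a : G, g * a * g⁻¹ = g * z * g⁻¹ ↔ a = z := by
    intro a
    constructor
    · intro h
      exact mul_left_cancel (mul_right_cancel h)
    · rintro rfl; rfl
  unfold dhF
  rw [hp, ho, ho, ho, conj_pow, hiff, hcf]

open scoped Classical in
theorem dh_regroup [Fintype G] (J : G) (hall : ∀ x : G, orderOf x = 2 → IsConj J x) (Λ : G → ℂ)
    (hcf : ∀ g x : G, Λ (g * x * g⁻¹) = Λ x) (hΛodd : ∀ x : G, Odd (orderOf x) → Λ x = 0) :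
    ∑ x : G, ∑ y : G, (if orderOf x = 2 ∧ orderOf y = 2 then Λ (x * y) else 0) =
      ((Finset.univ.filter (fun z : G => orderOf z = 2)).card : ℂ) *
        ∑ x : G, ∑ y : G, (if orderOf x = 2 ∧ orderOf y = 2 ∧ Even (orderOf (x * y)) ∧
          (x * y) ^ (orderOf (x * y) / 2) = J then Λ (x * y) else 0) := by
  have hT : ∀ z : G, orderOf z = 2 →
      ∑ x : G, ∑ y : G, dhF Λ x y z = ∑ x : G, ∑ y : G, dhF Λ x y J := by
    intro z hz
    obtain ⟨g, hg⟩ := isConj_iff.mp (hall z hz)
    rw [← hg]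
    rw [← Equiv.sum_comp (MulAut.conj g).toEquiv (fun x => ∑ y : G, dhF Λ x y (g * J * g⁻¹))]
    refine Finset.sum_congr rfl fun x _ => ?_
    rw [← Equiv.sum_comp (MulAut.conj g).toEquiv (fun y => dhF Λ _ y (g * J * g⁻¹))]
    refine Finset.sum_congr rfl fun y _ => ?_
    exact dhF_conj Λ hcf g x y J
  have hterm : ∀ x y : G, (if orderOf x = 2 ∧ orderOf y = 2 then Λ (x * y) else 0) =
      ∑ z : G, (if orderOf z = 2 then dhF Λ x y z else 0) := by
    intro x y
    by_cases hxy : orderOf x = 2 ∧ orderOf y = 2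
    · rw [if_pos hxy]
      by_cases hev : Even (orderOf (x * y))
      · rw [Finset.sum_eq_single ((x * y) ^ (orderOf (x * y) / 2))]
        · rw [if_pos (dh_iota_order _ hev), dhF, if_pos ⟨hxy.1, hxy.2, hev, rfl⟩]
        · intro z _ hz
          have h0 : dhF Λ x y z = 0 := if_neg (fun h => hz h.2.2.2.symm)
          rw [h0, ite_self]
        · intro h
          exact absurd (Finset.mem_univ _) h
      · rw [hΛodd _ (Nat.not_even_iff_odd.mp hev)]
        symm
        apply Finset.sum_eq_zero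
        intro z _
        have h0 : dhF Λ x y z = 0 := if_neg (fun h => hev h.2.2.1)
        rw [h0, ite_self]
    · rw [if_neg hxy]
      symm
      apply Finset.sum_eq_zero
      intro z _
      have h0 : dhF Λ x y z = 0 := if_neg (fun h => hxy ⟨h.1, h.2.1⟩)
      rw [h0, ite_self]
  calc ∑ x : G, ∑ y : G, (if orderOf x = 2 ∧ orderOf y = 2 then Λ (x * y) else 0)
      = ∑ x : G, ∑ y : G, ∑ z : G, (if orderOf z = 2 then dhF Λ x y z else 0) :=
        Finset.sum_congr rfl fun x _ => Finset.sum_congr rfl fun y _ => hterm x y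
    _ = ∑ x : G, ∑ z : G, ∑ y : G, (if orderOf z = 2 then dhF Λ x y z else 0) :=
        Finset.sum_congr rfl fun x _ => Finset.sum_comm
    _ = ∑ z : G, ∑ x : G, ∑ y : G, (if orderOf z = 2 then dhF Λ x y z else 0) :=
        Finset.sum_comm
    _ = ∑ z : G, (if orderOf z = 2 then ∑ x : G, ∑ y : G, dhF Λ x y J else 0) := by
        refine Finset.sum_congr rfl fun z _ => ?_
        by_cases hz : orderOf z = 2
        · simp only [if_pos hz]
          exact hT z hz
        · simp only [if_neg hz, Finset.sum_const_zero]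
    _ = _ := by
        rw [← Finset.sum_filter, Finset.sum_const, nsmul_eq_mul]
        rfl

end DihI

end Cfsg.Agent.Lib.Helper5
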