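import Mathlib
import Cfsg.Agent.Lib.Helper5.DihH
import Cfsg.Agent.Lib.Helper5.DihI
import Cfsg.Agent.Lib.Helper22.WeakOrth
import Cfsg.Agent.Lib.Helper83.IrrBasic

/-!
# Brauer's order formula for dihedral Sylow `2`-subgroups: the global count (helper5)
-/

set_option autoImplicit false

namespace Cfsg.Agent.Lib.Helper5

open Subgroup

theorem dh_arith (I x μ δ : ℂ) (hδ : δ = 1 ∨ δ = -1) (hI : I ≠ 0) (hx : x ≠ 0) (hxδ : δ + x ≠ 0)
    (E : I ^ 2 * (-2 * δ) ^ 2 / (δ + x) - δ * I ^ 2 - I ^ 2 * δ ^ 2 / x = I * (-2 * δ * μ ^ 2)) :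
    I * (x - δ) ^ 2 = 2 * x * (x + δ) * μ ^ 2 := by
  have E' : (I ^ 2 * (-2 * δ) ^ 2 / (δ + x) - δ * I ^ 2 - I ^ 2 * δ ^ 2 / x) * (x * (δ + x)) =
      I ^ 2 * (-2 * δ) ^ 2 * x - δ * I ^ 2 * (x * (δ + x)) - I ^ 2 * δ ^ 2 * (δ + x) := by
    field_simp
  rw [E] at E'
  have key : I * (I * (x - δ) ^ 2 - 2 * x * (x + δ) * μ ^ 2) = 0 := by
    rcases hδ with rfl | rfl
    · linear_combination E'
    · linear_combination (-1) * E'
  rcases mul_eq_zero.mp key with h | h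
  · exact absurd h hI
  · exact sub_eq_zero.mp h

section DihJ

variable {G : Type*} [Group G] [Finite G]
  {P : Sylow 2 G} {σ τ : G} {m : ℕ} {J : G}
  {N : Subgroup ↥(centralizer ({J} : Set G))} [N.Normal] {k : ℕ}
  {σC τC JC : ↥(centralizer ({J} : Set G))} {δ ζ : ℂ}

open scoped Classical in
/-- The global count: the order formula in terms of the number of involutions of `G` and the
number of non-central involutions of `C_G(J)`. -/
theorem DhCtx.global [Fintype G] {χ₁ ψ : Cfsg.IrrCharacter G}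
    (h : DhCtx P σ τ m J N k σC τC JC (fun g => (ψ : G → ℂ) g - δ - (χ₁ : G → ℂ) g) δ ζ)
    (hδ : δ = 1 ∨ δ = -1)
    (hall : ∀ x : G, orderOf x = 2 → IsConj J x)
    (hψJ : (ψ : G → ℂ) J = -2 * δ) (hχJ : (χ₁ : G → ℂ) J = δ)
    (hψ1 : (ψ : G → ℂ) 1 = δ + (χ₁ : G → ℂ) 1)
    (hD : ∀ χ : Cfsg.IrrCharacter G, ∑ x : G, ∑ y : G,
      (if orderOf x = 2 ∧ orderOf y = 2 then (χ : G → ℂ) (x * y) else 0) =
        ((Finset.univ.filter (fun z : G => orderOf z = 2)).card : ℂ) ^ 2 *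
          (χ : G → ℂ) J ^ 2 / (χ : G → ℂ) 1) :
    ((Finset.univ.filter (fun z : G => orderOf z = 2)).card : ℂ) *
        ((χ₁ : G → ℂ) 1 - δ) ^ 2 =
      2 * (χ₁ : G → ℂ) 1 * ((χ₁ : G → ℂ) 1 + δ) *
        ((Finset.univ.filter (fun x : G => DhIC J x)).card : ℂ) ^ 2 := by
  set I : ℂ := ((Finset.univ.filter (fun z : G => orderOf z = 2)).card : ℂ) with hIdef
  set μ : ℂ := ((Finset.univ.filter (fun x : G => DhIC J x)).card : ℂ) with hμdef
  have h1 := dh_regroup J hall (fun g => (ψ : G → ℂ) g - δ - (χ₁ : G → ℂ) g) h.hcf h.hΛodd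
  rw [h.local_sum] at h1
  have hone : ∑ x : G, ∑ y : G, (if orderOf x = 2 ∧ orderOf y = 2 then (1 : ℂ) else 0) =
      I ^ 2 := by
    have h2 : ∀ x y : G, (if orderOf x = 2 ∧ orderOf y = 2 then (1 : ℂ) else 0) =
        (if orderOf x = 2 then 1 else 0) * (if orderOf y = 2 then 1 else 0) := by
      intro x y
      by_cases hx : orderOf x = 2 <;> by_cases hy : orderOf y = 2 <;> simp [hx, hy]
    calc _ = ∑ x : G, ∑ y : G, (if orderOf x = 2 then (1 : ℂ) else 0) *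
          (if orderOf y = 2 then 1 else 0) :=
        Finset.sum_congr rfl fun x _ => Finset.sum_congr rfl fun y _ => h2 x y
      _ = (∑ x : G, (if orderOf x = 2 then (1 : ℂ) else 0)) *
          ∑ y : G, (if orderOf y = 2 then (1 : ℂ) else 0) := by rw [Finset.sum_mul_sum]
      _ = I ^ 2 := by rw [Finset.sum_boole, sq]
  have hsplit : ∑ x : G, ∑ y : G, (if orderOf x = 2 ∧ orderOf y = 2 then
      (fun g => (ψ : G → ℂ) g - δ - (χ₁ : G → ℂ) g) (x * y) else 0) =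
      I ^ 2 * (ψ : G → ℂ) J ^ 2 / (ψ : G → ℂ) 1 - δ * I ^ 2 -
        I ^ 2 * (χ₁ : G → ℂ) J ^ 2 / (χ₁ : G → ℂ) 1 := by
    rw [← hD ψ, ← hD χ₁, ← hone, Finset.mul_sum, ← Finset.sum_sub_distrib,
      ← Finset.sum_sub_distrib]
    refine Finset.sum_congr rfl fun x _ => ?_
    rw [Finset.mul_sum, ← Finset.sum_sub_distrib, ← Finset.sum_sub_distrib]
    refine Finset.sum_congr rfl fun y _ => ?_
    by_cases hc : orderOf x = 2 ∧ orderOf y = 2
    · simp only [if_pos hc]; ring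
    · simp only [if_neg hc]; ring
  rw [hsplit, hψJ, hχJ, hψ1] at h1
  have hI : I ≠ 0 := by
    rw [hIdef]
    have : J ∈ Finset.univ.filter (fun z : G => orderOf z = 2) := by
      rw [Finset.mem_filter]; exact ⟨Finset.mem_univ _, h.hJo⟩
    exact Nat.cast_ne_zero.mpr (Finset.card_ne_zero_of_mem this)
  have hx : (χ₁ : G → ℂ) 1 ≠ 0 := Cfsg.Agent.Lib.Helper83.irr_one_ne_zero χ₁.2
  have hxδ : δ + (χ₁ : G → ℂ) 1 ≠ 0 := by
    rw [← hψ1]; exact Cfsg.Agent.Lib.Helper83.irr_one_ne_zero ψ.2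
  exact dh_arith I _ μ δ hδ hI hx hxδ h1

end DihJ

end Cfsg.Agent.Lib.Helper5
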