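import Mathlib
import Cfsg.Agent.Lib.Helper5.DihJ
import Cfsg.Agent.Lib.Helper1.DihSect
import Cfsg.Agent.S0514

/-!
# Brauer's order formula for dihedral Sylow `2`-subgroups: assembling the hypotheses (helper5)
-/

set_option autoImplicit false

namespace Cfsg.Agent.Lib.Helper5

open Subgroup

open scoped Classical in
/-- The order formula, given the character `ψ = χ^(1)` of the principal block and the counts of
involutions. -/
theorem dh_order_formula {G : Type*} [Group G] [Fintype G] (M : Ideal Cfsg.AlgInt)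
    (hM : Cfsg.IsPModular 2 M) (n : ℕ) (hn : 3 ≤ n) (P : Sylow 2 G) (σ τ : G)
    (hσ : σ ∈ (P : Subgroup G)) (hσo : orderOf σ = 2 ^ (n - 1)) (hτo : orderOf τ = 2)
    (hrel : τ * σ * τ⁻¹ = σ⁻¹)
    (hgen : Subgroup.closure ({σ, τ} : Set G) = (P : Subgroup G))
    (χ₁ : Cfsg.IrrCharacter G) (hχ₁ : χ₁ ∈ Cfsg.principalBlock M G) (δ₁ : ℤ)
    (hδ₁ : δ₁ = 1 ∨ δ₁ = -1)
    (hval : ∀ l : ℕ, 0 < l → l < 2 ^ (n - 1) → (χ₁ : G → ℂ) (σ ^ l) = δ₁)
    (ζ : ℂ) (hζ : IsPrimitiveRoot ζ (2 ^ (n - 1))) (ψ : Cfsg.IrrCharacter G)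
    (hψB : ψ ∈ Cfsg.principalBlock M G)
    (hψval : ∀ l : ℕ, 0 < l → l < 2 ^ (n - 1) →
      (ψ : G → ℂ) (σ ^ l) = δ₁ * (ζ ^ l + (ζ ^ l)⁻¹))
    (hψodd : ∀ ρ : G, Odd (orderOf ρ) → 1 + δ₁ * (χ₁ : G → ℂ) ρ = δ₁ * (ψ : G → ℂ) ρ)
    (hall : ∀ x : G, orderOf x = 2 → IsConj (σ ^ (2 ^ (n - 2))) x)
    (hI : (Nat.card {x : G // orderOf x = 2} : ℚ) *
      Nat.card (Subgroup.centralizer ({σ ^ (2 ^ (n - 2))} : Set G)) = Nat.card G)
    (hD : ∀ χ : Cfsg.IrrCharacter G, ∑ x : G, ∑ y : G,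
      (if orderOf x = 2 ∧ orderOf y = 2 then (χ : G → ℂ) (x * y) else 0) =
        (Nat.card {x : G // orderOf x = 2} : ℂ) ^ 2 * (χ : G → ℂ) (σ ^ (2 ^ (n - 2))) ^ 2 /
          (χ : G → ℂ) 1)
    (hμ : (Nat.card {x : G // x ∈ Subgroup.centralizer ({σ ^ (2 ^ (n - 2))} : Set G) ∧
        orderOf x = 2 ∧ x ≠ σ ^ (2 ^ (n - 2))} : ℚ) =
      (Nat.card (Subgroup.centralizer ({σ ^ (2 ^ (n - 2))} : Set G)) : ℚ) *
        (1 / (Nat.card (Subgroup.centralizer ({σ ^ (2 ^ (n - 2)), τ} : Set G)) : ℚ) +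
          1 / (Nat.card (Subgroup.centralizer ({σ ^ (2 ^ (n - 2)), σ * τ} : Set G)) : ℚ))) :
    (Cfsg.charDegree (χ₁ : G → ℂ) : ℤ) ≠ δ₁ ∧
      (Nat.card G : ℚ) * ((Cfsg.charDegree (χ₁ : G → ℂ) : ℚ) - δ₁) ^ 2 =
        2 * (Cfsg.charDegree (χ₁ : G → ℂ) : ℚ) * ((Cfsg.charDegree (χ₁ : G → ℂ) : ℚ) + δ₁) *
          (Nat.card (Subgroup.centralizer ({σ ^ (2 ^ (n - 2))} : Set G)) : ℚ) ^ 3 *
          (1 / (Nat.card (Subgroup.centralizer ({σ ^ (2 ^ (n - 2)), τ} : Set G)) : ℚ) +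
            1 / (Nat.card (Subgroup.centralizer ({σ ^ (2 ^ (n - 2)), σ * τ} : Set G)) : ℚ)) ^ 2 := by
  obtain ⟨n', rfl⟩ : ∃ n', n = n' + 3 := ⟨n - 3, by omega⟩
  have e1 : n' + 3 - 1 = n' + 2 := by omega
  have e2 : n' + 3 - 2 = n' + 1 := by omega
  rw [e1] at hσo hval hζ hψval
  rw [e2] at hall hI hD hμ ⊢
  set m : ℕ := 2 ^ (n' + 2) with hm
  set J : G := σ ^ (2 ^ (n' + 1)) with hJdef
  have hm4 : 4 ≤ m := by
    rw [hm, pow_add]
    have : 1 ≤ 2 ^ n' := Nat.one_le_two_pow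
    omega
  have hhalf : m / 2 = 2 ^ (n' + 1) := by
    rw [hm, pow_succ]; omega
  have hev : Even m := ⟨2 ^ (n' + 1), by rw [hm, pow_succ]; ring⟩
  have hJ : J = σ ^ (m / 2) := by rw [hhalf]
  have hP : Nonempty (↥(P : Subgroup G) ≃* DihedralGroup m) :=
    Cfsg.Agent.Lib.Helper1.dih_iso_gens m (by omega) (P : Subgroup G) σ τ hσo hτo hrel hgen
  have hJo : orderOf J = 2 := by rw [hJ]; exact dc_J_order hσo (by omega) hev
  obtain ⟨N, hNn, hodd, k, hidx⟩ := Cfsg.Agent.S0514.result P m (by omega) hP J hJo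
  haveI := hNn
  have hσC : σ ∈ centralizer ({J} : Set G) := dc_sigma_mem hJ
  have hτC : τ ∈ centralizer ({J} : Set G) := dc_tau_mem hσo (by omega) hev hrel hJ
  have hJC : J ∈ centralizer ({J} : Set G) := pow_mem hσC _
  set δ : ℂ := (δ₁ : ℂ) with hδdef
  have hδ : δ = 1 ∨ δ = -1 := by
    rcases hδ₁ with h | h
    · left; rw [hδdef, h]; norm_num
    · right; rw [hδdef, h]; norm_num
  have hδ2 : δ * δ = 1 := by rcases hδ with h | h <;> rw [h] <;> norm_num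
  have hlt : m / 2 < m := by omega
  have hpos : 0 < m / 2 := by omega
  have hζhalf : ζ ^ (m / 2) = -1 := by
    have h1 : (ζ ^ (m / 2)) ^ 2 = 1 := by
      rw [← pow_mul]
      have : m / 2 * 2 = m := by rw [hhalf, hm, ← pow_succ]
      rw [this]; exact hζ.pow_eq_one
    have h2 : ζ ^ (m / 2) ≠ 1 := hζ.pow_ne_one_of_pos_of_lt (by omega) hlt
    exact (sq_eq_one_iff.mp h1).resolve_left h2
  have hψJ : (ψ : G → ℂ) J = -2 * δ := by
    have := hψval (m / 2) hpos hlt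
    rw [hζhalf, ← hJ] at this
    rw [this]; norm_num; ring
  have hχJ : (χ₁ : G → ℂ) J = δ := by
    have := hval (m / 2) hpos hlt
    rw [← hJ] at this
    exact this
  have hodd1 : Odd (orderOf (1 : G)) := by rw [orderOf_one]; exact odd_one
  have hψ1 : (ψ : G → ℂ) 1 = δ + (χ₁ : G → ℂ) 1 := by
    have h0 := hψodd 1 hodd1
    have : δ * (1 + δ * (χ₁ : G → ℂ) 1) = δ * (δ * (ψ : G → ℂ) 1) := by rw [h0]
    linear_combination (-1 : ℂ) * this - ((ψ : G → ℂ) 1 - (χ₁ : G → ℂ) 1) * hδ2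
  have hctx : DhCtx P σ τ m J N k ⟨σ, hσC⟩ ⟨τ, hτC⟩ ⟨J, hJC⟩
      (fun g => (ψ : G → ℂ) g - δ - (χ₁ : G → ℂ) g) δ ζ :=
    { hodd := hodd
      hidx := hidx
      hσo := hσo
      hm4 := hm4
      hev := hev
      hτo := hτo
      hrel := hrel
      hgen := hgen
      hJ := hJ
      hσC := rfl
      hτC := rfl
      hJC := rfl
      hζ := hζ
      hcf := fun g x => by
        rw [Cfsg.Agent.Lib.Helper83.irr_classFunction ψ.2,
          Cfsg.Agent.Lib.Helper83.irr_classFunction χ₁.2]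
      hΛodd := fun x hx => by
        have h0 := hψodd x hx
        have : δ * (1 + δ * (χ₁ : G → ℂ) x) = δ * (δ * (ψ : G → ℂ) x) := by rw [h0]
        linear_combination (-1 : ℂ) * this - ((ψ : G → ℂ) x - (χ₁ : G → ℂ) x) * hδ2
      hsec := fun l hl0 hlm ρ hρ hρodd => by
        have hu1 : σ ^ l ≠ 1 := pow_ne_one_of_lt_orderOf (by omega) (by rw [hσo]; exact hlm)
        have hnd : ¬ 2 ∣ orderOf ρ := fun h2 =>
          (Nat.not_even_iff_odd.mpr hρodd) (even_iff_two_dvd.mpr h2)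
        have hmem : σ ^ l ∈ zpowers σ := Subgroup.npow_mem_zpowers σ l
        have e1 := Cfsg.Agent.Lib.Helper1.dih_section hM (n' + 3) hn P hP σ hσ hσo (σ ^ l)
          hmem hu1 ρ hρ hnd ψ hψB
        have e2 := Cfsg.Agent.Lib.Helper1.dih_section hM (n' + 3) hn P hP σ hσ hσo (σ ^ l)
          hmem hu1 ρ hρ hnd χ₁ hχ₁
        rw [e1, e2, hψval l hl0 hlm, hval l hl0 hlm]
        ring }
  have hIc : Nat.card {x : G // orderOf x = 2} =
      (Finset.univ.filter (fun z : G => orderOf z = 2)).card := by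
    rw [Nat.card_eq_fintype_card, Fintype.card_subtype]
  have hμc : Nat.card {x : G // x ∈ centralizer ({J} : Set G) ∧ orderOf x = 2 ∧ x ≠ J} =
      (Finset.univ.filter (fun x : G => DhIC J x)).card := by
    rw [Nat.card_eq_fintype_card, Fintype.card_subtype]
    refine congrArg Finset.card (Finset.ext fun x => ?_)
    rw [Finset.mem_filter, Finset.mem_filter]
    exact Iff.rfl
  have hD' : ∀ χ : Cfsg.IrrCharacter G, ∑ x : G, ∑ y : G,
      (if orderOf x = 2 ∧ orderOf y = 2 then (χ : G → ℂ) (x * y) else 0) =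
        ((Finset.univ.filter (fun z : G => orderOf z = 2)).card : ℂ) ^ 2 *
          (χ : G → ℂ) J ^ 2 / (χ : G → ℂ) 1 := by
    intro χ
    rw [← hIc]
    exact hD χ
  have hglob := hctx.global hδ hall hψJ hχJ hψ1 hD'
  obtain ⟨hdpos, hd⟩ := Cfsg.Agent.Lib.Helper83.irr_degree χ₁.2
  rw [hd] at hglob
  rw [hIc] at hI
  rw [hμc] at hμ
  generalize Cfsg.charDegree (χ₁ : G → ℂ) = d at hglob hdpos ⊢
  have hμpos : 0 < (Finset.univ.filter (fun x : G => DhIC J x)).card := by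
    apply Finset.card_pos.mpr
    refine ⟨τ, ?_⟩
    rw [Finset.mem_filter]
    refine ⟨Finset.mem_univ _, hτC, hτo, ?_⟩
    intro h0
    have hσσ : σ * σ ≠ 1 := by
      rw [← sq]
      exact pow_ne_one_of_lt_orderOf (by norm_num) (by rw [hσo]; omega)
    exact dh_tau_not_mem hτo hrel hσσ (h0 ▸ Subgroup.npow_mem_zpowers σ _)
  generalize (Finset.univ.filter (fun z : G => orderOf z = 2)).card = Ic at hglob hI
  generalize (Finset.univ.filter (fun x : G => DhIC J x)).card = μc at hglob hμ hμpos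
  have hq : (Ic : ℚ) * ((d : ℚ) - δ₁) ^ 2 = 2 * (d : ℚ) * ((d : ℚ) + δ₁) * (μc : ℚ) ^ 2 := by
    have : (((Ic : ℚ) * ((d : ℚ) - δ₁) ^ 2 : ℚ) : ℂ) =
        ((2 * (d : ℚ) * ((d : ℚ) + δ₁) * (μc : ℚ) ^ 2 : ℚ) : ℂ) := by
      push_cast
      exact hglob
    exact_mod_cast this
  constructor
  · intro h0
    have h0' : (d : ℚ) = δ₁ := by exact_mod_cast h0
    rw [← h0', sub_self] at hq
    have hd0 : (d : ℚ) ≠ 0 := by exact_mod_cast hdpos.ne'
    have hμ0 : (μc : ℚ) ≠ 0 := by exact_mod_cast hμpos.ne'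
    have h3 : (2 : ℚ) * d * (d + d) * (μc : ℚ) ^ 2 ≠ 0 := by
      have : (d : ℚ) + d ≠ 0 := by
        rw [← two_mul]; exact mul_ne_zero two_ne_zero hd0
      positivity
    apply h3
    rw [← hq]; ring
  · rw [← hI]
    rw [hμ] at hq
    linear_combination (Nat.card (Subgroup.centralizer ({J} : Set G)) : ℚ) * hq

end Cfsg.Agent.Lib.Helper5
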