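import Mathlib

set_option autoImplicit false

namespace Cfsg.Agent.Lib.Helper5

variable {G : Type*} [Group G] [Finite G]

/-- In a Frobenius group `K ⋊ H` every element of the coset `K h`, `1 ≠ h ∈ H`, is conjugate
to `h` under `K`. -/
theorem frob_conj (K H : Subgroup G) [hK : K.Normal]
    (hfpf : ∀ h ∈ H, h ≠ 1 → ∀ k ∈ K, h * k = k * h → k = 1)
    (h : G) (hh : h ∈ H) (hh1 : h ≠ 1) (c : G) (hc : c ∈ K) :
    ∃ k₁ ∈ K, c * h = k₁ * h * k₁⁻¹ := by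
  let φ : K → K := fun k => ⟨(k : G) * (h * (k : G)⁻¹ * h⁻¹),
    K.mul_mem k.2 (hK.conj_mem _ (K.inv_mem k.2) h)⟩
  have hinj : Function.Injective φ := by
    intro k k' hkk
    have h1 : (k : G) * (h * (k : G)⁻¹ * h⁻¹) = (k' : G) * (h * (k' : G)⁻¹ * h⁻¹) :=
      congrArg Subtype.val hkk
    have h2 : h * ((k' : G)⁻¹ * (k : G)) = ((k' : G)⁻¹ * (k : G)) * h := by
      have h3 : (k : G) * h * (k : G)⁻¹ = (k' : G) * h * (k' : G)⁻¹ := by
        have := congrArg (fun x => x * h) h1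
        simpa [mul_assoc] using this
      calc h * ((k' : G)⁻¹ * (k : G))
          = (k' : G)⁻¹ * ((k' : G) * h * (k' : G)⁻¹) * (k : G) := by group
        _ = (k' : G)⁻¹ * ((k : G) * h * (k : G)⁻¹) * (k : G) := by rw [h3]
        _ = ((k' : G)⁻¹ * (k : G)) * h := by group
    have h4 := hfpf h hh hh1 _ (K.mul_mem (K.inv_mem k'.2) k.2) h2
    apply Subtype.ext
    have h5 : (k : G) = (k' : G) * ((k' : G)⁻¹ * (k : G)) := by group
    rw [h5, h4, mul_one]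
  have hsurj : Function.Surjective φ := Finite.surjective_of_injective hinj
  obtain ⟨k₁, hk₁⟩ := hsurj ⟨c, hc⟩
  refine ⟨k₁, k₁.2, ?_⟩
  have h1 : (k₁ : G) * (h * (k₁ : G)⁻¹ * h⁻¹) = c := congrArg Subtype.val hk₁
  rw [← h1]
  group

/-- In a Frobenius group `K ⋊ H` an element outside `K` commutes with no non-identity element
of `K`. -/
theorem frob_not_commute (K H : Subgroup G) [hK : K.Normal] (hKH' : K ⊔ H = ⊤)
    (hfpf : ∀ h ∈ H, h ≠ 1 → ∀ k ∈ K, h * k = k * h → k = 1)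
    (x : G) (hx : x ∉ K) (k : G) (hk : k ∈ K) (hxk : x * k = k * x) : k = 1 := by
  have hx' : x ∈ ((K ⊔ H : Subgroup G) : Set G) := by
    rw [hKH']
    trivial
  rw [Subgroup.normal_mul] at hx'
  obtain ⟨c, hc, h, hh, rfl⟩ := Set.mem_mul.mp hx'
  have hh1 : h ≠ 1 := by
    intro h1
    apply hx
    rw [h1, mul_one]
    exact hc
  obtain ⟨k₁, hk₁, hconj⟩ := frob_conj K H hfpf h hh hh1 c hc
  rw [hconj] at hxk
  have h2 : h * (k₁⁻¹ * k * k₁) = (k₁⁻¹ * k * k₁) * h := by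
    calc h * (k₁⁻¹ * k * k₁) = k₁⁻¹ * (k₁ * h * k₁⁻¹ * k) * k₁ := by group
      _ = k₁⁻¹ * (k * (k₁ * h * k₁⁻¹)) * k₁ := by rw [hxk]
      _ = (k₁⁻¹ * k * k₁) * h := by group
  have hmem : k₁⁻¹ * k * k₁ ∈ K := by
    have := hK.conj_mem k hk k₁⁻¹
    simpa using this
  have h3 := hfpf h hh hh1 _ hmem h2
  calc k = k₁ * (k₁⁻¹ * k * k₁) * k₁⁻¹ := by group
    _ = 1 := by rw [h3]; group

end Cfsg.Agent.Lib.Helper5
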