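import Mathlib
import Cfsg.Agent.Lib.Helper5.GlCount
import Cfsg.Agent.Lib.Helper20.Clifford
import Cfsg.Agent.Lib.Helper20.Ito
import Cfsg.Agent.Lib.Helper20.CliffordRel
import Cfsg.Agent.Lib.Helper83.Codeg
import Cfsg.Agent.Lib.Helper83.Glaub3
import Cfsg.Agent.Lib.Helper83.Linear
import Cfsg.Agent.Lib.Helper21.Extra
import Cfsg.Agent.Lib.Helper4.IndFun
import Cfsg.Agent.Lib.Helper4.CharExp
import Cfsg.Agent.Lib.Helper1.SZ
import Cfsg.Agent.S0867
import Cfsg.Agent.S0856

/-!
# Counting characters of degree prime to a complement (helper5)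

* `gl_cl_aux`: under a coprime action of a solvable group, fixed points conjugate in `G` are
  conjugate under the fixed-point subgroup, and invariant classes contain fixed points;
* `gl_count_fix`: the number of invariant irreducible characters equals the number of
  irreducible characters of the fixed-point subgroup;
* `deg_count`: if `G = K H` with `K` normal and `(|K|, |H|) = 1`, the irreducible characters of
  `G` of degree prime to `|H|` are counted by pairs (invariant character of `K`, linear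
  character of `G` trivial on `K`);
* `lin_count`, `lin_card_congr`: counting linear characters.
-/

set_option autoImplicit false

namespace Cfsg.Agent.Lib.Helper5

open Cfsg Cfsg.Agent.Lib

universe u v

theorem gl_cl_aux : ∀ (n : ℕ) {S : Type v} [Group S] [Finite S] [Group.IsSolvable S]
    {G : Type u} [Group G] [Fintype G] (φ : S →* MulAut G), Nat.card S = n →
    (Fintype.card G).Coprime (Nat.card S) →
    (∀ c ∈ fixSub φ, ∀ c' ∈ fixSub φ, IsConj c c' → ∃ d ∈ fixSub φ, d * c * d⁻¹ = c') ∧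
    (∀ g : G, (∀ s, IsConj (φ s g) g) → ∃ c ∈ fixSub φ, IsConj c g) := by
  intro n
  induction n using Nat.strong_induction_on with
  | _ n ih =>
    intro S _ _ _ G _ _ φ hn hcop
    classical
    rcases subsingleton_or_nontrivial S with hsub | hnt
    · have h1 : ∀ (s : S) (g : G), φ s g = g := fun s g => by
        rw [Subsingleton.elim s 1, map_one, MulAut.one_apply]
      refine ⟨fun c _ c' _ h => ?_, fun g _ => ⟨g, fun s => h1 s g, IsConj.refl g⟩⟩
      obtain ⟨d, hd⟩ := isConj_iff.mp h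
      exact ⟨d, fun s => h1 s d, hd⟩
    · obtain ⟨p, P, hp, hPn, hPp, hPne⟩ := Helper1.exists_normal_pgroup (G := S)
      haveI := Fact.mk hp
      haveI := hPn
      obtain ⟨φP, hφPdef⟩ : ∃ φP : P →* MulAut G, φP = φ.comp P.subtype := ⟨_, rfl⟩
      have hφP : ∀ (t : P) (g : G), φP t g = φ t g := by
        intro t g
        rw [hφPdef]
        rfl
      obtain ⟨C₁, hC₁⟩ : ∃ C₁ : Subgroup G, C₁ = fixSub (φ.comp P.subtype) := ⟨_, rfl⟩
      have hC₁mem : ∀ g : G, g ∈ C₁ ↔ ∀ t : P, φP t g = g := by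
        intro g
        rw [hC₁, hφPdef]
        exact Iff.rfl
      have hC₁inv : ∀ (w : S), ∀ b ∈ C₁, φ w b ∈ C₁ := by
        intro w b hb
        rw [hC₁] at hb ⊢
        exact fixSub_inv φ P hPn w b hb
      obtain ⟨φ₁, hφ₁⟩ : ∃ φ₁ : S →* MulAut C₁, ∀ (x : S) (c : C₁), ((φ₁ x c : C₁) : G) = φ x c :=
        ⟨resAut φ C₁ hC₁inv, fun x c => rfl⟩
      have hker : ∀ x ∈ P, φ₁ x = 1 := by
        intro x hx
        apply MulEquiv.ext
        intro c
        apply Subtype.ext
        rw [hφ₁]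
        have h1 := (hC₁mem c).mp c.2 ⟨x, hx⟩
        rw [hφP] at h1
        exact h1
      obtain ⟨φq, hφq⟩ : ∃ φq : S ⧸ P →* MulAut C₁, ∀ x : S, φq (QuotientGroup.mk x) = φ₁ x :=
        ⟨QuotientGroup.lift P φ₁ hker, fun x => rfl⟩
      letI : Fintype C₁ := Fintype.ofFinite C₁
      have hPcard : Nat.card P ∣ Nat.card S := Subgroup.card_subgroup_dvd_card P
      have hcopP : (Fintype.card G).Coprime (Nat.card P) :=
        Nat.Coprime.coprime_dvd_right hPcard hcop
      have hrange : ∀ g : G, g ∈ C₁.subtype.range ↔ ∀ t : P, φP t g = g := by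
        intro g
        rw [Subgroup.range_subtype]
        exact hC₁mem g
      have hOK : GlOK p φP C₁.subtype :=
        gl_pgroup p φP C₁.subtype hPp hcopP C₁.subtype_injective hrange
      have hmul := Subgroup.card_eq_card_quotient_mul_card_subgroup P
      have hqcard : Nat.card (S ⧸ P) < n := by
        have h2 : 1 < Nat.card P := (Subgroup.one_lt_card_iff_ne_bot P).mpr hPne
        have h3 : 0 < Nat.card (S ⧸ P) := Nat.card_pos
        rw [hn] at hmul
        nlinarith
      have hcopq : (Fintype.card C₁).Coprime (Nat.card (S ⧸ P)) := by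
        have h1 : Fintype.card C₁ ∣ Fintype.card G := by
          have h2 := Subgroup.card_subgroup_dvd_card C₁
          rwa [Nat.card_eq_fintype_card, Nat.card_eq_fintype_card] at h2
        have h3 : Nat.card (S ⧸ P) ∣ Nat.card S := Dvd.intro _ hmul.symm
        exact Nat.Coprime.coprime_dvd_left h1 (Nat.Coprime.coprime_dvd_right h3 hcop)
      obtain ⟨IHc, IHf⟩ := ih (Nat.card (S ⧸ P)) hqcard φq rfl hcopq
      have hfixq : ∀ c : C₁, c ∈ fixSub φq ↔ (c : G) ∈ fixSub φ := by
        intro c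
        constructor
        · intro h x
          have h1 := h (QuotientGroup.mk x)
          rw [hφq] at h1
          have h2 := congrArg Subtype.val h1
          rw [hφ₁] at h2
          exact h2
        · intro h x
          obtain ⟨x, rfl⟩ := QuotientGroup.mk_surjective x
          rw [hφq]
          apply Subtype.ext
          rw [hφ₁]
          exact h x
      have hfixC₁ : ∀ c ∈ fixSub φ, c ∈ C₁ := by
        intro c hc
        rw [hC₁mem]
        intro t
        rw [hφP]
        exact hc t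
      constructor
      · intro c hc c' hc' hcc
        have h1 : IsConj (⟨c, hfixC₁ c hc⟩ : C₁) ⟨c', hfixC₁ c' hc'⟩ := hOK.cl_conj _ _ hcc
        obtain ⟨d, hd, hdc⟩ := IHc ⟨c, hfixC₁ c hc⟩ ((hfixq _).mpr hc) ⟨c', hfixC₁ c' hc'⟩
          ((hfixq _).mpr hc') h1
        exact ⟨(d : G), (hfixq d).mp hd, congrArg Subtype.val hdc⟩
      · intro g hg
        obtain ⟨c₁, hc₁⟩ := hOK.cl_fix g (fun t => by rw [hφP]; exact hg t)
        have hc₁' : IsConj (c₁ : G) g := hc₁
        have h2 : ∀ x : S ⧸ P, IsConj (φq x c₁) c₁ := by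
          intro x
          obtain ⟨x, rfl⟩ := QuotientGroup.mk_surjective x
          rw [hφq]
          apply hOK.cl_conj
          change IsConj ((φ₁ x c₁ : C₁) : G) (c₁ : G)
          rw [hφ₁]
          have h3 : IsConj (φ x (c₁ : G)) (φ x g) := (φ x : G ≃* G).toMonoidHom.map_isConj hc₁'
          exact (h3.trans (hg x)).trans hc₁'.symm
        obtain ⟨c₂, hc₂, hc₂c⟩ := IHf c₁ h2
        exact ⟨(c₂ : G), (hfixq c₂).mp hc₂, (C₁.subtype.map_isConj hc₂c).trans hc₁'⟩

/-- Under a coprime action of a finite solvable group, the number of invariant irreducible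
characters equals the number of irreducible characters of the fixed-point subgroup. -/
theorem gl_count_fix {S : Type v} [Group S] [Finite S] [Group.IsSolvable S]
    {G : Type u} [Group G] [Fintype G] (φ : S →* MulAut G)
    (hcop : (Fintype.card G).Coprime (Nat.card S)) {C : Type*} [Group C] [Fintype C]
    (j : C →* G) (hj : Function.Injective j) (hC : ∀ g, g ∈ j.range ↔ ∀ s, φ s g = g) :
    Nat.card {χ : IrrCharacter G // ∀ s g, (χ : G → ℂ) (φ s g) = (χ : G → ℂ) g} =
      Nat.card (IrrCharacter C) := by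
  classical
  obtain ⟨hconj, hfix⟩ := gl_cl_aux (Nat.card S) φ rfl hcop
  rw [gl_count φ hcop, Helper4.card_irr (G := C)]
  symm
  have hmapinv : ∀ K₁ : ConjClasses C, ∀ s g, ConjClasses.mk g = ConjClasses.map j K₁ →
      ConjClasses.mk (φ s g) = ConjClasses.map j K₁ := by
    intro K₁ s g hg
    obtain ⟨c, rfl⟩ := ConjClasses.mk_surjective K₁
    change ConjClasses.mk g = ConjClasses.mk (j c) at hg
    change ConjClasses.mk (φ s g) = ConjClasses.mk (j c)
    have h1 : IsConj g (j c) := ConjClasses.mk_eq_mk_iff_isConj.mp hg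
    have h2 : IsConj (φ s g) (φ s (j c)) := (φ s : G ≃* G).toMonoidHom.map_isConj h1
    rw [(hC (j c)).mp ⟨c, rfl⟩ s] at h2
    exact ConjClasses.mk_eq_mk_iff_isConj.mpr h2
  let h : ConjClasses C →
      {K : ConjClasses G // ∀ s g, ConjClasses.mk g = K → ConjClasses.mk (φ s g) = K} :=
    fun K₁ => ⟨ConjClasses.map j K₁, hmapinv K₁⟩
  have hinj : Function.Injective h := by
    intro K₁ K₂ hKK
    have h1 : ConjClasses.map j K₁ = ConjClasses.map j K₂ := congrArg Subtype.val hKK
    obtain ⟨c, rfl⟩ := ConjClasses.mk_surjective K₁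
    obtain ⟨c', rfl⟩ := ConjClasses.mk_surjective K₂
    have h2 : IsConj (j c) (j c') := ConjClasses.mk_eq_mk_iff_isConj.mp h1
    obtain ⟨d, hd, hdc⟩ := hconj (j c) ((hC _).mp ⟨c, rfl⟩) (j c') ((hC _).mp ⟨c', rfl⟩) h2
    obtain ⟨d', rfl⟩ := (hC d).mpr hd
    apply ConjClasses.mk_eq_mk_iff_isConj.mpr
    apply isConj_iff.mpr
    refine ⟨d', hj ?_⟩
    rw [map_mul, map_mul, map_inv, hdc]
  have hsurj : Function.Surjective h := by
    rintro ⟨K, hK⟩
    obtain ⟨g, rfl⟩ := ConjClasses.mk_surjective K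
    obtain ⟨c₀, hc₀, hc₀g⟩ := hfix g (fun s => ConjClasses.mk_eq_mk_iff_isConj.mp (hK s g rfl))
    obtain ⟨c, rfl⟩ := (hC c₀).mpr hc₀
    exact ⟨ConjClasses.mk c, Subtype.ext (ConjClasses.mk_eq_mk_iff_isConj.mpr hc₀g)⟩
  exact Nat.card_congr (Equiv.ofBijective h ⟨hinj, hsurj⟩)

/-- If `G = K H` with `K` normal and `(|K|, |H|) = 1`, then the irreducible characters of `G` of
degree prime to `|H|` correspond to pairs consisting of a `G`-invariant irreducible character of
`K` and a linear character of `G` trivial on `K`. -/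
theorem deg_count {G : Type u} [Group G] [Fintype G] (K H : Subgroup G) [hK : K.Normal]
    [Fintype K] (hKH : K ⊔ H = ⊤) (hcop : (Nat.card K).Coprime (Nat.card H)) :
    Nat.card {χ : IrrCharacter G // (charDegree (χ : G → ℂ)).Coprime (Nat.card H)} =
      Nat.card {θ : IrrCharacter K // ∀ (g : G) (k : K),
        (θ : K → ℂ) ⟨g * k * g⁻¹, hK.conj_mem (k : G) k.2 g⟩ = (θ : K → ℂ) k} *
      Nat.card {l : IrrCharacter G // (l : G → ℂ) 1 = 1 ∧ ∀ k ∈ K, (l : G → ℂ) k = 1} := by
  classical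
  have hidx : Nat.card H = K.index :=
    Helper1.card_eq_index_of_sup_eq_top hcop (by rw [sup_comm]; exact hKH)
  have hdegK : ∀ θ : IrrCharacter K, (charDegree (θ : K → ℂ)).Coprime (Nat.card H) := fun θ =>
    Nat.Coprime.coprime_dvd_left (Helper83.irr_degree_dvd_card' θ.2) hcop
  -- extensions of invariant characters
  have hext : ∀ θ : {θ : IrrCharacter K // ∀ (g : G) (k : K),
      (θ : K → ℂ) ⟨g * k * g⁻¹, hK.conj_mem (k : G) k.2 g⟩ = (θ : K → ℂ) k},
      ∃ χ : IrrCharacter G, ∀ k : K, (χ : G → ℂ) k = (θ.1 : K → ℂ) k := by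
    intro θ
    obtain ⟨χ, ⟨hχ, hres, -⟩, -⟩ := Cfsg.Agent.S0867.result K (θ.1 : K → ℂ) θ.1.2 θ.2
      (charDegree (θ.1 : K → ℂ)) (Helper83.irr_degree θ.1.2).2 (by
        rw [← hidx]
        exact Nat.Coprime.mul_right
          (Nat.Coprime.coprime_dvd_left (Helper83.detOrder_dvd_card _) hcop).symm
          (hdegK θ.1).symm)
    exact ⟨⟨χ, hχ⟩, hres⟩
  choose ext hextres using hext
  have hone : IsIrrCharacter K (fun _ => (1 : ℂ)) := Helper83.isIrr_one
  -- Gallagher's bijection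
  have hgal : ∀ θ : {θ : IrrCharacter K // ∀ (g : G) (k : K),
      (θ : K → ℂ) ⟨g * k * g⁻¹, hK.conj_mem (k : G) k.2 g⟩ = (θ : K → ℂ) k},
      Set.BijOn (fun β : G → ℂ => β * (ext θ : G → ℂ))
        {β : G → ℂ | IsIrrCharacter G β ∧ classInner (indFun K (fun _ => (1 : ℂ))) β ≠ 0}
        {ψ : G → ℂ | IsIrrCharacter G ψ ∧ classInner (indFun K (θ.1 : K → ℂ)) ψ ≠ 0} := by
    intro θ
    have h1 : (fun _ : K => (1 : ℂ)) * (θ.1 : K → ℂ) = (θ.1 : K → ℂ) := by
      funext k
      simp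
    have h2 := Cfsg.Agent.S0856.result K (fun _ => (1 : ℂ)) (θ.1 : K → ℂ) hone θ.1.2
      (fun g n => rfl) θ.2 (by rw [h1]; exact θ.1.2) (ext θ : G → ℂ) (ext θ).2 (hextres θ)
    rw [h1] at h2
    exact h2
  have hclsG : ∀ χ : IrrCharacter G, IsClassFunction G (χ : G → ℂ) := fun χ =>
    Helper35.isClassFunction_of_isCharacter (Helper35.isChar_of_irr χ.2)
  -- linear characters trivial on `K` lie over the trivial character
  have hlsrc : ∀ l : {l : IrrCharacter G // (l : G → ℂ) 1 = 1 ∧ ∀ k ∈ K, (l : G → ℂ) k = 1},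
      (l.1 : G → ℂ) ∈ {β : G → ℂ | IsIrrCharacter G β ∧
        classInner (indFun K (fun _ => (1 : ℂ))) β ≠ 0} := by
    intro l
    refine ⟨l.1.2, ?_⟩
    rw [Helper4.frobenius_reciprocity K _ _ (hclsG l.1)]
    have h1 : (fun k : K => (l.1 : G → ℂ) k) = fun _ => (1 : ℂ) := funext fun k => l.2.2 k k.2
    rw [h1, Helper35.classInner_irr' hone hone, if_pos rfl]
    exact one_ne_zero
  -- degrees of products
  have hdegmul : ∀ (l χ : IrrCharacter G), (l : G → ℂ) 1 = 1 →
      ∀ h : IsIrrCharacter G ((l : G → ℂ) * (χ : G → ℂ)),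
      charDegree ((l : G → ℂ) * (χ : G → ℂ)) = charDegree (χ : G → ℂ) := by
    intro l χ hl h
    have h1 : ((charDegree ((l : G → ℂ) * (χ : G → ℂ)) : ℕ) : ℂ) = (charDegree (χ : G → ℂ) : ℂ) := by
      rw [← (Helper83.irr_degree h).2, ← (Helper83.irr_degree χ.2).2, Pi.mul_apply, hl, one_mul]
    exact_mod_cast h1
  have hdegext : ∀ θ : {θ : IrrCharacter K // ∀ (g : G) (k : K),
      (θ : K → ℂ) ⟨g * k * g⁻¹, hK.conj_mem (k : G) k.2 g⟩ = (θ : K → ℂ) k},
      charDegree (ext θ : G → ℂ) = charDegree (θ.1 : K → ℂ) := by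
    intro θ
    have h1 : ((charDegree (ext θ : G → ℂ) : ℕ) : ℂ) = (charDegree (θ.1 : K → ℂ) : ℂ) := by
      rw [← (Helper83.irr_degree (ext θ).2).2, ← (Helper83.irr_degree θ.1.2).2]
      exact hextres θ 1
    exact_mod_cast h1
  have hirrmul : ∀ (θ : {θ : IrrCharacter K // ∀ (g : G) (k : K),
      (θ : K → ℂ) ⟨g * k * g⁻¹, hK.conj_mem (k : G) k.2 g⟩ = (θ : K → ℂ) k})
      (l : {l : IrrCharacter G // (l : G → ℂ) 1 = 1 ∧ ∀ k ∈ K, (l : G → ℂ) k = 1}),
      IsIrrCharacter G ((l.1 : G → ℂ) * (ext θ : G → ℂ)) := fun θ l =>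
    Helper20.irr_linear_mul_irr l.1.2 l.2.1 (ext θ).2
  let Φ : {θ : IrrCharacter K // ∀ (g : G) (k : K),
        (θ : K → ℂ) ⟨g * k * g⁻¹, hK.conj_mem (k : G) k.2 g⟩ = (θ : K → ℂ) k} ×
      {l : IrrCharacter G // (l : G → ℂ) 1 = 1 ∧ ∀ k ∈ K, (l : G → ℂ) k = 1} →
      {χ : IrrCharacter G // (charDegree (χ : G → ℂ)).Coprime (Nat.card H)} := fun q =>
    ⟨⟨(q.2.1 : G → ℂ) * (ext q.1 : G → ℂ), hirrmul q.1 q.2⟩, by
      change (charDegree ((q.2.1 : G → ℂ) * (ext q.1 : G → ℂ))).Coprime (Nat.card H)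
      rw [hdegmul q.2.1 (ext q.1) q.2.2.1 (hirrmul q.1 q.2), hdegext]
      exact hdegK q.1.1⟩
  have hΦval : ∀ q, ((Φ q).1 : G → ℂ) = (q.2.1 : G → ℂ) * (ext q.1 : G → ℂ) := fun q => rfl
  have hΦinj : Function.Injective Φ := by
    rintro ⟨θ, l⟩ ⟨θ', l'⟩ h
    have hfun : (l.1 : G → ℂ) * (ext θ : G → ℂ) = (l'.1 : G → ℂ) * (ext θ' : G → ℂ) := by
      have h1 := congrArg (fun x => (x.1 : G → ℂ)) h
      exact h1
    have hθ : θ = θ' := by
      apply Subtype.ext
      apply Subtype.ext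
      funext k
      have h1 := congrFun hfun (k : G)
      rw [Pi.mul_apply, Pi.mul_apply, l.2.2 k k.2, l'.2.2 k k.2, one_mul, one_mul, hextres,
        hextres] at h1
      exact h1
    subst hθ
    have hl : (l.1 : G → ℂ) = (l'.1 : G → ℂ) := (hgal θ).injOn (hlsrc l) (hlsrc l') hfun
    have hl' : l = l' := Subtype.ext (Subtype.ext hl)
    rw [hl']
  have hΦsurj : Function.Surjective Φ := by
    rintro ⟨χ, hχdeg⟩
    obtain ⟨θ, hθirr, hθne⟩ := Helper20.exists_constituent K χ.2
    -- the inertia group is everything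
    have hT := Helper20.clifford_degree K hθirr χ.2 hθne (Helper20.inertia K θ)
      (Helper20.mem_inertia K θ)
    obtain ⟨e, he⟩ := Helper35.classInner_char_nat
      (Helper20.isCharacter_comp K.subtype (Helper35.isChar_of_irr χ.2))
      (Helper35.isChar_of_irr hθirr)
    have he' : classInner (fun h : K => (χ : G → ℂ) h) θ = e := he
    rw [he', (Helper83.irr_degree χ.2).2, (Helper83.irr_degree hθirr).2] at hT
    have hT' : charDegree (χ : G → ℂ) = e * (Helper20.inertia K θ).index * charDegree θ := by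
      exact_mod_cast hT
    have hKT : K ≤ Helper20.inertia K θ :=
      Helper20.le_inertia K (Helper35.isClassFunction_of_isCharacter (Helper35.isChar_of_irr hθirr))
    have hidx1 : (Helper20.inertia K θ).index = 1 := by
      have h1 : (Helper20.inertia K θ).index ∣ charDegree (χ : G → ℂ) := by
        rw [hT']
        exact ⟨e * charDegree θ, by ring⟩
      have h2 : (Helper20.inertia K θ).index ∣ Nat.card H := by
        rw [hidx]
        exact Subgroup.index_dvd_of_le hKT
      exact Nat.eq_one_of_dvd_coprimes hχdeg h1 h2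
    have htop : Helper20.inertia K θ = ⊤ := Subgroup.index_eq_one.mp hidx1
    have hθinv : ∀ (g : G) (k : K),
        θ ⟨g * k * g⁻¹, hK.conj_mem (k : G) k.2 g⟩ = θ k := by
      intro g k
      have h1 : g ∈ Helper20.inertia K θ := htop ▸ Subgroup.mem_top g
      have h2 := congrFun ((Helper20.mem_inertia K θ g).mp h1) k
      rw [Helper20.conjFun_apply] at h2
      exact h2
    obtain ⟨θ', hθ'⟩ : ∃ θ' : {θ : IrrCharacter K // ∀ (g : G) (k : K),
        (θ : K → ℂ) ⟨g * k * g⁻¹, hK.conj_mem (k : G) k.2 g⟩ = (θ : K → ℂ) k},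
        (θ'.1 : K → ℂ) = θ := ⟨⟨⟨θ, hθirr⟩, hθinv⟩, rfl⟩
    -- Gallagher
    have htgt : (χ : G → ℂ) ∈ {ψ : G → ℂ | IsIrrCharacter G ψ ∧
        classInner (indFun K (θ'.1 : K → ℂ)) ψ ≠ 0} := by
      refine ⟨χ.2, ?_⟩
      rw [Helper4.frobenius_reciprocity K _ _ (hclsG χ), hθ', Helper4.classInner_conj_symm]
      intro h0
      apply hθne
      have h1 := (map_eq_zero (starRingEnd ℂ)).mp h0
      exact h1
    obtain ⟨β, ⟨hβirr, hβne⟩, hβχ⟩ := (hgal θ').surjOn htgt
    have hβχ' : β * (ext θ' : G → ℂ) = (χ : G → ℂ) := hβχ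
    -- `β` is trivial on `K`
    rw [Helper4.frobenius_reciprocity K _ _
      (Helper35.isClassFunction_of_isCharacter (Helper35.isChar_of_irr hβirr)),
      Helper4.classInner_conj_symm] at hβne
    have hβne' : classInner (fun k : K => β k) (fun _ => (1 : ℂ)) ≠ 0 := by
      intro h0
      apply hβne
      rw [h0, map_zero]
    have hβK : ∀ k : K, β k = β 1 := by
      intro k
      have hT1 : ∀ g : G, g ∈ (⊤ : Subgroup G) ↔
          Helper20.conjFun K (fun _ => (1 : ℂ)) g = fun _ => (1 : ℂ) :=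
        fun g => ⟨fun _ => rfl, fun _ => Subgroup.mem_top g⟩
      have h1 := Helper20.clifford_res K hone hβirr hβne' ⊤ hT1 k
      have h2 := Helper20.clifford_res K hone hβirr hβne' ⊤ hT1 1
      have h3 : ((1 : K) : G) = 1 := rfl
      rw [h3] at h2
      rw [h1, h2]
      rfl
    let βI : IrrCharacter G := ⟨β, hβirr⟩
    have hβdeg : charDegree β = 1 := by
      have h1 : charDegree β ∣ (Helper83.irrKer βI).index := Helper83.degree_dvd_index_ker βI
      have h2 : K ≤ Helper83.irrKer βI := by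
        intro k hk
        rw [Helper83.mem_irrKer]
        exact hβK ⟨k, hk⟩
      have h3 : charDegree β ∣ Nat.card H := by
        rw [hidx]
        exact dvd_trans h1 (Subgroup.index_dvd_of_le h2)
      have h4 : charDegree β ∣ charDegree (χ : G → ℂ) := by
        have h5 : ((charDegree (χ : G → ℂ) : ℕ) : ℂ) =
            ((charDegree β * charDegree (ext θ' : G → ℂ) : ℕ) : ℂ) := by
          push_cast
          rw [← (Helper83.irr_degree χ.2).2, ← (Helper83.irr_degree hβirr).2,
            ← (Helper83.irr_degree (ext θ').2).2, ← hβχ', Pi.mul_apply]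
        have h6 : charDegree (χ : G → ℂ) = charDegree β * charDegree (ext θ' : G → ℂ) := by
          exact_mod_cast h5
        rw [h6]
        exact Dvd.intro _ rfl
      exact Nat.eq_one_of_dvd_coprimes hχdeg h4 h3
    have hβ1 : β 1 = 1 := by
      rw [(Helper83.irr_degree hβirr).2, hβdeg]
      simp
    refine ⟨(θ', ⟨βI, hβ1, fun k hk => (hβK ⟨k, hk⟩).trans hβ1⟩), ?_⟩
    apply Subtype.ext
    apply Subtype.ext
    exact hβχ'
  rw [← Nat.card_prod]
  exact (Nat.card_congr (Equiv.ofBijective Φ ⟨hΦinj, hΦsurj⟩)).symm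

/-- linear characters of `G = K ⋊ H` trivial on `K` correspond to linear characters of `H` -/
theorem lin_count {G : Type*} [Group G] (K H : Subgroup G) [hK : K.Normal]
    (hKH : K ⊔ H = ⊤) (hint : K ⊓ H = ⊥) :
    Nat.card {l : IrrCharacter G // (l : G → ℂ) 1 = 1 ∧ ∀ k ∈ K, (l : G → ℂ) k = 1} =
      Nat.card {ψ : IrrCharacter H // (ψ : H → ℂ) 1 = 1} := by
  classical
  have hinj : Function.Injective ((QuotientGroup.mk' K).comp H.subtype) := by
    rw [injective_iff_map_eq_one]
    intro h hh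
    have h1 : (h : G) ∈ K := (QuotientGroup.eq_one_iff (h : G)).mp hh
    have h2 : (h : G) ∈ K ⊓ H := ⟨h1, h.2⟩
    rw [hint, Subgroup.mem_bot] at h2
    exact Subtype.ext h2
  have hdecomp : ∀ g : G, ∃ k ∈ K, ∃ h ∈ H, g = k * h := by
    intro g
    have hg : g ∈ ((K ⊔ H : Subgroup G) : Set G) := by
      rw [hKH]
      exact Set.mem_univ g
    rw [Subgroup.normal_mul] at hg
    obtain ⟨k, hk, h, hh, rfl⟩ := Set.mem_mul.mp hg
    exact ⟨k, hk, h, hh, rfl⟩
  have hsurj : Function.Surjective ((QuotientGroup.mk' K).comp H.subtype) := by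
    intro q
    obtain ⟨g, rfl⟩ := QuotientGroup.mk'_surjective K q
    obtain ⟨k, hk, h, hh, rfl⟩ := hdecomp g
    refine ⟨⟨h, hh⟩, ?_⟩
    change (QuotientGroup.mk' K) h = (QuotientGroup.mk' K) (k * h)
    have hk1 : (QuotientGroup.mk' K) k = 1 := (QuotientGroup.eq_one_iff k).mpr hk
    rw [map_mul, hk1, one_mul]
  let e : H ≃* G ⧸ K := MulEquiv.ofBijective _ ⟨hinj, hsurj⟩
  let π : G →* H := e.symm.toMonoidHom.comp (QuotientGroup.mk' K)
  have hπH : ∀ h : H, π (h : G) = h := by
    intro h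
    change e.symm ((QuotientGroup.mk' K) (h : G)) = h
    have h1 : (QuotientGroup.mk' K) (h : G) = e h := rfl
    rw [h1, MulEquiv.symm_apply_apply]
  have hπK : ∀ k ∈ K, π k = 1 := by
    intro k hk
    change e.symm ((QuotientGroup.mk' K) k) = 1
    have hk1 : (QuotientGroup.mk' K) k = 1 := (QuotientGroup.eq_one_iff k).mpr hk
    rw [hk1, map_one]
  have hπsurj : Function.Surjective π := fun h => ⟨h, hπH h⟩
  let Φ : {ψ : IrrCharacter H // (ψ : H → ℂ) 1 = 1} →
      {l : IrrCharacter G // (l : G → ℂ) 1 = 1 ∧ ∀ k ∈ K, (l : G → ℂ) k = 1} := fun ψ =>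
    ⟨⟨fun g => (ψ.1 : H → ℂ) (π g), Helper20.irr_comp_surjective π hπsurj ψ.1.2⟩, by
      change (ψ.1 : H → ℂ) (π 1) = 1
      rw [map_one]
      exact ψ.2, fun k hk => by
      change (ψ.1 : H → ℂ) (π k) = 1
      rw [hπK k hk]
      exact ψ.2⟩
  have hΦinj : Function.Injective Φ := by
    intro ψ ψ' h
    apply Subtype.ext
    apply Subtype.ext
    funext x
    have h1 := congrFun (congrArg (fun q => (q.1 : G → ℂ)) h) (x : G)
    change (ψ.1 : H → ℂ) (π x) = (ψ'.1 : H → ℂ) (π x) at h1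
    rwa [hπH] at h1
  have hΦsurj : Function.Surjective Φ := by
    rintro ⟨l, hl1, hlK⟩
    have hmul := Helper83.irr_linear_mul l.2 hl1
    have hres : IsIrrCharacter H (fun h : H => (l : G → ℂ) h) :=
      Helper21.isIrr_of_char_one (Helper20.isCharacter_comp H.subtype (Helper35.isChar_of_irr l.2))
        hl1
    refine ⟨⟨⟨fun h : H => (l : G → ℂ) h, hres⟩, hl1⟩, ?_⟩
    apply Subtype.ext
    apply Subtype.ext
    funext g
    change (l : G → ℂ) ((π g : H) : G) = (l : G → ℂ) g
    obtain ⟨k, hk, h, hh, rfl⟩ := hdecomp g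
    have h3 : π h = ⟨h, hh⟩ := hπH ⟨h, hh⟩
    rw [map_mul, hπK k hk, one_mul, h3, hmul, hlK k hk, one_mul]
  exact (Nat.card_congr (Equiv.ofBijective Φ ⟨hΦinj, hΦsurj⟩)).symm

/-- isomorphic groups have the same number of linear characters -/
theorem lin_card_congr {A B : Type*} [Group A] [Group B] (e : A ≃* B) :
    Nat.card {ψ : IrrCharacter A // (ψ : A → ℂ) 1 = 1} =
      Nat.card {ψ : IrrCharacter B // (ψ : B → ℂ) 1 = 1} := by
  refine Nat.card_congr ⟨fun ψ => ⟨⟨fun b => (ψ.1 : A → ℂ) (e.symm b),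
      Helper20.irr_comp_surjective e.symm.toMonoidHom e.symm.surjective ψ.1.2⟩, by
        change (ψ.1 : A → ℂ) (e.symm 1) = 1
        rw [map_one]
        exact ψ.2⟩,
    fun ψ => ⟨⟨fun a => (ψ.1 : B → ℂ) (e a),
      Helper20.irr_comp_surjective e.toMonoidHom e.surjective ψ.1.2⟩, by
        change (ψ.1 : B → ℂ) (e 1) = 1
        rw [map_one]
        exact ψ.2⟩, ?_, ?_⟩
  · intro ψ
    apply Subtype.ext
    apply Subtype.ext
    funext a
    change (ψ.1 : A → ℂ) (e.symm (e a)) = (ψ.1 : A → ℂ) a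
    rw [MulEquiv.symm_apply_apply]
  · intro ψ
    apply Subtype.ext
    apply Subtype.ext
    funext b
    change (ψ.1 : B → ℂ) (e (e.symm b)) = (ψ.1 : B → ℂ) b
    rw [MulEquiv.apply_symm_apply]

end Cfsg.Agent.Lib.Helper5
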