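import Mathlib

/-!
# Arithmetic for Brauer's theorem on Sylow `2`-subgroups of type `(2^m, 2^m)` (helper5)
-/

set_option autoImplicit false

namespace Cfsg.Agent.Lib.Helper5

theorem hc_arith_pos (a b : ℤ) (ha : 1 ≤ a) (hb : 1 ≤ b)
    (h : a * (b - 1) ^ 2 + b * (a - 1) ^ 2 + (a - b) ^ 2 = 0) : a = 1 ∧ b = 1 := by
  have h1 : 0 ≤ a * (b - 1) ^ 2 := mul_nonneg (by linarith) (sq_nonneg _)
  have h2 : 0 ≤ b * (a - 1) ^ 2 := mul_nonneg (by linarith) (sq_nonneg _)
  have h3 : 0 ≤ (a - b) ^ 2 := sq_nonneg _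
  have h4 : a * (b - 1) ^ 2 = 0 := by linarith
  have h5 : b * (a - 1) ^ 2 = 0 := by linarith
  have ha0 : a ≠ 0 := by omega
  have hb0 : b ≠ 0 := by omega
  have h6 : (b - 1) ^ 2 = 0 := by
    rcases mul_eq_zero.mp h4 with h | h
    · exact absurd h ha0
    · exact h
  have h7 : (a - 1) ^ 2 = 0 := by
    rcases mul_eq_zero.mp h5 with h | h
    · exact absurd h hb0
    · exact h
  have h8 : b - 1 = 0 := by simpa using h6
  have h9 : a - 1 = 0 := by simpa using h7
  exact ⟨by linarith, by linarith⟩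

theorem hc_arith_mixed (a c : ℤ) (ha : 1 ≤ a) (hc : 15 ≤ c)
    (h : (1 + a - c) * (a * c - a + c) = 9 * (a * c)) : False := by
  obtain ⟨k, hk⟩ : ∃ k : ℤ, k = a - c := ⟨_, rfl⟩
  have hkey : (k - 8) * (a * c) = k ^ 2 + k := by
    rw [hk]; linear_combination h
  have hac : 15 * a ≤ a * c := by nlinarith
  have hac0 : 0 < a * c := by nlinarith
  by_cases hk9 : 9 ≤ k
  · have h1 : (k - 8) * (15 * (k + 15)) ≤ (k - 8) * (a * c) := by
      apply mul_le_mul_of_nonneg_left _ (by linarith)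
      have : k + 15 ≤ a := by rw [hk]; linarith
      linarith
    nlinarith
  · have h1 : (k - 8) * (a * c) ≤ 0 := by
      apply mul_nonpos_of_nonpos_of_nonneg (by linarith) hac0.le
    have h2 : 0 ≤ k ^ 2 + k := by
      rcases le_or_gt 0 k with h0 | h0
      · nlinarith
      · have : k ≤ -1 := by omega
        nlinarith
    have h3 : (k - 8) * (a * c) = 0 := by linarith
    rcases mul_eq_zero.mp h3 with h4 | h4
    · have hk8 : k = 8 := by linarith
      rw [hk8] at hkey
      norm_num at hkey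
    · exact absurd h4 hac0.ne'

/-- The arithmetic core: `A₁ = A₂ = 1`. -/
theorem hc_arith (a b : ℤ) (ha : 1 ≤ a ∨ a ≤ -15) (hb : 1 ≤ b ∨ b ≤ -15)
    (h : (1 + a + b) * (a * b + a + b) = 9 * (a * b)) : a = 1 ∧ b = 1 := by
  have h' : a * (b - 1) ^ 2 + b * (a - 1) ^ 2 + (a - b) ^ 2 = 0 := by
    linear_combination h
  rcases ha with ha | ha <;> rcases hb with hb | hb
  · exact hc_arith_pos a b ha hb h'
  · exfalso
    apply hc_arith_mixed a (-b) ha (by linarith)
    linear_combination -h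
  · exfalso
    apply hc_arith_mixed b (-a) hb (by linarith)
    linear_combination -h
  · exfalso
    nlinarith [sq_nonneg (a - 1), sq_nonneg (b - 1), sq_nonneg (a + b - 2)]

end Cfsg.Agent.Lib.Helper5
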