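import Mathlib
import Cfsg.Agent.Lib.Helper4.CharExp2
import Cfsg.Agent.Lib.Helper35.Abel

/-!
# Character sums on an abelian group with a fixed-point-free automorphism of order three (helper5)
-/

set_option autoImplicit false

namespace Cfsg.Agent.Lib.Helper5

open Cfsg Cfsg.Agent.Lib.Helper4
open scoped ComplexConjugate

section

variable {A : Type*} [Group A] [Fintype A] [Fintype (IrrCharacter A)]

open scoped Classical in
/-- The sum of all irreducible characters of an abelian group at an element. -/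
theorem hc_sum_irr (hcomm : ∀ a b : A, a * b = b * a) (y : A) :
    ∑ l : IrrCharacter A, (l : A → ℂ) y = if y = 1 then (Nat.card A : ℂ) else 0 := by
  rw [← col_orth_one y]
  refine Finset.sum_congr rfl fun l _ => ?_
  rw [Cfsg.Agent.Lib.Helper35.irr_one_of_comm hcomm l, mul_one]

/-- The norm `y σ(y) σ²(y)` is trivial. -/
theorem hc_norm_one (hcomm : ∀ a b : A, a * b = b * a) (σ : A ≃* A)
    (hσ3 : ∀ y, σ (σ (σ y)) = y) (hσ1 : ∀ y, y ≠ 1 → σ y ≠ y) (y : A) :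
    y * σ y * σ (σ y) = 1 := by
  by_contra hne
  apply hσ1 _ hne
  rw [map_mul, map_mul, hσ3, hcomm (σ y * σ (σ y)) y, mul_assoc]

set_option maxHeartbeats 800000 in
/-- The weighted sum over all characters vanishes. -/
theorem hc_wsum (hcomm : ∀ a b : A, a * b = b * a) (σ : A ≃* A)
    (hσ3 : ∀ y, σ (σ (σ y)) = y) (hσ1 : ∀ y, y ≠ 1 → σ y ≠ y)
    (u z : A) (hu2 : u * u ≠ 1) (hz : z * z = 1) :
    ∑ l : IrrCharacter A, ((l : A → ℂ) u + (l : A → ℂ) (σ u) + (l : A → ℂ) (σ (σ u))) *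
      ((l : A → ℂ) z + (l : A → ℂ) (σ z) + (l : A → ℂ) (σ (σ z))) ^ 2 = 0 := by
  have hmul := fun (l : IrrCharacter A) (a b : A) =>
    Cfsg.Agent.Lib.Helper35.irr_mul_of_comm hcomm l a b
  have hone := fun (l : IrrCharacter A) => Cfsg.Agent.Lib.Helper35.irr_one_of_comm hcomm l
  obtain ⟨z1, hz1⟩ : ∃ z1, z1 = σ z := ⟨_, rfl⟩
  obtain ⟨z2, hz2⟩ : ∃ z2, z2 = σ (σ z) := ⟨_, rfl⟩
  obtain ⟨u1, hu1⟩ : ∃ u1, u1 = σ u := ⟨_, rfl⟩
  obtain ⟨u2, hu2'⟩ : ∃ u2, u2 = σ (σ u) := ⟨_, rfl⟩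
  rw [← hz2, ← hz1, ← hu2', ← hu1]
  have hz11 : z1 * z1 = 1 := by rw [hz1, ← map_mul, hz, map_one]
  have hz22 : z2 * z2 = 1 := by rw [hz2, ← map_mul, ← map_mul, hz, map_one, map_one]
  have hN : z * z1 * z2 = 1 := by
    rw [hz1, hz2]; exact hc_norm_one hcomm σ hσ3 hσ1 z
  have hzz1 : z * z1 = z2 := by
    have h : z * z1 = z2⁻¹ := eq_inv_of_mul_eq_one_left hN
    rw [h]; exact inv_eq_of_mul_eq_one_left hz22
  have hzz2 : z * z2 = z1 := by
    have h1 : z * z2 * z1 = 1 := by rw [mul_assoc, hcomm z2 z1, ← mul_assoc]; exact hN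
    have h : z * z2 = z1⁻¹ := eq_inv_of_mul_eq_one_left h1
    rw [h]; exact inv_eq_of_mul_eq_one_left hz11
  have hz1z2 : z1 * z2 = z := by
    have h1 : z1 * z2 * z = 1 := by rw [hcomm (z1 * z2) z, ← mul_assoc]; exact hN
    have h : z1 * z2 = z⁻¹ := eq_inv_of_mul_eq_one_left h1
    rw [h]; exact inv_eq_of_mul_eq_one_left hz
  have hu11 : u1 * u1 ≠ 1 := by
    intro h
    rw [hu1, ← map_mul] at h
    exact hu2 ((map_eq_one_iff σ σ.injective).mp h)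
  have hu22 : u2 * u2 ≠ 1 := by
    intro h
    rw [hu2', ← map_mul, ← map_mul] at h
    exact hu2 ((map_eq_one_iff σ σ.injective).mp ((map_eq_one_iff σ σ.injective).mp h))
  -- vanishing sums
  have hS : ∀ v : A, v * v ≠ 1 → ∑ l : IrrCharacter A, (l : A → ℂ) v = 0 := by
    intro v hv
    rw [hc_sum_irr hcomm, if_neg]
    rintro rfl
    exact hv (mul_one 1)
  have hS2 : ∀ v w : A, v * v ≠ 1 → w * w = 1 → ∑ l : IrrCharacter A, (l : A → ℂ) (v * w) = 0 := by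
    intro v w hv hw
    apply hS
    intro h
    apply hv
    have : v * w * (v * w) = v * v * (w * w) := by
      rw [mul_assoc, ← mul_assoc w v w, hcomm w v, mul_assoc, mul_assoc]
    rw [this, hw, mul_one] at h
    exact h
  have hterm : ∀ l : IrrCharacter A,
      ((l : A → ℂ) u + (l : A → ℂ) u1 + (l : A → ℂ) u2) *
        ((l : A → ℂ) z + (l : A → ℂ) z1 + (l : A → ℂ) z2) ^ 2 =
      3 * (l : A → ℂ) u + 3 * (l : A → ℂ) u1 + 3 * (l : A → ℂ) u2 +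
        2 * (l : A → ℂ) (u * z) + 2 * (l : A → ℂ) (u * z1) + 2 * (l : A → ℂ) (u * z2) +
        2 * (l : A → ℂ) (u1 * z) + 2 * (l : A → ℂ) (u1 * z1) + 2 * (l : A → ℂ) (u1 * z2) +
        2 * (l : A → ℂ) (u2 * z) + 2 * (l : A → ℂ) (u2 * z1) + 2 * (l : A → ℂ) (u2 * z2) := by
    intro l
    have hpp : (l : A → ℂ) z * (l : A → ℂ) z = 1 := by rw [← hmul, hz, hone]
    have hqq : (l : A → ℂ) z1 * (l : A → ℂ) z1 = 1 := by rw [← hmul, hz11, hone]
    have hrr : (l : A → ℂ) z2 * (l : A → ℂ) z2 = 1 := by rw [← hmul, hz22, hone]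
    have hpq : (l : A → ℂ) z * (l : A → ℂ) z1 = (l : A → ℂ) z2 := by rw [← hmul, hzz1]
    have hpr : (l : A → ℂ) z * (l : A → ℂ) z2 = (l : A → ℂ) z1 := by rw [← hmul, hzz2]
    have hqr : (l : A → ℂ) z1 * (l : A → ℂ) z2 = (l : A → ℂ) z := by rw [← hmul, hz1z2]
    rw [hmul, hmul, hmul, hmul, hmul, hmul, hmul, hmul, hmul]
    linear_combination ((l : A → ℂ) u + (l : A → ℂ) u1 + (l : A → ℂ) u2) *
      (hpp + hqq + hrr + 2 * hpq + 2 * hpr + 2 * hqr)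
  rw [Finset.sum_congr rfl (fun l _ => hterm l)]
  simp only [Finset.sum_add_distrib, ← Finset.mul_sum]
  rw [hS u hu2, hS u1 hu11, hS u2 hu22, hS2 u z hu2 hz, hS2 u z1 hu2 hz11, hS2 u z2 hu2 hz22,
    hS2 u1 z hu11 hz, hS2 u1 z1 hu11 hz11, hS2 u1 z2 hu11 hz22,
    hS2 u2 z hu22 hz, hS2 u2 z1 hu22 hz11, hS2 u2 z2 hu22 hz22]
  ring

end

end Cfsg.Agent.Lib.Helper5
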