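import Mathlib
import Cfsg.Agent.Lib.Helper23.ExcComb3

/-!
# Exceptional characters for a fusion pattern of order three: combinatorics (helper5)

The combinatorial structure of the vectors `a l` with Gram matrix `3 + [l ~ l']`, in the full
form needed for Brauer's theorem on Sylow `2`-subgroups of type `(2^m, 2^m)`: two common
coordinates `χ₁, χ₂` and one exceptional coordinate `X l` per label.
-/

set_option autoImplicit false

namespace Cfsg.Agent.Lib.Helper5

open Cfsg.Agent.Lib.Helper23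

theorem one_square {ι : Type*} [Fintype ι] [DecidableEq ι] (c : ι → ℤ)
    (h : ∑ i, c i ^ 2 = 1) :
    ∃ i, (c i = 1 ∨ c i = -1) ∧ ∀ l, l ≠ i → c l = 0 := by
  classical
  have hex : ∃ i, c i ≠ 0 := by
    by_contra hno
    push Not at hno
    simp [hno] at h
  obtain ⟨i, hi⟩ := hex
  have hsplit := Finset.add_sum_erase Finset.univ (fun i => c i ^ 2) (Finset.mem_univ i)
  rw [h] at hsplit
  have hnn : 0 ≤ ∑ x ∈ Finset.univ.erase i, c x ^ 2 := Finset.sum_nonneg fun _ _ => sq_nonneg _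
  have hci : c i = 1 ∨ c i = -1 := by
    have h1 : c i ^ 2 ≤ 1 := by linarith
    have h2 : -1 ≤ c i := by
      by_contra hlt
      push Not at hlt
      nlinarith
    have h3 : c i ≤ 1 := by
      by_contra hlt
      push Not at hlt
      nlinarith
    omega
  have hci2 : c i ^ 2 = 1 := by
    rcases hci with h | h <;> rw [h] <;> norm_num
  refine ⟨i, hci, ?_⟩
  intro l hl
  have h0 : ∑ x ∈ Finset.univ.erase i, c x ^ 2 = 0 := by linarith
  have h1 := (Finset.sum_eq_zero_iff_of_nonneg (fun x _ => sq_nonneg (c x))).mp h0 l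
    (Finset.mem_erase.mpr ⟨hl, Finset.mem_univ l⟩)
  exact pow_eq_zero_iff (two_ne_zero) |>.mp h1

section Comb

variable {I Λ : Type*} [Fintype I] [DecidableEq I] [Fintype Λ] [DecidableEq Λ]
  (a : Λ → I → ℤ) (one : I) (R : Λ → Λ → Prop) [DecidableRel R]

/-- The structure of the vectors, given that some label outside the class of `l₁` misses `χ₃`. -/
theorem hc_comb_aux (ha1 : ∀ l, a l one = 1)
    (hgram : ∀ l l', ∑ i, a l i * a l' i = 3 + (if R l l' then 1 else 0))
    (hR : ∀ l, R l l) (hRcard : ∀ l, (Finset.univ.filter (fun l' => R l l')).card = 3)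
    (hcard : 12 < Fintype.card Λ)
    {l₁ : Λ} {χ₁ χ₂ χ₃ : I} {s₁ s₂ s₃ : ℤ}
    (hD : Exc3Data a one l₁ χ₁ χ₂ χ₃ s₁ s₂ s₃) (l : Λ)
    (hl : a l χ₁ = s₁ ∧ a l χ₂ = s₂ ∧ a l χ₃ = 0) :
    ∃ (χ₁ χ₂ : I) (s₁ s₂ : ℤ) (X : Λ → I) (t : Λ → ℤ), χ₁ ≠ one ∧ χ₂ ≠ one ∧ χ₁ ≠ χ₂ ∧
      (s₁ = 1 ∨ s₁ = -1) ∧ (s₂ = 1 ∨ s₂ = -1) ∧
      (∀ l, X l ≠ one ∧ X l ≠ χ₁ ∧ X l ≠ χ₂ ∧ (t l = 1 ∨ t l = -1)) ∧
      (∀ l i, a l i = (if i = one then 1 else 0) + (if i = χ₁ then s₁ else 0) +
        (if i = χ₂ then s₂ else 0) + (if i = X l then t l else 0)) ∧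
      (∀ l l', X l = X l' ↔ R l l') := by
  have hDD := hD
  obtain ⟨h1, h2, h3, h12, h13, h23, hs1, hs2, hs3, hb1, hb2, hb3, hz⟩ := hD
  have hs1' : s₁ * s₁ = 1 := by rcases hs1 with h | h <;> rw [h] <;> norm_num
  have hs2' : s₂ * s₂ = 1 := by rcases hs2 with h | h <;> rw [h] <;> norm_num
  have hall : ∀ x : Λ, a x χ₁ = s₁ ∧ a x χ₂ = s₂ := by
    intro x
    rcases exc3_types a one R ha1 hgram hR hDD x with hx | ⟨hRx, hx | hx | hx⟩
    · exact ⟨hx.2.1, hx.2.2.1⟩
    · exfalso
      have := exc3_mixed a one R ha1 hgram hR hRcard hDD l x hl hx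
      omega
    · exfalso
      have := exc3_mixed a one R ha1 hgram hR hRcard hDD.swap12 l x ⟨hl.2.1, hl.1, hl.2.2⟩
        ⟨hx.2.1, hx.1, hx.2.2⟩
      omega
    · exact ⟨hx.1, hx.2.1⟩
  -- the remaining coordinate
  have hrest : ∀ x : Λ, ∃ i, (a x i = 1 ∨ a x i = -1) ∧ i ≠ one ∧ i ≠ χ₁ ∧ i ≠ χ₂ ∧
      ∀ j, j ≠ one → j ≠ χ₁ → j ≠ χ₂ → j ≠ i → a x j = 0 := by
    intro x
    have hn := exc3_norm a R hgram hR x
    have hsum : ∑ i, (if i = one ∨ i = χ₁ ∨ i = χ₂ then 0 else a x i) ^ 2 = 1 := by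
      have e : ∀ i, (if i = one ∨ i = χ₁ ∨ i = χ₂ then 0 else a x i) ^ 2 =
          a x i ^ 2 - (if i = one then 1 else 0) - (if i = χ₁ then 1 else 0) -
            (if i = χ₂ then 1 else 0) := by
        intro i
        by_cases hi1 : i = one
        · subst hi1
          simp [ha1, h1.symm, h2.symm]
        · by_cases hi2 : i = χ₁
          · subst hi2
            simp [(hall x).1, hs1', pow_two, h12, hi1]
          · by_cases hi3 : i = χ₂
            · subst hi3
              simp [(hall x).2, hs2', pow_two, hi1, hi2]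
            · simp [hi1, hi2, hi3]
      rw [Finset.sum_congr rfl (fun i _ => e i), Finset.sum_sub_distrib, Finset.sum_sub_distrib,
        Finset.sum_sub_distrib, hn]
      simp
    obtain ⟨i, hi, hzero⟩ := one_square _ hsum
    have hi' : ¬ (i = one ∨ i = χ₁ ∨ i = χ₂) := by
      intro hcon
      rw [if_pos hcon] at hi
      omega
    rw [if_neg hi'] at hi
    push Not at hi'
    refine ⟨i, hi, hi'.1, hi'.2.1, hi'.2.2, ?_⟩
    intro j hj1 hj2 hj3 hji
    have := hzero j hji
    rw [if_neg (by push Not; exact ⟨hj1, hj2, hj3⟩)] at this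
    exact this
  choose X hX using hrest
  have hform : ∀ l i, a l i = (if i = one then 1 else 0) + (if i = χ₁ then s₁ else 0) +
        (if i = χ₂ then s₂ else 0) + (if i = X l then a l (X l) else 0) := by
    intro x i
    by_cases hi1 : i = one
    · subst hi1
      simp [ha1, h1.symm, h2.symm, (hX x).2.1.symm]
    · by_cases hi2 : i = χ₁
      · subst hi2
        simp [(hall x).1, hi1, h12, (hX x).2.2.1.symm]
      · by_cases hi3 : i = χ₂
        · subst hi3
          simp [(hall x).2, hi1, hi2, (hX x).2.2.2.1.symm]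
        · by_cases hi4 : i = X x
          · subst hi4
            simp [hi1, hi2, hi3]
          · simp [hi1, hi2, hi3, hi4, (hX x).2.2.2.2 i hi1 hi2 hi3 hi4]
  refine ⟨χ₁, χ₂, s₁, s₂, X, fun l => a l (X l), h1, h2, h12, hs1, hs2, ?_, hform, ?_⟩
  · intro x
    exact ⟨(hX x).2.1, (hX x).2.2.1, (hX x).2.2.2.1, (hX x).1⟩
  · intro x x'
    have hg := hgram x x'
    have hsum : ∑ i, a x i * a x' i = 3 + a x (X x) * a x' (X x) := by
      have e : ∀ i, a x i * a x' i = (if i = one then a x' i else 0) +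
          (if i = χ₁ then s₁ * a x' i else 0) + (if i = χ₂ then s₂ * a x' i else 0) +
          (if i = X x then a x (X x) * a x' i else 0) := by
        intro i
        conv_lhs => rw [hform x i]
        split_ifs <;> ring
      rw [Finset.sum_congr rfl (fun i _ => e i), Finset.sum_add_distrib, Finset.sum_add_distrib,
        Finset.sum_add_distrib, Finset.sum_ite_eq', Finset.sum_ite_eq', Finset.sum_ite_eq',
        Finset.sum_ite_eq']
      simp only [Finset.mem_univ, if_true]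
      rw [ha1, (hall x').1, (hall x').2, hs1', hs2']
      ring
    rw [hsum] at hg
    have hne : a x (X x) ≠ 0 := by
      rcases (hX x).1 with h | h <;> rw [h] <;> norm_num
    constructor
    · intro hXX
      by_contra hnR
      rw [if_neg hnR] at hg
      have h0 : a x (X x) * a x' (X x) = 0 := by linarith
      rw [hXX] at h0
      rcases mul_eq_zero.mp h0 with h | h
      · rw [← hXX] at h; exact hne h
      · rcases (hX x').1 with h' | h' <;> rw [h'] at h <;> norm_num at h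
    · intro hRxx
      rw [if_pos hRxx] at hg
      by_contra hXX
      have h0 : a x' (X x) = 0 :=
        (hX x').2.2.2.2 (X x) (hX x).2.1 (hX x).2.2.1 (hX x).2.2.2.1 hXX
      rw [h0] at hg
      norm_num at hg

/-- The structure of vectors with Gram matrix `3 + [l ~ l']`, all having coordinate `1` at
`one`, when there are more than four classes of labels. -/
theorem hc_comb (ha1 : ∀ l, a l one = 1)
    (hgram : ∀ l l', ∑ i, a l i * a l' i = 3 + (if R l l' then 1 else 0))
    (hR : ∀ l, R l l) (hRcard : ∀ l, (Finset.univ.filter (fun l' => R l l')).card = 3)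
    (hcard : 12 < Fintype.card Λ) :
    ∃ (χ₁ χ₂ : I) (s₁ s₂ : ℤ) (X : Λ → I) (t : Λ → ℤ), χ₁ ≠ one ∧ χ₂ ≠ one ∧ χ₁ ≠ χ₂ ∧
      (s₁ = 1 ∨ s₁ = -1) ∧ (s₂ = 1 ∨ s₂ = -1) ∧
      (∀ l, X l ≠ one ∧ X l ≠ χ₁ ∧ X l ≠ χ₂ ∧ (t l = 1 ∨ t l = -1)) ∧
      (∀ l i, a l i = (if i = one then 1 else 0) + (if i = χ₁ then s₁ else 0) +
        (if i = χ₂ then s₂ else 0) + (if i = X l then t l else 0)) ∧
      (∀ l l', X l = X l' ↔ R l l') := by
  classical
  obtain ⟨l₁⟩ : Nonempty Λ := by
    rw [← Fintype.card_pos_iff]; omega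
  -- the structure of `a l₁`
  have hcsum : ∑ i, (if i = one then 0 else a l₁ i) ^ 2 = 3 := by
    have h1 := exc3_norm a R hgram hR l₁
    rw [← Finset.add_sum_erase _ _ (Finset.mem_univ one), ha1] at h1
    rw [← Finset.add_sum_erase _ _ (Finset.mem_univ one), if_pos rfl]
    have h2 : ∑ i ∈ Finset.univ.erase one, (if i = one then 0 else a l₁ i) ^ 2 =
        ∑ i ∈ Finset.univ.erase one, a l₁ i ^ 2 := by
      refine Finset.sum_congr rfl fun i hi => ?_
      rw [if_neg (Finset.ne_of_mem_erase hi)]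
    rw [h2]
    linarith
  obtain ⟨χ₁, χ₂, χ₃, h12, h13, h23, hc1, hc2, hc3, hrest⟩ :=
    three_square (fun i => if i = one then 0 else a l₁ i) hcsum
  have h1 : χ₁ ≠ one := by
    rintro rfl
    simp at hc1
  have h2 : χ₂ ≠ one := by
    rintro rfl
    simp at hc2
  have h3 : χ₃ ≠ one := by
    rintro rfl
    simp at hc3
  have hD : Exc3Data a one l₁ χ₁ χ₂ χ₃ (a l₁ χ₁) (a l₁ χ₂) (a l₁ χ₃) := by
    refine ⟨h1, h2, h3, h12, h13, h23, by simpa [h1] using hc1, by simpa [h2] using hc2,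
      by simpa [h3] using hc3, rfl, rfl, rfl, ?_⟩
    intro i hi hi1 hi2 hi3
    have := hrest i hi1 hi2 hi3
    simpa [hi] using this
  -- some `l` outside the class of `l₁`
  obtain ⟨l, hl⟩ : ∃ l, ¬ R l₁ l := by
    by_contra hno
    push Not at hno
    have : Finset.univ.filter (fun l' => R l₁ l') = Finset.univ := by
      ext x
      simp [hno x]
    have h3 := hRcard l₁
    rw [this, Finset.card_univ] at h3
    omega
  rcases exc3_types a one R ha1 hgram hR hD l with hx | ⟨-, hx | hx | hx⟩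
  · exact (hl hx.1).elim
  · exact hc_comb_aux a one R ha1 hgram hR hRcard hcard hD.rot l ⟨hx.2.1, hx.2.2, hx.1⟩
  · exact hc_comb_aux a one R ha1 hgram hR hRcard hcard hD.swap23 l ⟨hx.1, hx.2.2, hx.2.1⟩
  · exact hc_comb_aux a one R ha1 hgram hR hRcard hcard hD l hx

end Comb

end Cfsg.Agent.Lib.Helper5
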