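import Mathlib
import Cfsg.Agent.Lib.Helper79.Klein5

/-!
# A vanishing class-multiplication sum in the principal `2`-block (helper5)

If the Sylow `2`-subgroups of `G` are abelian, `u` is a `2`-element with `u² ≠ 1` whose centralizer
has a normal `2`-complement, and `z` is an involution, then
`Σ_{χ ∈ B₀} χ(u) χ(z)² / χ(1) = 0`: no product of two conjugates of `z` lies in `u O(C(u))`,
since two involutions generate a dihedral group.
-/

set_option autoImplicit false

namespace Cfsg.Agent.Lib.Helper5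

open Cfsg Cfsg.Agent.Lib.Helper4 Cfsg.Agent.Lib.Helper79
open Subgroup
open scoped ComplexConjugate

/-- With abelian Sylow `2`-subgroups, a product of two involutions is never of the form
`(u x)⁻¹` with `u` a `2`-element, `u² ≠ 1`, and `x` of odd order commuting with `u`. -/
theorem no_invol_pair {G : Type*} [Group G] [Finite G] (P : Sylow 2 G)
    (hcomm : ∀ a ∈ (P : Subgroup G), ∀ b ∈ (P : Subgroup G), a * b = b * a)
    (u : G) (hu : u ∈ (P : Subgroup G)) (hu2 : u * u ≠ 1) (x : G) (hxu : x * u = u * x)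
    (hx : ¬ 2 ∣ orderOf x) (g h : G) (hg : orderOf g = 2) (hh : orderOf h = 2)
    (hprod : g * h * (u * x) = 1) : False := by
  haveI : Fact (Nat.Prime 2) := ⟨Nat.prime_two⟩
  have hgg : g * g = 1 := by rw [← pow_two, ← hg]; exact pow_orderOf_eq_one g
  have hhh : h * h = 1 := by rw [← pow_two, ← hh]; exact pow_orderOf_eq_one h
  have hginv : g⁻¹ = g := inv_eq_of_mul_eq_one_left hgg
  have hhinv : h⁻¹ = h := inv_eq_of_mul_eq_one_left hhh
  obtain ⟨y, hy⟩ : ∃ y : G, y = u * x := ⟨_, rfl⟩
  rw [← hy] at hprod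
  have hgh : g * h = y⁻¹ := eq_inv_of_mul_eq_one_left hprod
  have hy' : y = h * g := by
    have h1 : y = (g * h)⁻¹ := by rw [hgh, inv_inv]
    rw [h1, mul_inv_rev, hhinv, hginv]
  have hconj : g * y * g⁻¹ = y⁻¹ := by
    rw [← hgh, hy', hginv, mul_assoc, mul_assoc, hgg, mul_one]
  obtain ⟨r, hr⟩ : ∃ r : ℕ, r = orderOf x := ⟨_, rfl⟩
  have hyr : y ^ r = u ^ r := by
    have hc : Commute u x := hxu.symm
    rw [hy, hc.mul_pow, hr, pow_orderOf_eq_one, mul_one]
  obtain ⟨w, hwdef⟩ : ∃ w : G, w = u ^ r := ⟨_, rfl⟩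
  have hw : g * w * g⁻¹ = w⁻¹ := by
    have h1 : (g * y * g⁻¹) ^ r = (y⁻¹) ^ r := by rw [hconj]
    rw [conj_pow, inv_pow, hyr, ← hwdef] at h1
    exact h1
  have hwP : w ∈ (P : Subgroup G) := by rw [hwdef]; exact pow_mem hu r
  have hww : w * w ≠ 1 := by
    intro h1
    have h2 : (u * u) ^ r = 1 := by
      rw [← pow_two, ← pow_mul, mul_comm, pow_mul, ← hwdef, pow_two]
      exact h1
    have h3 : orderOf (u * u) ∣ r := orderOf_dvd_of_pow_eq_one h2
    obtain ⟨k, hk⟩ := P.isPGroup' ⟨u * u, mul_mem hu hu⟩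
    have hk' : (u * u) ^ 2 ^ k = 1 := by
      have := congrArg Subtype.val hk
      simpa using this
    have h4 : orderOf (u * u) ∣ 2 ^ k := orderOf_dvd_of_pow_eq_one hk'
    obtain ⟨j, -, hj⟩ := (Nat.dvd_prime_pow Nat.prime_two).mp h4
    rw [hj] at h3
    rcases Nat.eq_zero_or_pos j with h0 | h0
    · rw [h0, pow_zero] at hj
      exact hu2 (orderOf_eq_one_iff.mp hj)
    · apply hx
      rw [← hr]
      exact dvd_trans (dvd_pow_self 2 h0.ne') h3
  have hne : w⁻¹ ≠ w := by
    intro h1
    apply hww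
    have h2 : w * w = w⁻¹ * w := by rw [h1]
    rw [h2, inv_mul_cancel]
  -- `g` and `w` lie in a common `2`-subgroup
  have hPg : IsPGroup 2 (zpowers g) :=
    IsPGroup.of_card (n := 1) (by rw [Nat.card_zpowers, hg, pow_one])
  have hPw : IsPGroup 2 (zpowers w) := P.isPGroup'.to_le (zpowers_le.mpr hwP)
  have hfw : ∀ v ∈ zpowers w, g * v * g⁻¹ ∈ zpowers w := by
    intro v hv
    obtain ⟨i, rfl⟩ := mem_zpowers_iff.mp hv
    rw [← conj_zpow, hw, inv_zpow]
    exact inv_mem (zpow_mem (mem_zpowers w) i)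
  have hnorm : zpowers g ≤ normalizer ((zpowers w : Subgroup G) : Set G) := by
    rw [zpowers_le, mem_normalizer_iff]
    intro v
    constructor
    · exact hfw v
    · intro hv
      have h1 := hfw _ hv
      have h2 : g * (g * v * g⁻¹) * g⁻¹ = v := by
        rw [hginv]
        calc g * (g * v * g) * g = (g * g) * v * (g * g) := by group
          _ = v := by rw [hgg, one_mul, mul_one]
      rw [h2] at h1
      exact h1
  have hD : IsPGroup 2 (zpowers g ⊔ zpowers w : Subgroup G) :=
    IsPGroup.to_sup_of_normal_right' hPg hPw hnorm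
  obtain ⟨Q, hQ⟩ := hD.exists_le_sylow
  obtain ⟨c, rfl⟩ := MulAction.exists_smul_eq G P Q
  have hgQ : g ∈ ((c • P : Sylow 2 G) : Subgroup G) :=
    hQ (mem_sup_left (mem_zpowers g))
  have hwQ : w ∈ ((c • P : Sylow 2 G) : Subgroup G) :=
    hQ (mem_sup_right (mem_zpowers w))
  rw [Sylow.coe_subgroup_smul, mem_smul_pointwise_iff_exists] at hgQ hwQ
  obtain ⟨g', hg'P, hg'⟩ := hgQ
  obtain ⟨w', hw'P, hw'⟩ := hwQ
  rw [MulAut.smul_def, MulAut.conj_apply] at hg' hw'
  apply hne
  rw [← hw, ← hg', ← hw']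
  have h1 := hcomm g' hg'P w' hw'P
  calc c * g' * c⁻¹ * (c * w' * c⁻¹) * (c * g' * c⁻¹)⁻¹
      = c * (g' * w') * g'⁻¹ * c⁻¹ := by group
    _ = c * (w' * g') * g'⁻¹ * c⁻¹ := by rw [h1]
    _ = c * w' * c⁻¹ := by group

section

variable {G : Type*} [Group G] [Finite G] {M : Ideal AlgInt}

set_option maxHeartbeats 800000 in
/-- The vanishing of the principal-block class multiplication sum. -/
theorem hc_count (hM : IsPModular 2 M) (P : Sylow 2 G)
    (hcomm : ∀ a ∈ (P : Subgroup G), ∀ b ∈ (P : Subgroup G), a * b = b * a)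
    (u : G) (hu : u ∈ (P : Subgroup G)) (hu2 : u * u ≠ 1) (j : ℕ)
    (hidx : (pPrimeCore 2 (centralizer ({u} : Set G))).index = 2 ^ j)
    (z : G) (hz : orderOf z = 2) :
    ∑ᶠ χ ∈ principalBlock M G, (χ : G → ℂ) u * ((χ : G → ℂ) z) ^ 2 / (χ : G → ℂ) 1 = 0 := by
  classical
  haveI : Fact (Nat.Prime 2) := ⟨Nat.prime_two⟩
  letI := Fintype.ofFinite G
  haveI := irr_finite (G := G)
  letI := Fintype.ofFinite (IrrCharacter G)
  letI : Fintype (centralizer ({u} : Set G)) := Fintype.ofFinite _
  have hGne : (Nat.card G : ℂ) ≠ 0 := card_ne_zero_complex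
  have hidxne : ((centralizer ({z} : Set G)).index : ℂ) ≠ 0 := by
    have h := (centralizer ({z} : Set G)).card_mul_index
    have h2 : (centralizer ({z} : Set G)).index ≠ 0 := by
      intro h0
      rw [h0, mul_zero] at h
      exact (Nat.card_pos (α := G)).ne' h.symm
    exact_mod_cast h2
  -- the class function
  set θ : centralizer ({u} : Set G) → ℂ := fun c => ∑ χ : IrrCharacter G,
    (χ : G → ℂ) (u * (c : G)) *
      ((((centralizer ({z} : Set G)).index : ℂ) * (χ : G → ℂ) z)
        * (((centralizer ({z} : Set G)).index : ℂ) * (χ : G → ℂ) z) / (χ : G → ℂ) 1) with hθ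
  have hθcnt : ∀ c : centralizer ({u} : Set G), θ c = (Nat.card G : ℂ) *
      ∑ g : G, ∑ h : G, (if IsConj z g then (1 : ℂ) else 0)
        * (if IsConj z h then (1 : ℂ) else 0) * (if g * h * (u * (c : G)) = 1 then (1 : ℂ) else 0) := by
    intro c
    have h0 := Cfsg.Agent.Lib.Helper82.class_constant z z (u * (c : G))
    have h0' : (Nat.card G : ℂ) *
      ∑ g : G, ∑ h : G, (if IsConj z g then (1 : ℂ) else 0)
        * (if IsConj z h then (1 : ℂ) else 0) * (if g * h * (u * (c : G)) = 1 then (1 : ℂ) else 0) =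
      ∑ χ : IrrCharacter G,
          (((Subgroup.centralizer ({z} : Set G)).index : ℂ) * (χ : G → ℂ) z)
          * (((Subgroup.centralizer ({z} : Set G)).index : ℂ) * (χ : G → ℂ) z)
          * (χ : G → ℂ) (u * (c : G)) / (χ : G → ℂ) 1 := by
      convert h0 using 2
    rw [h0']
    simp only [hθ]
    refine Finset.sum_congr rfl fun χ _ => ?_
    ring
  -- the count vanishes on the core
  have hθ0 : ∀ c : centralizer ({u} : Set G),
      c ∈ pPrimeCore 2 (centralizer ({u} : Set G)) → θ c = 0 := by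
    intro c hc
    rw [hθcnt c]
    have hcodd : ¬ 2 ∣ orderOf (c : G) := by
      intro h2
      have h3 : orderOf c ∣ Nat.card (pPrimeCore 2 (centralizer ({u} : Set G))) := by
        have h4 := orderOf_dvd_natCard (⟨c, hc⟩ : pPrimeCore 2 (centralizer ({u} : Set G)))
        rwa [Subgroup.orderOf_mk] at h4
      rw [Subgroup.orderOf_coe] at h2
      have h5 := Cfsg.Agent.Lib.Helper81.pPrimeCore_coprime (G := centralizer ({u} : Set G)) 2
      exact (Nat.Prime.coprime_iff_not_dvd Nat.prime_two).mp h5.symm (dvd_trans h2 h3)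
    have hcu : (c : G) * u = u * (c : G) := mem_centralizer_singleton_iff.mp c.2
    have hz0 : ∑ g : G, ∑ h : G, (if IsConj z g then (1 : ℂ) else 0)
        * (if IsConj z h then (1 : ℂ) else 0) *
          (if g * h * (u * (c : G)) = 1 then (1 : ℂ) else 0) = 0 := by
      apply Finset.sum_eq_zero
      intro g _
      apply Finset.sum_eq_zero
      intro h _
      by_cases hg : IsConj z g
      · by_cases hh : IsConj z h
        · by_cases hp : g * h * (u * (c : G)) = 1
          · exfalso
            have hg2 : orderOf g = 2 := by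
              obtain ⟨t, rfl⟩ := isConj_iff.mp hg
              exact Cfsg.Agent.Lib.Helper79.orderOf_conj_two t hz
            have hh2 : orderOf h = 2 := by
              obtain ⟨t, rfl⟩ := isConj_iff.mp hh
              exact Cfsg.Agent.Lib.Helper79.orderOf_conj_two t hz
            exact no_invol_pair P hcomm u hu hu2 (c : G) hcu hcodd g h hg2 hh2 hp
          · rw [if_neg hp, mul_zero]
        · rw [if_neg hh, mul_zero, zero_mul]
      · rw [if_neg hg, zero_mul, zero_mul]
    rw [hz0, mul_zero]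
  -- block part, character side
  have h1reg : ¬ 2 ∣ orderOf (1 : centralizer ({u} : Set G)) := by
    rw [orderOf_one]; norm_num
  have hup : ∃ k : ℕ, orderOf u = 2 ^ k := by
    obtain ⟨k, hk⟩ := P.isPGroup' ⟨u, hu⟩
    have hk' : u ^ 2 ^ k = 1 := by
      have := congrArg Subtype.val hk
      simpa using this
    obtain ⟨i, -, hi⟩ := (Nat.dvd_prime_pow Nat.prime_two).mp (orderOf_dvd_of_pow_eq_one hk')
    exact ⟨i, hi⟩
  have h1 : blockPart (principalBlock M (centralizer ({u} : Set G))) θ 1 =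
      ∑ χ : IrrCharacter G, blockPart (principalBlock M (centralizer ({u} : Set G)))
        (fun c : centralizer ({u} : Set G) => (χ : G → ℂ) (u * (c : G))) 1 *
      ((((centralizer ({z} : Set G)).index : ℂ) * (χ : G → ℂ) z)
        * (((centralizer ({z} : Set G)).index : ℂ) * (χ : G → ℂ) z) / (χ : G → ℂ) 1) :=
    blockPart_sum Finset.univ (principalBlock M (centralizer ({u} : Set G)))
      (fun χ : IrrCharacter G => (((centralizer ({z} : Set G)).index : ℂ) * (χ : G → ℂ) z)
        * (((centralizer ({z} : Set G)).index : ℂ) * (χ : G → ℂ) z) / (χ : G → ℂ) 1)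
      (fun χ c => (χ : G → ℂ) (u * (c : G))) 1
  have h2 : ∑ χ : IrrCharacter G, blockPart (principalBlock M (centralizer ({u} : Set G)))
        (fun c : centralizer ({u} : Set G) => (χ : G → ℂ) (u * (c : G))) 1 *
      ((((centralizer ({z} : Set G)).index : ℂ) * (χ : G → ℂ) z)
        * (((centralizer ({z} : Set G)).index : ℂ) * (χ : G → ℂ) z) / (χ : G → ℂ) 1) =
      ((centralizer ({z} : Set G)).index : ℂ) ^ 2 *
        ∑ χ : IrrCharacter G, (if χ ∈ principalBlock M G then
          (χ : G → ℂ) u * ((χ : G → ℂ) z) ^ 2 / (χ : G → ℂ) 1 else 0) := by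
    rw [Finset.mul_sum]
    refine Finset.sum_congr rfl fun χ _ => ?_
    by_cases hχ : χ ∈ principalBlock M G
    · rw [if_pos hχ, ← twist_eq_blockPart_principal hM u hup χ hχ 1 h1reg]
      have : ((1 : centralizer ({u} : Set G)) : G) = 1 := rfl
      rw [this, mul_one]
      ring
    · rw [if_neg hχ, blockPart_principal_eq_zero hM u hup χ hχ 1 h1reg, zero_mul, mul_zero]
  -- block part, group side
  have h3 := blockPart_principal_one_of_index hM j hidx θ
  have h4 : ∑ᶠ x ∈ ((pPrimeCore 2 (centralizer ({u} : Set G)) :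
      Subgroup (centralizer ({u} : Set G))) : Set (centralizer ({u} : Set G))), θ x = 0 := by
    apply finsum_mem_eq_zero_of_forall_eq_zero
    intro x hx
    exact hθ0 x hx
  rw [h1, h2, h4, mul_zero, mul_zero] at h3
  rw [finsum_mem_eq_sum_filter_univ, Finset.sum_filter]
  rcases mul_eq_zero.mp h3 with h5 | h5
  · exact absurd (pow_eq_zero_iff (two_ne_zero) |>.mp h5) hidxne
  · exact h5

end

end Cfsg.Agent.Lib.Helper5
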