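import Mathlib
import Cfsg.Agent.Lib.Helper4.CharClosure
import Cfsg.Agent.Lib.Helper4.CharExp2
import Cfsg.Agent.Lib.Helper35.Virt
import Cfsg.Agent.Lib.Helper35.Abel

/-!
# The key identity for a set of characters with block-type orthogonality (helper5)

Let `B` be a set of irreducible characters of `G` and `P` a subgroup whose nontrivial elements
fuse along the orbits of a map `σ` of order three, such that the columns of `B` at elements of
`P` satisfy the block orthogonality relations.  Then the inner products of the restrictions to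
`P` collapse as for exceptional characters (`hc_key`).
-/

set_option autoImplicit false

namespace Cfsg.Agent.Lib.Helper5

open Cfsg Cfsg.Agent.Lib.Helper4
open scoped ComplexConjugate

section
variable {G : Type*} [Group G] [Fintype G]

open scoped Classical in
theorem hc_key [Fintype (IrrCharacter G)] (B : Set (IrrCharacter G))
    (P : Subgroup G) [Fintype P] (σ : P → P)
    (hS : ∀ y : P, y ≠ 1 → ∑ χ : IrrCharacter G,
      (if χ ∈ B then (χ : G → ℂ) y * conj ((χ : G → ℂ) y) else 0) = (Nat.card P : ℂ))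
    (hO : ∀ y y' : P, ¬ IsConj (y : G) (y' : G) → ∑ χ : IrrCharacter G,
      (if χ ∈ B then (χ : G → ℂ) y * conj ((χ : G → ℂ) y') else 0) = 0)
    (hF : ∀ y : P, y ≠ 1 → ∀ y' : P,
      (IsConj (y : G) (y' : G) ↔ y' = y ∨ y' = σ y ∨ y' = σ (σ y)))
    (hσ1 : ∀ y : P, y ≠ 1 → σ y ≠ y) (hσ2 : ∀ y : P, y ≠ 1 → σ (σ y) ≠ y)
    (hσ3 : ∀ y : P, y ≠ 1 → σ (σ y) ≠ σ y)
    (f f' : P → ℂ) (hf1 : f 1 = 0) :
    ∑ χ : IrrCharacter G, (if χ ∈ B then classInner (fun h : P => (χ : G → ℂ) h) f *
        conj (classInner (fun h : P => (χ : G → ℂ) h) f') else 0) =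
      classInner (fun y => f' y + f' (σ y) + f' (σ (σ y))) f := by
  have hcP : (Nat.card P : ℂ) ≠ 0 := Nat.cast_ne_zero.mpr Nat.card_pos.ne'
  simp only [classInner]
  have h1 : ∀ χ : IrrCharacter G,
      (if χ ∈ B then ((Nat.card P : ℂ)⁻¹ * ∑ y : P, (χ : G → ℂ) y * conj (f y)) *
        conj ((Nat.card P : ℂ)⁻¹ * ∑ y : P, (χ : G → ℂ) y * conj (f' y)) else 0) =
      (Nat.card P : ℂ)⁻¹ * (Nat.card P : ℂ)⁻¹ *
        ∑ y : P, ∑ y' : P, conj (f y) * f' y' *
          (if χ ∈ B then (χ : G → ℂ) y * conj ((χ : G → ℂ) y') else 0) := by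
    intro χ
    by_cases hχ : χ ∈ B
    · simp only [hχ, if_true]
      rw [map_mul, map_inv₀, Complex.conj_natCast, map_sum, mul_mul_mul_comm, Finset.sum_mul_sum]
      congr 1
      refine Finset.sum_congr rfl fun y _ => Finset.sum_congr rfl fun y' _ => ?_
      rw [map_mul, Complex.conj_conj]
      ring
    · simp only [hχ, if_false, mul_zero, Finset.sum_const_zero]
  rw [Finset.sum_congr rfl (fun χ _ => h1 χ), ← Finset.mul_sum, Finset.sum_comm]
  have h2 : ∀ y : P, ∑ χ : IrrCharacter G, ∑ y' : P, conj (f y) * f' y' *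
      (if χ ∈ B then (χ : G → ℂ) y * conj ((χ : G → ℂ) y') else 0) =
      (Nat.card P : ℂ) * ((f' y + f' (σ y) + f' (σ (σ y))) * conj (f y)) := by
    intro y
    rw [Finset.sum_comm]
    by_cases hy : y = 1
    · subst hy
      simp [hf1]
    · have h3 : ∀ y' : P, ∑ χ : IrrCharacter G, conj (f y) * f' y' *
          (if χ ∈ B then (χ : G → ℂ) y * conj ((χ : G → ℂ) y') else 0) =
          if (y' = y ∨ y' = σ y ∨ y' = σ (σ y)) then conj (f y) * f' y' * (Nat.card P : ℂ)
          else 0 := by
        intro y'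
        rw [← Finset.mul_sum]
        by_cases hc : y' = y ∨ y' = σ y ∨ y' = σ (σ y)
        · rw [if_pos hc]
          have hconj : IsConj (y : G) (y' : G) := (hF y hy y').mpr hc
          congr 1
          rw [← hS y hy]
          refine Finset.sum_congr rfl fun χ _ => ?_
          rw [← irr_eq_of_isConj χ hconj]
        · rw [if_neg hc, hO y y' (fun h => hc ((hF y hy y').mp h)), mul_zero]
      rw [Finset.sum_congr rfl (fun y' _ => h3 y'), ← Finset.sum_filter]
      have hfil : Finset.univ.filter (fun y' : P => y' = y ∨ y' = σ y ∨ y' = σ (σ y)) =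
          {y, σ y, σ (σ y)} := by
        ext y'
        simp
      have hnm : y ∉ ({σ y, σ (σ y)} : Finset P) := by
        simp only [Finset.mem_insert, Finset.mem_singleton, not_or]
        exact ⟨fun h => hσ1 y hy h.symm, fun h => hσ2 y hy h.symm⟩
      rw [hfil, Finset.sum_insert hnm, Finset.sum_pair (fun h => hσ3 y hy h.symm)]
      ring
  rw [Finset.sum_congr rfl (fun y _ => h2 y), ← Finset.mul_sum]
  field_simp

end

end Cfsg.Agent.Lib.Helper5
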