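import Mathlib

/-!
# Evaluation of the class-multiplication sum from the structure of the principal block (helper5)

A purely algebraic lemma: given the shape `a l = e_one + s₁ e_χ₁ + s₂ e_χ₂ + t_l e_{X l}` of the
multiplicity vectors (exceptional characters for a fusion pattern of order three), the sum
`Σ_i - T_u(i) T_z(i)² / d(i)` is `1 + s₁/d₁ + s₂/d₂ - 9/(1 + s₁ d₁ + s₂ d₂)`.
-/

set_option autoImplicit false

namespace Cfsg.Agent.Lib.Helper5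

section Final

variable {I Λ : Type*} [Fintype I] [DecidableEq I] [Fintype Λ] [DecidableEq Λ]

theorem sum_split_three (one χ₁ χ₂ : I) (h1 : χ₁ ≠ one) (h2 : χ₂ ≠ one) (h12 : χ₁ ≠ χ₂)
    (F : I → ℂ) :
    ∑ i, F i = F one + F χ₁ + F χ₂ +
      ∑ i ∈ ((Finset.univ.erase one).erase χ₁).erase χ₂, F i := by
  rw [← Finset.add_sum_erase _ _ (Finset.mem_univ one),
    ← Finset.add_sum_erase _ _ (show χ₁ ∈ Finset.univ.erase one from by simp [h1]),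
    ← Finset.add_sum_erase _ _ (show χ₂ ∈ (Finset.univ.erase one).erase χ₁ from by
      simp [h2, h12.symm])]
  ring

theorem mem_rest_three_iff (one χ₁ χ₂ i : I) :
    i ∈ ((Finset.univ.erase one).erase χ₁).erase χ₂ ↔ i ≠ one ∧ i ≠ χ₁ ∧ i ≠ χ₂ := by
  simp only [Finset.mem_erase, Finset.mem_univ, and_true]
  tauto

/-- Sum over a class `{l₀, sg l₀, sg (sg l₀)}`. -/
theorem sum_class (sg : Λ → Λ) (hsg1 : ∀ l, sg l ≠ l) (hsg2 : ∀ l, sg (sg l) ≠ l)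
    (p : Λ → Prop) [DecidablePred p] (l₀ : Λ)
    (hp : ∀ l, p l ↔ (l = l₀ ∨ l = sg l₀ ∨ l = sg (sg l₀))) (g : Λ → ℂ) :
    ∑ l, (if p l then g l else 0) = g l₀ + g (sg l₀) + g (sg (sg l₀)) := by
  rw [← Finset.sum_filter]
  have hfil : Finset.univ.filter p = {l₀, sg l₀, sg (sg l₀)} := by
    ext x
    simp [hp]
  have hnm : l₀ ∉ ({sg l₀, sg (sg l₀)} : Finset Λ) := by
    simp only [Finset.mem_insert, Finset.mem_singleton, not_or]
    exact ⟨fun h => hsg1 l₀ h.symm, fun h => hsg2 l₀ h.symm⟩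
  rw [hfil, Finset.sum_insert hnm, Finset.sum_pair (fun h => hsg1 (sg l₀) h.symm)]
  ring

set_option maxHeartbeats 1600000 in
theorem hc_final (a : Λ → I → ℤ) (one χ₁ χ₂ : I) (s₁ s₂ : ℤ) (X : Λ → I) (t : Λ → ℤ)
    (sg : Λ → Λ) (d : I → ℤ) (vu vz : Λ → ℂ)
    (h1 : χ₁ ≠ one) (h2 : χ₂ ≠ one) (h12 : χ₁ ≠ χ₂)
    (hs1 : s₁ = 1 ∨ s₁ = -1) (hs2 : s₂ = 1 ∨ s₂ = -1)
    (hX : ∀ l, X l ≠ one ∧ X l ≠ χ₁ ∧ X l ≠ χ₂ ∧ (t l = 1 ∨ t l = -1))
    (hform : ∀ l i, a l i = (if i = one then 1 else 0) + (if i = χ₁ then s₁ else 0) +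
        (if i = χ₂ then s₂ else 0) + (if i = X l then t l else 0))
    (hXR : ∀ l l', X l = X l' ↔ (l' = l ∨ l' = sg l ∨ l' = sg (sg l)))
    (hsg1 : ∀ l, sg l ≠ l) (hsg2 : ∀ l, sg (sg l) ≠ l) (hsg3 : ∀ l, sg (sg (sg l)) = l)
    (hd1 : d one = 1) (hdpos : ∀ i, 0 < d i) (hdeg : ∀ l, ∑ i, a l i * d i = 0)
    (hEu : ∑ l, vu l = -1) (hEz : ∑ l, vz l = -1)
    (hW : ∑ l, (vu l + vu (sg l) + vu (sg (sg l))) *
      (vz l + vz (sg l) + vz (sg (sg l))) ^ 2 = -27)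
    (hΛ : Nonempty Λ) :
    (1 + s₁ * d χ₁ + s₂ * d χ₂ ≠ 0) ∧
    ∑ i, -((∑ l, (a l i : ℂ) * vu l) * (∑ l, (a l i : ℂ) * vz l) ^ 2) / (d i : ℂ) =
      1 + (s₁ : ℂ) / (d χ₁ : ℂ) + (s₂ : ℂ) / (d χ₂ : ℂ) -
        9 / (1 + (s₁ : ℂ) * (d χ₁ : ℂ) + (s₂ : ℂ) * (d χ₂ : ℂ)) := by
  have hs1' : s₁ * s₁ = 1 := by rcases hs1 with h | h <;> rw [h] <;> norm_num
  have hs2' : s₂ * s₂ = 1 := by rcases hs2 with h | h <;> rw [h] <;> norm_num
  have hs1c : (s₁ : ℂ) * (s₁ : ℂ) = 1 := by exact_mod_cast hs1'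
  have hs2c : (s₂ : ℂ) * (s₂ : ℂ) = 1 := by exact_mod_cast hs2'
  obtain ⟨D, hDdef⟩ : ∃ D : ℤ, D = 1 + s₁ * d χ₁ + s₂ * d χ₂ := ⟨_, rfl⟩
  -- the degree equation
  have hD : ∀ l, t l * d (X l) = -D := by
    intro l
    have h := hdeg l
    have e : ∀ i, a l i * d i = (if i = one then d i else 0) + (if i = χ₁ then s₁ * d i else 0) +
        (if i = χ₂ then s₂ * d i else 0) + (if i = X l then t l * d i else 0) := by
      intro i
      rw [hform l i]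
      split_ifs <;> ring
    rw [Finset.sum_congr rfl (fun i _ => e i), Finset.sum_add_distrib, Finset.sum_add_distrib,
      Finset.sum_add_distrib, Finset.sum_ite_eq', Finset.sum_ite_eq', Finset.sum_ite_eq',
      Finset.sum_ite_eq'] at h
    simp only [Finset.mem_univ, if_true] at h
    rw [hd1] at h
    rw [hDdef]
    linarith
  have htt : ∀ l, t l * t l = 1 := by
    intro l
    rcases (hX l).2.2.2 with h | h <;> rw [h] <;> norm_num
  have httc : ∀ l, (t l : ℂ) * (t l : ℂ) = 1 := fun l => by exact_mod_cast htt l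
  have hDne : D ≠ 0 := by
    obtain ⟨l⟩ := hΛ
    intro h0
    have h := hD l
    rw [h0, neg_zero] at h
    rcases mul_eq_zero.mp h with h' | h'
    · have := htt l
      rw [h'] at this
      norm_num at this
    · exact (hdpos (X l)).ne' h'
  have hDc : (D : ℂ) ≠ 0 := by exact_mod_cast hDne
  have hDc' : (1 + (s₁ : ℂ) * (d χ₁ : ℂ) + (s₂ : ℂ) * (d χ₂ : ℂ)) = (D : ℂ) := by
    rw [hDdef]; push_cast; ring
  refine ⟨by rw [← hDdef]; exact hDne, ?_⟩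
  rw [hDc']
  have hdc : ∀ i, (d i : ℂ) ≠ 0 := fun i => by exact_mod_cast (hdpos i).ne'
  -- `t` is constant on classes
  have htc : ∀ l l', X l = X l' → t l' = t l := by
    intro l l' h
    have e1 := hD l
    have e2 := hD l'
    rw [← h] at e2
    have : (t l' - t l) * d (X l) = 0 := by linarith
    rcases mul_eq_zero.mp this with h' | h'
    · linarith
    · exact absurd h' (hdpos (X l)).ne'
  -- the values of `T`
  have hT1 : ∀ v : Λ → ℂ, ∑ l, (a l one : ℂ) * v l = ∑ l, v l := by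
    intro v
    refine Finset.sum_congr rfl fun l _ => ?_
    rw [hform l one]
    simp [h1.symm, h2.symm, (hX l).1.symm]
  have hT2 : ∀ v : Λ → ℂ, ∑ l, (a l χ₁ : ℂ) * v l = (s₁ : ℂ) * ∑ l, v l := by
    intro v
    rw [Finset.mul_sum]
    refine Finset.sum_congr rfl fun l _ => ?_
    rw [hform l χ₁]
    simp [h1, h12, (hX l).2.1.symm]
  have hT3 : ∀ v : Λ → ℂ, ∑ l, (a l χ₂ : ℂ) * v l = (s₂ : ℂ) * ∑ l, v l := by
    intro v
    rw [Finset.mul_sum]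
    refine Finset.sum_congr rfl fun l _ => ?_
    rw [hform l χ₂]
    simp [h2, h12.symm, (hX l).2.2.1.symm]
  have hTr : ∀ i, i ≠ one → i ≠ χ₁ → i ≠ χ₂ → ∀ v : Λ → ℂ,
      ∑ l, (a l i : ℂ) * v l = ∑ l, (if X l = i then (t l : ℂ) * v l else 0) := by
    intro i hi1 hi2 hi3 v
    refine Finset.sum_congr rfl fun l _ => ?_
    rw [hform l i]
    by_cases hXi : X l = i
    · rw [if_pos hXi, if_neg hi1, if_neg hi2, if_neg hi3, if_pos hXi.symm]
      push_cast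
      ring
    · rw [if_neg hXi, if_neg hi1, if_neg hi2, if_neg hi3, if_neg (fun h : i = X l => hXi h.symm)]
      push_cast
      ring
  -- the weights
  set W : Λ → ℂ := fun l => (vu l + vu (sg l) + vu (sg (sg l))) *
      (vz l + vz (sg l) + vz (sg (sg l))) ^ 2 with hWdef
  have hWsg : ∀ l, W (sg l) = W l := by
    intro l
    simp only [hWdef, hsg3]
    ring
  -- the exceptional terms
  have hrest : ∀ i, i ≠ one → i ≠ χ₁ → i ≠ χ₂ →
      -((∑ l, (a l i : ℂ) * vu l) * (∑ l, (a l i : ℂ) * vz l) ^ 2) / (d i : ℂ) =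
        (1 / (3 * (D : ℂ))) * ∑ l, (if X l = i then W l else 0) := by
    intro i hi1 hi2 hi3
    rw [hTr i hi1 hi2 hi3 vu, hTr i hi1 hi2 hi3 vz]
    by_cases hex : ∃ l₀, X l₀ = i
    · obtain ⟨l₀, hl₀⟩ := hex
      have hp : ∀ l, X l = i ↔ (l = l₀ ∨ l = sg l₀ ∨ l = sg (sg l₀)) := by
        intro l
        rw [← hl₀]
        constructor
        · intro h
          exact (hXR l₀ l).mp h.symm
        · intro h
          exact ((hXR l₀ l).mpr h).symm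
      rw [sum_class sg hsg1 hsg2 (fun l => X l = i) l₀ hp,
        sum_class sg hsg1 hsg2 (fun l => X l = i) l₀ hp,
        sum_class sg hsg1 hsg2 (fun l => X l = i) l₀ hp, hWsg, hWsg, hWsg]
      have e1 : t (sg l₀) = t l₀ := htc l₀ (sg l₀) ((hXR l₀ (sg l₀)).mpr (Or.inr (Or.inl rfl)))
      have e2 : t (sg (sg l₀)) = t l₀ :=
        htc l₀ (sg (sg l₀)) ((hXR l₀ (sg (sg l₀))).mpr (Or.inr (Or.inr rfl)))
      rw [e1, e2]
      have hdi : (d i : ℂ) = -(D : ℂ) * (t l₀ : ℂ) := by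
        have h := hD l₀
        rw [hl₀] at h
        have h' : (t l₀ : ℂ) * (d i : ℂ) = -(D : ℂ) := by exact_mod_cast h
        calc (d i : ℂ) = ((t l₀ : ℂ) * (t l₀ : ℂ)) * (d i : ℂ) := by rw [httc, one_mul]
          _ = (t l₀ : ℂ) * ((t l₀ : ℂ) * (d i : ℂ)) := by ring
          _ = -(D : ℂ) * (t l₀ : ℂ) := by rw [h']; ring
      have ht0 : (t l₀ : ℂ) ≠ 0 := by
        intro h0
        have := httc l₀
        rw [h0] at this
        norm_num at this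
      have ht3 : (t l₀ : ℂ) ^ 3 = (t l₀ : ℂ) := by
        calc (t l₀ : ℂ) ^ 3 = ((t l₀ : ℂ) * (t l₀ : ℂ)) * (t l₀ : ℂ) := by ring
          _ = (t l₀ : ℂ) := by rw [httc, one_mul]
      have hnum : -(((t l₀ : ℂ) * vu l₀ + (t l₀ : ℂ) * vu (sg l₀) +
          (t l₀ : ℂ) * vu (sg (sg l₀))) *
          ((t l₀ : ℂ) * vz l₀ + (t l₀ : ℂ) * vz (sg l₀) + (t l₀ : ℂ) * vz (sg (sg l₀))) ^ 2) =
          -((t l₀ : ℂ) * W l₀) := by
        simp only [hWdef]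
        linear_combination (-(vu l₀ + vu (sg l₀) + vu (sg (sg l₀))) *
          (vz l₀ + vz (sg l₀) + vz (sg (sg l₀))) ^ 2) * ht3
      rw [hdi, hnum]
      field_simp
      ring
    · push Not at hex
      have hz : ∀ g : Λ → ℂ, ∑ l, (if X l = i then g l else 0) = 0 := by
        intro g
        apply Finset.sum_eq_zero
        intro l _
        rw [if_neg (hex l)]
      rw [hz, hz, hz]
      simp
  rw [sum_split_three one χ₁ χ₂ h1 h2 h12]
  have hsumrest : ∑ i ∈ ((Finset.univ.erase one).erase χ₁).erase χ₂,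
      -((∑ l, (a l i : ℂ) * vu l) * (∑ l, (a l i : ℂ) * vz l) ^ 2) / (d i : ℂ) =
      (1 / (3 * (D : ℂ))) * ∑ l, W l := by
    have e : ∀ i ∈ ((Finset.univ.erase one).erase χ₁).erase χ₂,
        -((∑ l, (a l i : ℂ) * vu l) * (∑ l, (a l i : ℂ) * vz l) ^ 2) / (d i : ℂ) =
        (1 / (3 * (D : ℂ))) * ∑ l, (if X l = i then W l else 0) := by
      intro i hi
      rw [mem_rest_three_iff] at hi
      exact hrest i hi.1 hi.2.1 hi.2.2
    rw [Finset.sum_congr rfl e, ← Finset.mul_sum, Finset.sum_comm]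
    congr 1
    refine Finset.sum_congr rfl fun l _ => ?_
    rw [Finset.sum_ite_eq]
    rw [if_pos]
    rw [mem_rest_three_iff]
    exact ⟨(hX l).1, (hX l).2.1, (hX l).2.2.1⟩
  rw [hsumrest, hW, hT1, hT1, hT2, hT2, hT3, hT3, hEu, hEz, hd1]
  have hd1c : (d χ₁ : ℂ) ≠ 0 := hdc χ₁
  have hd2c : (d χ₂ : ℂ) ≠ 0 := hdc χ₂
  have hs13 : (s₁ : ℂ) ^ 3 = (s₁ : ℂ) := by
    calc (s₁ : ℂ) ^ 3 = ((s₁ : ℂ) * (s₁ : ℂ)) * (s₁ : ℂ) := by ring
      _ = (s₁ : ℂ) := by rw [hs1c, one_mul]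
  have hs23 : (s₂ : ℂ) ^ 3 = (s₂ : ℂ) := by
    calc (s₂ : ℂ) ^ 3 = ((s₂ : ℂ) * (s₂ : ℂ)) * (s₂ : ℂ) := by ring
      _ = (s₂ : ℂ) := by rw [hs2c, one_mul]
  have e1 : -((s₁ : ℂ) * -1 * ((s₁ : ℂ) * -1) ^ 2) / (d χ₁ : ℂ) = (s₁ : ℂ) / (d χ₁ : ℂ) := by
    have : -((s₁ : ℂ) * -1 * ((s₁ : ℂ) * -1) ^ 2) = (s₁ : ℂ) ^ 3 := by ring
    rw [this, hs13]
  have e2 : -((s₂ : ℂ) * -1 * ((s₂ : ℂ) * -1) ^ 2) / (d χ₂ : ℂ) = (s₂ : ℂ) / (d χ₂ : ℂ) := by
    have : -((s₂ : ℂ) * -1 * ((s₂ : ℂ) * -1) ^ 2) = (s₂ : ℂ) ^ 3 := by ring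
    rw [this, hs23]
  rw [e1, e2]
  push_cast
  field_simp
  ring

end Final

end Cfsg.Agent.Lib.Helper5
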