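import Mathlib
import Cfsg.Agent.S0947
import Cfsg.Agent.Lib.Helper22.BlockOrth
import Cfsg.Agent.Lib.Helper23.ExcChar3
import Cfsg.Agent.Lib.Helper79.Prin2
import Cfsg.Agent.Lib.Helper79.Blk2
import Cfsg.Agent.Lib.Helper82.PQ
import Cfsg.Agent.Lib.Helper5.HcArith
import Cfsg.Agent.Lib.Helper5.HcComb
import Cfsg.Agent.Lib.Helper5.HcKey
import Cfsg.Agent.Lib.Helper5.HcCount
import Cfsg.Agent.Lib.Helper5.HcSum
import Cfsg.Agent.Lib.Helper5.HcChar
import Cfsg.Agent.Lib.Helper5.HcSetup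

/-!
# A linear character trivial on an abelian Sylow `2`-subgroup with `|N(P)/C(P)| = 3` (helper5)

Let `P` be an abelian Sylow `2`-subgroup of `G` of order at least `16` containing an element of
order at least four, with `|N(P) : C(P)| = 3` acting freely on `P`.  Then `G` has a nonprincipal
linear character which is trivial on `P` (`hc_linear`).  The proof computes the principal
`2`-block on `P` (three "exceptional" families) and evaluates a vanishing class-multiplication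
sum.
-/

set_option autoImplicit false

namespace Cfsg.Agent.Lib.Helper5

open Cfsg Cfsg.Agent.Lib.Helper4 Cfsg.Agent.Lib.Helper23
open Subgroup
open scoped ComplexConjugate

section Abstract

variable {G : Type*} [Group G] [Fintype G]

open scoped Classical in
/-- The degree relation for a set of characters with block-type orthogonality. -/
theorem hc_key_deg [Fintype (IrrCharacter G)] (B : Set (IrrCharacter G))
    (P : Subgroup G) [Fintype P]
    (hO : ∀ y : P, y ≠ 1 → ∑ χ : IrrCharacter G,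
      (if χ ∈ B then (χ : G → ℂ) y * conj ((χ : G → ℂ) ((1 : P) : G)) else 0) = 0)
    (f : P → ℂ) (hf1 : f 1 = 0) :
    ∑ χ : IrrCharacter G, (if χ ∈ B then classInner (fun h : P => (χ : G → ℂ) h) f *
        conj ((χ : G → ℂ) ((1 : P) : G)) else 0) = 0 := by
  simp only [classInner]
  have h1 : ∀ χ : IrrCharacter G,
      (if χ ∈ B then ((Nat.card P : ℂ)⁻¹ * ∑ y : P, (χ : G → ℂ) y * conj (f y)) *
        conj ((χ : G → ℂ) ((1 : P) : G)) else 0) =
      (Nat.card P : ℂ)⁻¹ * ∑ y : P, conj (f y) *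
        (if χ ∈ B then (χ : G → ℂ) y * conj ((χ : G → ℂ) ((1 : P) : G)) else 0) := by
    intro χ
    by_cases h : χ ∈ B
    · simp only [if_pos h]
      rw [mul_assoc, Finset.sum_mul]
      congr 1
      refine Finset.sum_congr rfl fun y _ => ?_
      ring
    · simp only [if_neg h, mul_zero, Finset.sum_const_zero]
  rw [Finset.sum_congr rfl (fun χ _ => h1 χ), ← Finset.mul_sum, Finset.sum_comm]
  have h2 : ∀ y : P, ∑ χ : IrrCharacter G, conj (f y) *
      (if χ ∈ B then (χ : G → ℂ) y * conj ((χ : G → ℂ) ((1 : P) : G)) else 0) = 0 := by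
    intro y
    rw [← Finset.mul_sum]
    by_cases hy : y = 1
    · subst hy
      rw [hf1, map_zero, zero_mul]
    · rw [hO y hy, mul_zero]
  rw [Finset.sum_congr rfl (fun y _ => h2 y), Finset.sum_const_zero, mul_zero]

open scoped Classical in
set_option maxHeartbeats 3200000 in
/-- The abstract form: from the block orthogonality relations on an abelian `2`-subgroup `Q`
with fusion controlled by an automorphism of order three, and a vanishing class-multiplication
sum, we get a nonprincipal linear character which is trivial on `Q`. -/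
theorem hc_struct [Fintype (IrrCharacter G)] (B : Set (IrrCharacter G))
    (hB1 : (trivIrr : IrrCharacter G) ∈ B)
    (Q : Subgroup G) [Fintype Q] (hcomm : ∀ a b : Q, a * b = b * a) (hcard : 16 ≤ Nat.card Q)
    (hpow : ∀ y : Q, ∃ k : ℕ, y ^ 2 ^ k = 1)
    (σ : Q ≃* Q) (hσ3 : ∀ y : Q, σ (σ (σ y)) = y) (hσ1 : ∀ y : Q, y ≠ 1 → σ y ≠ y)
    (hF : ∀ y : Q, y ≠ 1 → ∀ y' : Q,
      (IsConj (y : G) (y' : G) ↔ y' = y ∨ y' = σ y ∨ y' = σ (σ y)))
    (hS : ∀ y : Q, y ≠ 1 → ∑ χ : IrrCharacter G,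
      (if χ ∈ B then (χ : G → ℂ) y * conj ((χ : G → ℂ) y) else 0) = (Nat.card Q : ℂ))
    (hO : ∀ y y' : Q, ¬ IsConj (y : G) (y' : G) → ∑ χ : IrrCharacter G,
      (if χ ∈ B then (χ : G → ℂ) y * conj ((χ : G → ℂ) y') else 0) = 0)
    (u z : Q) (hu2 : u * u ≠ 1) (hz : z * z = 1) (hz1 : z ≠ 1)
    (hcount : ∑ χ : IrrCharacter G, (if χ ∈ B then
      (χ : G → ℂ) u * ((χ : G → ℂ) z) ^ 2 / (χ : G → ℂ) 1 else 0) = 0) :
    ∃ χ : IrrCharacter G, χ ≠ trivIrr ∧ (χ : G → ℂ) 1 = 1 ∧ ∀ y : Q, (χ : G → ℂ) y = 1 := by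
  haveI : Finite (IrrCharacter Q) := irr_finite
  letI : Fintype (IrrCharacter Q) := Fintype.ofFinite _
  have hu1 : u ≠ 1 := by
    rintro rfl
    exact hu2 (mul_one 1)
  have hl1 : ∀ l : IrrCharacter Q, (l : Q → ℂ) 1 = 1 := fun l =>
    Cfsg.Agent.Lib.Helper35.irr_one_of_comm hcomm l
  have hcardIrr : Fintype.card (IrrCharacter Q) = Nat.card Q := by
    rw [← Nat.card_eq_fintype_card, card_irr,
      Cfsg.Agent.Lib.Helper35.card_conjClasses_of_comm hcomm]
  -- facts on `σ`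
  have hσ2 : ∀ y : Q, y ≠ 1 → σ (σ y) ≠ y := by
    intro y hy h
    apply hσ1 y hy
    have := congrArg σ h
    rw [hσ3] at this
    exact this.symm
  have hσ3' : ∀ y : Q, y ≠ 1 → σ (σ y) ≠ σ y := by
    intro y hy h
    exact hσ1 y hy (σ.injective h)
  -- the twist on characters of `Q`
  have hsg3 : ∀ l : IrrCharacter Q, irrTwist σ (irrTwist σ (irrTwist σ l)) = l := by
    intro l
    apply Subtype.ext
    funext y
    show (l : Q → ℂ) (σ (σ (σ y))) = (l : Q → ℂ) y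
    rw [hσ3]
  have hsg1 : ∀ l : IrrCharacter Q, l ≠ trivIrr → irrTwist σ l ≠ trivIrr := by
    intro l hl h
    apply hl
    have := congrArg (fun x => irrTwist σ (irrTwist σ x)) h
    simp only [hsg3, irrTwist_triv] at this
    exact this
  have hsgfree : ∀ l : IrrCharacter Q, l ≠ trivIrr → irrTwist σ l ≠ l := by
    intro l hl h
    apply hl
    apply Subtype.ext
    funext y
    have h1 : ∀ w : Q, (l : Q → ℂ) (σ w) = (l : Q → ℂ) w :=
      fun w => congrFun (congrArg Subtype.val h) w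
    have h3 : (l : Q → ℂ) y ^ 3 = 1 := by
      have hn := hc_norm_one hcomm σ hσ3 hσ1 y
      have h4 := congrArg (l : Q → ℂ) hn
      rw [Cfsg.Agent.Lib.Helper35.irr_mul_of_comm hcomm,
        Cfsg.Agent.Lib.Helper35.irr_mul_of_comm hcomm, h1, h1, h1, hl1] at h4
      linear_combination h4
    obtain ⟨k, hk⟩ := hpow y
    have h2 : (l : Q → ℂ) y ^ 2 ^ k = 1 := by
      rw [← Cfsg.Agent.Lib.Helper35.irr_pow_of_comm hcomm, hk, hl1]
    have hg : (l : Q → ℂ) y ^ Nat.gcd 3 (2 ^ k) = 1 := pow_gcd_eq_one.mpr ⟨h3, h2⟩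
    have hco : Nat.gcd 3 (2 ^ k) = 1 := Nat.Coprime.pow_right k (by norm_num)
    rw [hco, pow_one] at hg
    rw [hg]
    rfl
  -- multiplicities
  choose M hM using (fun χ : IrrCharacter G =>
    exists_decomp_of_isCharacter (fun h : Q => (χ : G → ℂ) h)
      (isCharacter_restrict Q (χ : G → ℂ) (isCharacter_of_irr χ)))
  have hMin : ∀ (χ : IrrCharacter G) (l : IrrCharacter Q),
      classInner (fun h : Q => (χ : G → ℂ) h) (l : Q → ℂ) = (M χ l : ℂ) := by
    intro χ l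
    rw [hM χ]
    exact classInner_sum_irr _ l
  have hMtriv : ∀ l : IrrCharacter Q,
      (M trivIrr l : ℂ) = if (trivIrr : IrrCharacter Q) = l then 1 else 0 := by
    intro l
    rw [← hMin]
    exact classInner_irr trivIrr l
  have hval0 : ∀ (χ : IrrCharacter G) (y : Q),
      (χ : G → ℂ) y = ∑ l : IrrCharacter Q, (M χ l : ℂ) * (l : Q → ℂ) y := by
    intro χ y
    have h1 := congrFun (hM χ) y
    simp only [Finset.sum_apply, Pi.smul_apply, smul_eq_mul] at h1
    exact h1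
  have hsumM : ∀ χ : IrrCharacter G, ∑ l : IrrCharacter Q, M χ l = irrDeg χ := by
    intro χ
    have h1 := hval0 χ 1
    simp only [hl1, mul_one] at h1
    have h2 : (χ : G → ℂ) ((1 : Q) : G) = (irrDeg χ : ℂ) := irrDeg_spec χ
    rw [h2] at h1
    exact_mod_cast h1.symm
  -- the vectors `a l`
  let a : {l : IrrCharacter Q // l ≠ trivIrr} → IrrCharacter G → ℤ :=
    fun l χ => if χ ∈ B then (M χ trivIrr : ℤ) - (M χ l.1 : ℤ) else 0
  have haB' : ∀ (l : {l : IrrCharacter Q // l ≠ trivIrr}) (χ : IrrCharacter G), χ ∈ B →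
      a l χ = (M χ trivIrr : ℤ) - (M χ l.1 : ℤ) := by
    intro l χ h
    simp only [a, if_pos h]
  have haN : ∀ (l : {l : IrrCharacter Q // l ≠ trivIrr}) (χ : IrrCharacter G), χ ∉ B →
      a l χ = 0 := by
    intro l χ h
    simp only [a, if_neg h]
  have haB : ∀ (l : {l : IrrCharacter Q // l ≠ trivIrr}) (χ : IrrCharacter G), χ ∈ B →
      ((a l χ : ℤ) : ℂ) = classInner (fun h : Q => (χ : G → ℂ) h)
        ((trivIrr : IrrCharacter Q).1 - l.1.1) := by
    intro l χ h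
    rw [Cfsg.Agent.Lib.Helper35.classInner_sub_right, hMin, hMin, haB' l χ h]
    push_cast
    ring
  have hf1 : ∀ l : {l : IrrCharacter Q // l ≠ trivIrr},
      ((trivIrr : IrrCharacter Q).1 - l.1.1) 1 = 0 := by
    intro l
    rw [Pi.sub_apply, trivIrr_apply, hl1, sub_self]
  have ha1 : ∀ l : {l : IrrCharacter Q // l ≠ trivIrr}, a l trivIrr = 1 := by
    intro l
    have h1 : M trivIrr trivIrr = 1 := by
      exact_mod_cast (hMtriv trivIrr).trans (if_pos rfl)
    have h2 : M trivIrr l.1 = 0 := by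
      exact_mod_cast (hMtriv l.1).trans (if_neg (Ne.symm l.2))
    rw [haB' l _ hB1, h1, h2]
    norm_num
  -- the twist on the nontrivial characters
  obtain ⟨sg, hsg⟩ : ∃ sg : {l : IrrCharacter Q // l ≠ trivIrr} →
      {l : IrrCharacter Q // l ≠ trivIrr}, ∀ l, (sg l).1 = irrTwist σ l.1 :=
    ⟨fun l => ⟨irrTwist σ l.1, hsg1 l.1 l.2⟩, fun _ => rfl⟩
  have hsg'3 : ∀ l, sg (sg (sg l)) = l := by
    intro l
    apply Subtype.ext
    rw [hsg, hsg, hsg, hsg3]
  have hsg'free : ∀ l, sg l ≠ l := by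
    intro l h
    apply hsgfree l.1 l.2
    rw [← hsg, h]
  have hsg'free2 : ∀ l, sg (sg l) ≠ l := by
    intro l h
    apply hsg'free l
    have := congrArg sg h
    rw [hsg'3] at this
    exact this.symm
  obtain ⟨R, hRdef⟩ : ∃ R : {l : IrrCharacter Q // l ≠ trivIrr} →
      {l : IrrCharacter Q // l ≠ trivIrr} → Prop,
      ∀ l l', R l l' ↔ (l' = l ∨ l' = sg l ∨ l' = sg (sg l)) :=
    ⟨fun l l' => l' = l ∨ l' = sg l ∨ l' = sg (sg l), fun _ _ => Iff.rfl⟩
  have hR : ∀ l, R l l := fun l => (hRdef l l).mpr (Or.inl rfl)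
  have hRcard : ∀ l, (Finset.univ.filter (fun l' => R l l')).card = 3 := by
    intro l
    have hfil : Finset.univ.filter (fun l' => R l l') = {l, sg l, sg (sg l)} := by
      ext x
      simp [hRdef]
    rw [hfil, Finset.card_insert_of_notMem, Finset.card_pair]
    · exact fun h => hsg'free (sg l) h.symm
    · simp only [Finset.mem_insert, Finset.mem_singleton, not_or]
      exact ⟨fun h => hsg'free l h.symm, fun h => hsg'free2 l h.symm⟩
  have hgram : ∀ l l' : {l : IrrCharacter Q // l ≠ trivIrr},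
      ∑ χ : IrrCharacter G, a l χ * a l' χ = 3 + (if R l l' then 1 else 0) := by
    intro l l'
    have hc : ((∑ χ : IrrCharacter G, a l χ * a l' χ : ℤ) : ℂ) =
        classInner (fun y => ((trivIrr : IrrCharacter Q).1 - l'.1.1) y +
          ((trivIrr : IrrCharacter Q).1 - l'.1.1) (σ y) +
          ((trivIrr : IrrCharacter Q).1 - l'.1.1) (σ (σ y)))
          ((trivIrr : IrrCharacter Q).1 - l.1.1) := by
      rw [← hc_key B Q σ hS hO hF hσ1 hσ2 hσ3' _ _ (hf1 l)]
      push_cast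
      refine Finset.sum_congr rfl fun χ _ => ?_
      by_cases h : χ ∈ B
      · rw [if_pos h, ← haB l χ h, ← haB l' χ h, map_intCast]
      · rw [if_neg h, haN l χ h]
        simp
    have hfun : (fun y => ((trivIrr : IrrCharacter Q).1 - l'.1.1) y +
          ((trivIrr : IrrCharacter Q).1 - l'.1.1) (σ y) +
          ((trivIrr : IrrCharacter Q).1 - l'.1.1) (σ (σ y))) =
        (3 : ℂ) • (trivIrr : IrrCharacter Q).1 - l'.1.1 - (irrTwist σ l'.1).1 -
          (irrTwist σ (irrTwist σ l'.1)).1 := by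
      funext y
      simp only [Pi.sub_apply, Pi.smul_apply, trivIrr_apply, smul_eq_mul, irrTwist_apply]
      ring
    rw [hfun] at hc
    rw [Cfsg.Agent.Lib.Helper35.classInner_sub_left, Cfsg.Agent.Lib.Helper35.classInner_sub_left,
      Cfsg.Agent.Lib.Helper35.classInner_sub_left,
      Cfsg.Agent.Lib.Helper35.classInner_smul_left,
      Cfsg.Agent.Lib.Helper35.classInner_sub_right,
      Cfsg.Agent.Lib.Helper35.classInner_sub_right,
      Cfsg.Agent.Lib.Helper35.classInner_sub_right,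
      Cfsg.Agent.Lib.Helper35.classInner_sub_right,
      classInner_irr, classInner_irr, classInner_irr, classInner_irr, classInner_irr,
      classInner_irr, classInner_irr, classInner_irr, if_pos rfl, if_neg (Ne.symm l.2),
      if_neg l'.2, if_neg (hsg1 l'.1 l'.2), if_neg (hsg1 _ (hsg1 l'.1 l'.2))] at hc
    have hint : (∑ χ : IrrCharacter G, a l χ * a l' χ : ℤ) =
        3 + (if l'.1 = l.1 then 1 else 0) + (if irrTwist σ l'.1 = l.1 then 1 else 0) +
          (if irrTwist σ (irrTwist σ l'.1) = l.1 then 1 else 0) := by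
      have : ((∑ χ : IrrCharacter G, a l χ * a l' χ : ℤ) : ℂ) =
          ((3 + (if l'.1 = l.1 then 1 else 0) + (if irrTwist σ l'.1 = l.1 then 1 else 0) +
          (if irrTwist σ (irrTwist σ l'.1) = l.1 then 1 else 0) : ℤ) : ℂ) := by
        rw [hc]
        push_cast
        ring
      exact_mod_cast this
    rw [hint]
    have e1 : l'.1 = l.1 ↔ l' = l := Subtype.ext_iff.symm
    have e2 : irrTwist σ l'.1 = l.1 ↔ l' = sg (sg l) := by
      constructor
      · intro h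
        apply Subtype.ext
        rw [hsg, hsg, ← h, hsg3]
      · intro h
        rw [h, hsg, hsg, hsg3]
    have e3 : irrTwist σ (irrTwist σ l'.1) = l.1 ↔ l' = sg l := by
      constructor
      · intro h
        apply Subtype.ext
        rw [hsg, ← h, hsg3]
      · intro h
        rw [h, hsg, hsg3]
    by_cases h1 : l' = l
    · have h2 : ¬ l' = sg (sg l) := by
        rw [h1]
        exact fun h => hsg'free2 l h.symm
      have h3 : ¬ l' = sg l := by
        rw [h1]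
        exact fun h => hsg'free l h.symm
      rw [if_pos (e1.mpr h1), if_neg (fun h => h2 (e2.mp h)), if_neg (fun h => h3 (e3.mp h)),
        if_pos ((hRdef l l').mpr (Or.inl h1))]
      norm_num
    · by_cases h3 : l' = sg l
      · have h2 : ¬ l' = sg (sg l) := by
          rw [h3]
          exact fun h => hsg'free (sg l) h.symm
        rw [if_neg (fun h => h1 (e1.mp h)), if_neg (fun h => h2 (e2.mp h)), if_pos (e3.mpr h3),
          if_pos ((hRdef l l').mpr (Or.inr (Or.inl h3)))]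
        norm_num
      · by_cases h2 : l' = sg (sg l)
        · rw [if_neg (fun h => h1 (e1.mp h)), if_pos (e2.mpr h2), if_neg (fun h => h3 (e3.mp h)),
            if_pos ((hRdef l l').mpr (Or.inr (Or.inr h2)))]
          norm_num
        · have hnR : ¬ R l l' := by
            rw [hRdef]
            rintro (h | h | h)
            exacts [h1 h, h3 h, h2 h]
          rw [if_neg (fun h => h1 (e1.mp h)), if_neg (fun h => h2 (e2.mp h)),
            if_neg (fun h => h3 (e3.mp h)), if_neg hnR]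
          norm_num
  have hdeg : ∀ l : {l : IrrCharacter Q // l ≠ trivIrr},
      ∑ χ : IrrCharacter G, a l χ * (irrDeg χ : ℤ) = 0 := by
    intro l
    have hO1 : ∀ y : Q, y ≠ 1 → ∑ χ : IrrCharacter G,
        (if χ ∈ B then (χ : G → ℂ) y * conj ((χ : G → ℂ) ((1 : Q) : G)) else 0) = 0 := by
      intro y hy
      apply hO y 1
      intro hc
      apply hy
      have h1 : (y : G) = 1 := by
        have h2 : IsConj (y : G) (1 : G) := hc
        exact isConj_one_left.mp h2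
      exact Subtype.ext h1
    have hc : ((∑ χ : IrrCharacter G, a l χ * (irrDeg χ : ℤ) : ℤ) : ℂ) = 0 := by
      rw [← hc_key_deg B Q hO1 _ (hf1 l)]
      push_cast
      refine Finset.sum_congr rfl fun χ _ => ?_
      by_cases h : χ ∈ B
      · rw [if_pos h, ← haB l χ h, irrDeg_spec χ, Complex.conj_natCast]
      · rw [if_neg h, haN l χ h]
        simp
    exact_mod_cast hc
  have hcardΛ : Fintype.card {l : IrrCharacter Q // l ≠ trivIrr} = Nat.card Q - 1 := by
    rw [Fintype.card_subtype_compl, hcardIrr]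
    simp
  obtain ⟨χ₁, χ₂, s₁, s₂, X, t, h1, h2, h12, hs1, hs2, hX, hform, hXR⟩ :=
    hc_comb a trivIrr R ha1 hgram hR hRcard (by rw [hcardΛ]; omega)
  -- sums over the nontrivial characters of `Q`
  have hsubC : ∀ F : IrrCharacter Q → ℂ,
      ∑ l : {l : IrrCharacter Q // l ≠ trivIrr}, F l.1 =
        (∑ l : IrrCharacter Q, F l) - F trivIrr := by
    intro F
    rw [← Finset.sum_erase_eq_sub (Finset.mem_univ _)]
    exact (Finset.sum_subtype (Finset.univ.erase (trivIrr : IrrCharacter Q))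
      (fun x => by simp) F).symm
  have hsub : ∀ F : IrrCharacter Q → ℤ,
      ∑ l : {l : IrrCharacter Q // l ≠ trivIrr}, F l.1 =
        (∑ l : IrrCharacter Q, F l) - F trivIrr := by
    intro F
    rw [← Finset.sum_erase_eq_sub (Finset.mem_univ _)]
    exact (Finset.sum_subtype (Finset.univ.erase (trivIrr : IrrCharacter Q))
      (fun x => by simp) F).symm
  have hirr0 : ∀ y : Q, y ≠ 1 → ∑ l : IrrCharacter Q, (l : Q → ℂ) y = 0 := by
    intro y hy
    rw [hc_sum_irr hcomm y, if_neg hy]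
  have hE : ∀ y : Q, y ≠ 1 →
      ∑ l : {l : IrrCharacter Q // l ≠ trivIrr}, (l.1 : Q → ℂ) y = -1 := by
    intro y hy
    rw [hsubC (fun l => (l : Q → ℂ) y), hirr0 y hy, trivIrr_apply]
    ring
  have hT : ∀ χ : IrrCharacter G, χ ∈ B → ∀ y : Q, y ≠ 1 →
      ∑ l : {l : IrrCharacter Q // l ≠ trivIrr}, (a l χ : ℂ) * (l.1 : Q → ℂ) y =
        -(χ : G → ℂ) y := by
    intro χ hχ y hy
    have e1 : ∀ l : {l : IrrCharacter Q // l ≠ trivIrr}, (a l χ : ℂ) * (l.1 : Q → ℂ) y =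
        (fun l : IrrCharacter Q => ((M χ trivIrr : ℂ) - (M χ l : ℂ)) * (l : Q → ℂ) y) l.1 := by
      intro l
      rw [haB' l χ hχ]
      push_cast
      rfl
    rw [Finset.sum_congr rfl (fun l _ => e1 l),
      hsubC (fun l : IrrCharacter Q => ((M χ trivIrr : ℂ) - (M χ l : ℂ)) * (l : Q → ℂ) y)]
    simp only [sub_self, zero_mul, sub_zero, sub_mul, Finset.sum_sub_distrib]
    rw [← Finset.mul_sum, hirr0 y hy, mul_zero, zero_sub, ← hval0 χ y]
  have hsumall : ∀ χ : IrrCharacter G, χ ∈ B →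
      ∑ l : {l : IrrCharacter Q // l ≠ trivIrr}, a l χ =
      (Nat.card Q : ℤ) * (M χ trivIrr : ℤ) - (irrDeg χ : ℤ) := by
    intro χ hχ
    rw [Finset.sum_congr rfl (fun l _ => haB' l χ hχ),
      hsub (fun l => (M χ trivIrr : ℤ) - (M χ l : ℤ)), Finset.sum_sub_distrib,
      Finset.sum_const, Finset.card_univ, hcardIrr, nsmul_eq_mul, sub_self, sub_zero]
    have h3 : (∑ l : IrrCharacter Q, (M χ l : ℤ)) = (irrDeg χ : ℤ) := by
      exact_mod_cast hsumM χ
    rw [h3]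
  obtain ⟨l₀⟩ : Nonempty {l : IrrCharacter Q // l ≠ trivIrr} := by
    rw [← Fintype.card_pos_iff, hcardΛ]
    omega
  have hall1 : ∀ l, a l χ₁ = s₁ := by
    intro l
    rw [hform l χ₁, if_neg h1, if_pos rfl, if_neg h12, if_neg (fun h => (hX l).2.1 h.symm)]
    ring
  have hall2 : ∀ l, a l χ₂ = s₂ := by
    intro l
    rw [hform l χ₂, if_neg h2, if_neg (Ne.symm h12), if_pos rfl,
      if_neg (fun h => (hX l).2.2.1 h.symm)]
    ring
  have hconst : ∀ (χ : IrrCharacter G) (s : ℤ), (s = 1 ∨ s = -1) → (∀ l, a l χ = s) →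
      χ ∈ B ∧ (1 ≤ s * (irrDeg χ : ℤ) ∨ s * (irrDeg χ : ℤ) ≤ -15) := by
    intro χ s hs hall
    have hχ : χ ∈ B := by
      by_contra hn
      have h3 := haN l₀ χ hn
      rw [hall l₀] at h3
      rcases hs with h | h <;> rw [h] at h3 <;> norm_num at h3
    refine ⟨hχ, ?_⟩
    have e := hsumall χ hχ
    rw [Finset.sum_congr rfl (fun l _ => hall l), Finset.sum_const, Finset.card_univ, hcardΛ,
      nsmul_eq_mul] at e
    have hpos : (0 : ℤ) < (irrDeg χ : ℤ) := by exact_mod_cast irrDeg_pos χ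
    have hQ16 : (16 : ℤ) ≤ (Nat.card Q : ℤ) := by exact_mod_cast hcard
    have hcast : ((Nat.card Q - 1 : ℕ) : ℤ) = (Nat.card Q : ℤ) - 1 := by
      rw [Nat.cast_sub (by omega)]
      norm_num
    rw [hcast] at e
    have hM0 : (0 : ℤ) ≤ (M χ trivIrr : ℤ) := Int.natCast_nonneg _
    rcases hs with h | h
    · left
      rw [h]
      linarith
    · right
      rw [h] at e ⊢
      have : (irrDeg χ : ℤ) = (Nat.card Q : ℤ) * (M χ trivIrr : ℤ) + ((Nat.card Q : ℤ) - 1) := by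
        linarith
      nlinarith
  obtain ⟨hχ₁B, hb1⟩ := hconst χ₁ s₁ hs1 hall1
  obtain ⟨hχ₂B, hb2⟩ := hconst χ₂ s₂ hs2 hall2
  -- the twisted sum
  have hW : ∑ l : {l : IrrCharacter Q // l ≠ trivIrr},
      ((l.1 : Q → ℂ) u + ((sg l).1 : Q → ℂ) u + ((sg (sg l)).1 : Q → ℂ) u) *
      ((l.1 : Q → ℂ) z + ((sg l).1 : Q → ℂ) z + ((sg (sg l)).1 : Q → ℂ) z) ^ 2 = -27 := by
    have e1 : ∀ l : {l : IrrCharacter Q // l ≠ trivIrr},
        ((l.1 : Q → ℂ) u + ((sg l).1 : Q → ℂ) u + ((sg (sg l)).1 : Q → ℂ) u) *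
        ((l.1 : Q → ℂ) z + ((sg l).1 : Q → ℂ) z + ((sg (sg l)).1 : Q → ℂ) z) ^ 2 =
        (fun l : IrrCharacter Q => ((l : Q → ℂ) u + (l : Q → ℂ) (σ u) + (l : Q → ℂ) (σ (σ u))) *
          ((l : Q → ℂ) z + (l : Q → ℂ) (σ z) + (l : Q → ℂ) (σ (σ z))) ^ 2) l.1 := by
      intro l
      rw [hsg, hsg, hsg]
      rfl
    rw [Finset.sum_congr rfl (fun l _ => e1 l),
      hsubC (fun l : IrrCharacter Q => ((l : Q → ℂ) u + (l : Q → ℂ) (σ u) +
        (l : Q → ℂ) (σ (σ u))) *
          ((l : Q → ℂ) z + (l : Q → ℂ) (σ z) + (l : Q → ℂ) (σ (σ z))) ^ 2),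
      hc_wsum hcomm σ hσ3 hσ1 u z hu2 hz]
    simp only [trivIrr_apply]
    norm_num
  obtain ⟨hD0, hfin⟩ := hc_final a trivIrr χ₁ χ₂ s₁ s₂ X t sg (fun χ => (irrDeg χ : ℤ))
    (fun l => (l.1 : Q → ℂ) u) (fun l => (l.1 : Q → ℂ) z) h1 h2 h12 hs1 hs2 hX hform
    (fun l l' => (hXR l l').trans (hRdef l l')) hsg'free hsg'free2 hsg'3
    (by rw [irrDeg_triv]; rfl) (fun χ => by exact_mod_cast irrDeg_pos χ) hdeg (hE u hu1)
    (hE z hz1) hW ⟨l₀⟩
  -- the sum vanishes
  have hzero : ∑ χ : IrrCharacter G,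
      -((∑ l : {l : IrrCharacter Q // l ≠ trivIrr}, (a l χ : ℂ) * (l.1 : Q → ℂ) u) *
        (∑ l : {l : IrrCharacter Q // l ≠ trivIrr}, (a l χ : ℂ) * (l.1 : Q → ℂ) z) ^ 2) /
        (((irrDeg χ : ℤ) : ℂ)) = 0 := by
    rw [← hcount]
    refine Finset.sum_congr rfl fun χ _ => ?_
    by_cases h : χ ∈ B
    · rw [if_pos h, hT χ h u hu1, hT χ h z hz1, irrDeg_spec χ]
      push_cast
      ring
    · rw [if_neg h]
      simp only [haN _ χ h, Int.cast_zero, zero_mul, Finset.sum_const_zero]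
      simp
  rw [hzero] at hfin
  -- arithmetic
  have hd1pos : (0 : ℤ) < (irrDeg χ₁ : ℤ) := by exact_mod_cast irrDeg_pos χ₁
  have hd2pos : (0 : ℤ) < (irrDeg χ₂ : ℤ) := by exact_mod_cast irrDeg_pos χ₂
  have hs1' : s₁ * s₁ = 1 := by rcases hs1 with h | h <;> rw [h] <;> norm_num
  have hs2' : s₂ * s₂ = 1 := by rcases hs2 with h | h <;> rw [h] <;> norm_num
  have hkey : (1 + s₁ * (irrDeg χ₁ : ℤ) + s₂ * (irrDeg χ₂ : ℤ)) *
      (s₁ * (irrDeg χ₁ : ℤ) * (s₂ * (irrDeg χ₂ : ℤ)) + s₁ * (irrDeg χ₁ : ℤ) +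
        s₂ * (irrDeg χ₂ : ℤ)) = 9 * (s₁ * (irrDeg χ₁ : ℤ) * (s₂ * (irrDeg χ₂ : ℤ))) := by
    have hd1c : (((irrDeg χ₁ : ℤ)) : ℂ) ≠ 0 := by exact_mod_cast hd1pos.ne'
    have hd2c : (((irrDeg χ₂ : ℤ)) : ℂ) ≠ 0 := by exact_mod_cast hd2pos.ne'
    have hDc : (1 + (s₁ : ℂ) * ((irrDeg χ₁ : ℤ) : ℂ) + (s₂ : ℂ) * ((irrDeg χ₂ : ℤ) : ℂ)) ≠ 0 := by
      exact_mod_cast hD0
    have hs1c : (s₁ : ℂ) * (s₁ : ℂ) = 1 := by exact_mod_cast hs1'
    have hs2c : (s₂ : ℂ) * (s₂ : ℂ) = 1 := by exact_mod_cast hs2'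
    have hfin' := hfin
    field_simp at hfin'
    have hC : ((1 + (s₁ : ℂ) * ((irrDeg χ₁ : ℤ) : ℂ) + (s₂ : ℂ) * ((irrDeg χ₂ : ℤ) : ℂ)) *
      ((s₁ : ℂ) * ((irrDeg χ₁ : ℤ) : ℂ) * ((s₂ : ℂ) * ((irrDeg χ₂ : ℤ) : ℂ)) +
        (s₁ : ℂ) * ((irrDeg χ₁ : ℤ) : ℂ) + (s₂ : ℂ) * ((irrDeg χ₂ : ℤ) : ℂ))) =
        9 * ((s₁ : ℂ) * ((irrDeg χ₁ : ℤ) : ℂ) * ((s₂ : ℂ) * ((irrDeg χ₂ : ℤ) : ℂ))) := by
      linear_combination (-(s₁ : ℂ) * (s₂ : ℂ)) * hfin' -
        (1 + (s₁ : ℂ) * ((irrDeg χ₁ : ℤ) : ℂ) + (s₂ : ℂ) * ((irrDeg χ₂ : ℤ) : ℂ)) * (s₁ : ℂ) *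
          ((irrDeg χ₁ : ℤ) : ℂ) * hs2c -
        (1 + (s₁ : ℂ) * ((irrDeg χ₁ : ℤ) : ℂ) + (s₂ : ℂ) * ((irrDeg χ₂ : ℤ) : ℂ)) * (s₂ : ℂ) *
          ((irrDeg χ₂ : ℤ) : ℂ) * hs1c
    exact_mod_cast hC
  obtain ⟨hA1, -⟩ := hc_arith _ _ hb1 hb2 hkey
  have hs1eq : s₁ = 1 := by
    rcases hs1 with h | h
    · exact h
    · rw [h] at hA1
      linarith
  have hd1eq : irrDeg χ₁ = 1 := by
    rw [hs1eq] at hA1
    have : (irrDeg χ₁ : ℤ) = 1 := by linarith
    exact_mod_cast this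
  refine ⟨χ₁, h1, ?_, ?_⟩
  · rw [irrDeg_spec χ₁, hd1eq, Nat.cast_one]
  · intro y
    by_cases hy : y = 1
    · subst hy
      have h2 : (χ₁ : G → ℂ) ((1 : Q) : G) = (irrDeg χ₁ : ℂ) := irrDeg_spec χ₁
      rw [h2, hd1eq, Nat.cast_one]
    · have h3 := hT χ₁ hχ₁B y hy
      have h4 : ∑ l : {l : IrrCharacter Q // l ≠ trivIrr}, (a l χ₁ : ℂ) * (l.1 : Q → ℂ) y =
          -1 := by
        rw [← hE y hy]
        refine Finset.sum_congr rfl fun l _ => ?_
        rw [hall1 l, hs1eq]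
        push_cast
        ring
      rw [h4] at h3
      have : (χ₁ : G → ℂ) y = 1 := by
        linear_combination h3
      exact this

end Abstract

section Main

universe u

variable {G : Type u} [Group G] [Finite G] {M : Ideal AlgInt}

open scoped Classical in
/-- The norm sum of the principal block at a nontrivial element of `P`. -/
theorem hc_hS [Fintype (IrrCharacter G)] (hM : IsPModular 2 M) (P : Sylow 2 G)
    (hcomm : ∀ a ∈ (P : Subgroup G), ∀ b ∈ (P : Subgroup G), a * b = b * a)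
    (hcz : ∀ z ∈ (P : Subgroup G), z ≠ 1 →
      centralizer ({z} : Set G) ⊓ normalizer ((P : Subgroup G) : Set G) ≤
        centralizer ((P : Subgroup G) : Set G))
    (y : G) (hy : y ∈ (P : Subgroup G)) (hy1 : y ≠ 1) :
    ∑ χ : IrrCharacter G, (if χ ∈ principalBlock M G then
      (χ : G → ℂ) y * conj ((χ : G → ℂ) y) else 0) = (Nat.card (P : Subgroup G) : ℂ) := by
  haveI : Fact (Nat.Prime 2) := ⟨Nat.prime_two⟩
  obtain ⟨n, hn⟩ := (IsPGroup.iff_card (p := 2) (G := (P : Subgroup G))).mp P.isPGroup'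
  have hidx : (pPrimeCore 2 (centralizer ({y} : Set G))).index = 2 ^ n := by
    rw [hc_index P hcomm y hy (hcz y hy hy1)]
    exact hn
  have hfac := Cfsg.Agent.Lib.Helper79.factorization_card_of_index n hidx
  obtain ⟨k, hk⟩ : ∃ k : ℕ, orderOf y = 2 ^ k := by
    obtain ⟨k, hk⟩ := (IsPGroup.iff_orderOf.mp P.isPGroup') ⟨y, hy⟩
    exact ⟨k, by rw [← hk, ← Subgroup.orderOf_coe]⟩
  have h947 := (Cfsg.Agent.S0947.result 2 M hM y ⟨k, hk⟩ hy1
    (1 : centralizer ({y} : Set G)) (by rw [orderOf_one]; norm_num)).2 ⟨n, hidx⟩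
  rw [hfac] at h947
  simp only [OneMemClass.coe_one, mul_one] at h947
  rw [Cfsg.Agent.Lib.Helper79.finsum_mem_eq_sum_filter_univ] at h947
  rw [← Finset.sum_filter, hn]
  have h1 : ((∑ χ ∈ Finset.univ.filter (· ∈ principalBlock M G), ‖(χ : G → ℂ) y‖ ^ 2 : ℝ) : ℂ) =
      (((2 ^ n : ℕ) : ℝ) : ℂ) := by
    rw [h947]
  have h2 : ((2 ^ n : ℕ) : ℂ) = (((2 ^ n : ℕ) : ℝ) : ℂ) := by
    push_cast
    rfl
  rw [h2, ← h1]
  push_cast
  refine Finset.sum_congr rfl fun χ _ => ?_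
  rw [Complex.mul_conj, Complex.normSq_eq_norm_sq]
  push_cast
  rfl

open scoped Classical in
/-- Block orthogonality for non-conjugate elements of `P`. -/
theorem hc_hO [Fintype (IrrCharacter G)] (hM : IsPModular 2 M) (P : Sylow 2 G)
    (y y' : G) (hy : y ∈ (P : Subgroup G)) (hy' : y' ∈ (P : Subgroup G)) (h : ¬ IsConj y y') :
    ∑ χ : IrrCharacter G, (if χ ∈ principalBlock M G then
      (χ : G → ℂ) y * conj ((χ : G → ℂ) y') else 0) = 0 := by
  haveI : Fact (Nat.Prime 2) := ⟨Nat.prime_two⟩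
  letI : Fintype G := Fintype.ofFinite G
  have hpp : ∀ w ∈ (P : Subgroup G), IsPPart 2 w w := by
    intro w hw
    obtain ⟨k, hk⟩ := (IsPGroup.iff_orderOf.mp P.isPGroup') ⟨w, hw⟩
    refine ⟨1, mul_one w, Commute.one_right w, ⟨k, by rw [← hk, ← Subgroup.orderOf_coe]⟩, ?_⟩
    rw [orderOf_one]
    norm_num
  have h1 := Cfsg.Agent.Lib.Helper22.block_orth_sections hM (principalBlock M G)
    Cfsg.Agent.Lib.Helper79.isPBlock_principalBlock (hpp y hy) (hpp y' hy') h
  rw [Cfsg.Agent.Lib.Helper79.finsum_mem_eq_sum_filter_univ, Finset.sum_filter] at h1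
  exact h1

set_option maxHeartbeats 1600000 in
/-- **A linear character trivial on `P`.**  If `P` is an abelian Sylow `2`-subgroup of order at
least `16` with an element of order at least four, `|N(P) : C(P)| = 3`, and every nontrivial
element of `P` has its centralizer in `N(P)` equal to `C(P)`, then `G` has a nonprincipal linear
character which is trivial on `P`. -/
theorem hc_linear (P : Sylow 2 G)
    (hcomm : ∀ a ∈ (P : Subgroup G), ∀ b ∈ (P : Subgroup G), a * b = b * a)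
    (hcard : 16 ≤ Nat.card (P : Subgroup G))
    (u : G) (hu : u ∈ (P : Subgroup G)) (hu2 : u * u ≠ 1)
    (hrel : (centralizer ((P : Subgroup G) : Set G)).relIndex
      (normalizer ((P : Subgroup G) : Set G)) = 3)
    (hcz : ∀ z ∈ (P : Subgroup G), z ≠ 1 →
      centralizer ({z} : Set G) ⊓ normalizer ((P : Subgroup G) : Set G) ≤
        centralizer ((P : Subgroup G) : Set G)) :
    ∃ χ : IrrCharacter G, (χ : G → ℂ) ≠ (fun _ => 1) ∧ (χ : G → ℂ) 1 = 1 ∧
      ∀ y ∈ (P : Subgroup G), (χ : G → ℂ) y = 1 := by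
  classical
  haveI : Fact (Nat.Prime 2) := ⟨Nat.prime_two⟩
  letI : Fintype G := Fintype.ofFinite G
  haveI : Finite (IrrCharacter G) := irr_finite
  letI : Fintype (IrrCharacter G) := Fintype.ofFinite _
  letI : Fintype (P : Subgroup G) := Fintype.ofFinite _
  obtain ⟨M, hM⟩ := Cfsg.Agent.Lib.Helper82.exists_isPModular 2
  obtain ⟨σ, hσ3, hσ1, hF⟩ := hc_setup P hcomm hrel hcz
  obtain ⟨n, hn⟩ := (IsPGroup.iff_card (p := 2) (G := (P : Subgroup G))).mp P.isPGroup'
  have hu1 : u ≠ 1 := by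
    rintro rfl
    exact hu2 (mul_one 1)
  have hidx : (pPrimeCore 2 (centralizer ({u} : Set G))).index = 2 ^ n := by
    rw [hc_index P hcomm u hu (hcz u hu hu1)]
    exact hn
  -- an involution in `P`
  have h2dvd : 2 ∣ Nat.card (P : Subgroup G) := by
    rw [hn]
    have hn0 : n ≠ 0 := by
      rintro rfl
      rw [hn] at hcard
      norm_num at hcard
    exact dvd_pow_self 2 hn0
  obtain ⟨z, hzord⟩ := exists_prime_orderOf_dvd_card' (G := (P : Subgroup G)) 2 h2dvd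
  have hzz : z * z = 1 := by
    have h1 := pow_orderOf_eq_one z
    rw [hzord, pow_two] at h1
    exact h1
  have hz1 : z ≠ 1 := by
    rintro rfl
    rw [orderOf_one] at hzord
    norm_num at hzord
  have hzG : orderOf (z : G) = 2 := by
    rw [Subgroup.orderOf_coe]
    exact hzord
  have hB1 : (trivIrr : IrrCharacter G) ∈ principalBlock M G :=
    Cfsg.Agent.Lib.Helper79.trivIrr_mem_principalBlock hM
  have hcount := hc_count hM P hcomm u hu hu2 n hidx (z : G) hzG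
  rw [Cfsg.Agent.Lib.Helper79.finsum_mem_eq_sum_filter_univ, Finset.sum_filter] at hcount
  have hcommP : ∀ a b : (P : Subgroup G), a * b = b * a := by
    intro a b
    exact Subtype.ext (hcomm a a.2 b b.2)
  have hu2' : (⟨u, hu⟩ : (P : Subgroup G)) * ⟨u, hu⟩ ≠ 1 := by
    intro h
    exact hu2 (congrArg Subtype.val h)
  obtain ⟨χ, hχ1, hχd, hχP⟩ := hc_struct (principalBlock M G) hB1 (P : Subgroup G) hcommP hcard
    P.isPGroup' σ hσ3 hσ1 hF
    (fun y hy => hc_hS hM P hcomm hcz y y.2 (fun h => hy (Subtype.ext h)))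
    (fun y y' h => hc_hO hM P y y' y.2 y'.2 h) ⟨u, hu⟩ z hu2' hzz hz1 hcount
  refine ⟨χ, ?_, hχd, fun y hy => hχP ⟨y, hy⟩⟩
  intro h
  apply hχ1
  exact Subtype.ext h

end Main

end Cfsg.Agent.Lib.Helper5
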