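import Mathlib
import Cfsg.Agent.S0945
import Cfsg.Agent.Lib.Helper79.SelfCent3
import Cfsg.Agent.Lib.Helper83.Quot
import Cfsg.Agent.Lib.Helper5.HcMain

/-!
# Groups with homocyclic Sylow `2`-subgroups of rank two and trivial odd core (helper5)

The group-theoretic part of Brauer's theorem: if a Sylow `2`-subgroup `P` of `G` is of type
`(2^m, 2^m)` with `m ≥ 2` and `G` has no nontrivial normal subgroup of odd order, then `P` is
normal (`hc_normal_ind`, by induction on `|G|` using the linear character of `hc_linear`) and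
self-centralizing (`hc_cent_eq`).
-/

set_option autoImplicit false

namespace Cfsg.Agent.Lib.Helper5

open Cfsg Subgroup

universe u

/-- The hypothesis "no nontrivial normal subgroup of odd order" passes to normal subgroups. -/
theorem hc_odd_sub {G : Type u} [Group G] [Finite G]
    (hO : ∀ N : Subgroup G, N.Normal → Odd (Nat.card N) → N = ⊥) (D : Subgroup G) [D.Normal]
    (N : Subgroup D) (hN : N.Normal) (hodd : Odd (Nat.card N)) : N = ⊥ := by
  have hcore : Cfsg.pPrimeCore 2 G = ⊥ := by
    apply hO _ Cfsg.Agent.Lib.Helper79.pPrimeCore_normal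
    rw [← Nat.not_even_iff_odd, even_iff_two_dvd]
    exact Cfsg.Agent.Lib.Helper79.pPrimeCore_not_dvd Nat.prime_two
  haveI := hN
  have h1 := Cfsg.Agent.Lib.Helper79.map_subtype_le_pPrimeCore Nat.prime_two D N
    (by rw [← even_iff_two_dvd, Nat.not_even_iff_odd]; exact hodd)
  rw [hcore, le_bot_iff] at h1
  exact (Subgroup.map_eq_bot_iff_of_injective N D.subtype_injective).mp h1

/-- Burnside's transfer theorem with trivial odd core: a Sylow `2`-subgroup which is central in
its normalizer is the whole group. -/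
theorem hc_top {G : Type u} [Group G] [Finite G] (P : Sylow 2 G)
    (hN : normalizer ((P : Subgroup G) : Set G) ≤ centralizer ((P : Subgroup G) : Set G))
    (hO : ∀ N : Subgroup G, N.Normal → Odd (Nat.card N) → N = ⊥) : (P : Subgroup G) = ⊤ := by
  haveI : Fact (Nat.Prime 2) := ⟨Nat.prime_two⟩
  have hc := MonoidHom.ker_transferSylow_isComplement' P hN
  have hodd := MonoidHom.not_dvd_card_ker_transferSylow P hN
  have hK : (MonoidHom.transferSylow P hN).ker = ⊥ := by
    apply hO _ (MonoidHom.normal_ker _)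
    rw [← Nat.not_even_iff_odd, even_iff_two_dvd]
    exact hodd
  rw [hK] at hc
  exact Subgroup.isComplement'_bot_left.mp hc

/-- A normal abelian Sylow `2`-subgroup of a group with trivial odd core is self-centralizing. -/
theorem hc_cent_eq {G : Type u} [Group G] [Finite G] (P : Sylow 2 G)
    (hcomm : ∀ a ∈ (P : Subgroup G), ∀ b ∈ (P : Subgroup G), a * b = b * a)
    (hPn : (P : Subgroup G).Normal)
    (hO : ∀ N : Subgroup G, N.Normal → Odd (Nat.card N) → N = ⊥) :
    centralizer ((P : Subgroup G) : Set G) = (P : Subgroup G) := by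
  haveI := hPn
  haveI hCn : (centralizer ((P : Subgroup G) : Set G)).Normal := Subgroup.normal_centralizer
  have hPC : (P : Subgroup G) ≤ centralizer ((P : Subgroup G) : Set G) := by
    intro x hx
    rw [mem_centralizer_iff]
    intro y hy
    exact hcomm y hy x hx
  apply le_antisymm _ hPC
  have hN : normalizer (((P.subtype hPC : Sylow 2 (centralizer ((P : Subgroup G) : Set G))) :
        Subgroup (centralizer ((P : Subgroup G) : Set G))) :
          Set (centralizer ((P : Subgroup G) : Set G))) ≤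
      centralizer (((P.subtype hPC : Sylow 2 (centralizer ((P : Subgroup G) : Set G))) :
        Subgroup (centralizer ((P : Subgroup G) : Set G))) :
          Set (centralizer ((P : Subgroup G) : Set G))) := by
    intro t _
    rw [mem_centralizer_iff]
    intro x hx
    rw [Sylow.coe_subtype, SetLike.mem_coe, mem_subgroupOf] at hx
    apply Subtype.ext
    exact mem_centralizer_iff.mp t.2 (x : G) hx
  have htop := hc_top (P.subtype hPC) hN (fun N hN hodd => hc_odd_sub hO _ N hN hodd)
  intro c hc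
  have h1 : (⟨c, hc⟩ : centralizer ((P : Subgroup G) : Set G)) ∈
      ((P.subtype hPC : Sylow 2 (centralizer ((P : Subgroup G) : Set G))) :
        Subgroup (centralizer ((P : Subgroup G) : Set G))) := by
    rw [htop]
    trivial
  rw [Sylow.coe_subtype, mem_subgroupOf] at h1
  exact h1

/-- A subgroup isomorphic to a commutative group is commutative. -/
theorem hc_comm_of_equiv {G : Type u} [Group G] (H : Subgroup G) {A : Type*} [CommGroup A]
    (e : H ≃* A) : ∀ a ∈ H, ∀ b ∈ H, a * b = b * a := by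
  intro a ha b hb
  have h : (⟨a, ha⟩ : H) * ⟨b, hb⟩ = ⟨b, hb⟩ * ⟨a, ha⟩ := by
    apply e.injective
    rw [map_mul, map_mul, mul_comm]
  exact congrArg Subtype.val h

/-- The order of a group of type `(2^m, 2^m)`, `m ≥ 2`, is at least `16`. -/
theorem hc_card_ge {G : Type u} [Group G] (H : Subgroup G) (m : ℕ) (hm : 2 ≤ m)
    (e : H ≃* Multiplicative (ZMod (2 ^ m) × ZMod (2 ^ m))) : 16 ≤ Nat.card H := by
  rw [Nat.card_congr (e.toEquiv.trans Multiplicative.toAdd), Nat.card_prod, Nat.card_zmod]
  have : 2 ^ 2 ≤ 2 ^ m := Nat.pow_le_pow_right (by norm_num) hm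
  nlinarith

/-- A group of type `(2^m, 2^m)`, `m ≥ 2`, has an element which is not an involution. -/
theorem hc_exists_u {G : Type u} [Group G] (H : Subgroup G) (m : ℕ) (hm : 2 ≤ m)
    (e : H ≃* Multiplicative (ZMod (2 ^ m) × ZMod (2 ^ m))) : ∃ u : G, u ∈ H ∧ u * u ≠ 1 := by
  refine ⟨(e.symm (Multiplicative.ofAdd ((1 : ZMod (2 ^ m)), (0 : ZMod (2 ^ m)))) : H),
    SetLike.coe_mem _, ?_⟩
  intro h
  have h1 : e.symm (Multiplicative.ofAdd ((1 : ZMod (2 ^ m)), (0 : ZMod (2 ^ m)))) *
      e.symm (Multiplicative.ofAdd ((1 : ZMod (2 ^ m)), (0 : ZMod (2 ^ m)))) = 1 :=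
    Subtype.ext h
  rw [← map_mul, ← ofAdd_add] at h1
  have h2 := congrArg e h1
  rw [MulEquiv.apply_symm_apply, map_one] at h2
  have h3 : ((1 : ZMod (2 ^ m)), (0 : ZMod (2 ^ m))) + ((1 : ZMod (2 ^ m)), (0 : ZMod (2 ^ m))) =
      0 := Multiplicative.ofAdd.injective h2
  have h4 : (1 : ZMod (2 ^ m)) + 1 = 0 := congrArg Prod.fst h3
  have h5 : ((2 : ℕ) : ZMod (2 ^ m)) = 0 := by
    rw [← h4]
    norm_num
  rw [ZMod.natCast_eq_zero_iff] at h5
  have h6 := Nat.le_of_dvd (by norm_num) h5
  have : 2 ^ 2 ≤ 2 ^ m := Nat.pow_le_pow_right (by norm_num) hm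
  omega

/-- **Normality of the Sylow `2`-subgroup**, by induction on the order of the group. -/
theorem hc_normal_ind (n : ℕ) : ∀ (G : Type u) [Group G] [Finite G], Nat.card G = n →
    ∀ (P : Sylow 2 G) (m : ℕ), 2 ≤ m →
    Nonempty ((P : Subgroup G) ≃* Multiplicative (ZMod (2 ^ m) × ZMod (2 ^ m))) →
    (∀ N : Subgroup G, N.Normal → Odd (Nat.card N) → N = ⊥) → (P : Subgroup G).Normal := by
  induction n using Nat.strong_induction_on with
  | _ n ih =>
  intro G _ _ hGn P m hm ⟨e⟩ hO
  haveI : Fact (Nat.Prime 2) := ⟨Nat.prime_two⟩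
  have hcomm : ∀ a ∈ (P : Subgroup G), ∀ b ∈ (P : Subgroup G), a * b = b * a :=
    hc_comm_of_equiv (P : Subgroup G) e
  obtain ⟨h13, hcz⟩ := Cfsg.Agent.S0945.result P m (by omega) e
  rcases h13 with h1 | h3
  · have hNC : normalizer ((P : Subgroup G) : Set G) ≤ centralizer ((P : Subgroup G) : Set G) :=
      Subgroup.relIndex_eq_one.mp h1
    have htop := hc_top P hNC hO
    rw [htop]
    infer_instance
  · have hcz' : ∀ z ∈ (P : Subgroup G), z ≠ 1 →
        centralizer ({z} : Set G) ⊓ normalizer ((P : Subgroup G) : Set G) ≤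
          centralizer ((P : Subgroup G) : Set G) := by
      intro z hz hz1
      exact (hcz (by rw [h3]; norm_num) z hz hz1).le
    obtain ⟨u, hu, hu2⟩ := hc_exists_u (P : Subgroup G) m hm e
    have hcard := hc_card_ge (P : Subgroup G) m hm e
    obtain ⟨χ, hχ1, hχd, hχP⟩ := hc_linear P hcomm hcard u hu hu2 h3 hcz'
    have hPK : (P : Subgroup G) ≤ Cfsg.Agent.Lib.Helper83.irrKer χ := by
      intro y hy
      rw [Cfsg.Agent.Lib.Helper83.mem_irrKer, hχP y hy, hχd]
    have hKne : Cfsg.Agent.Lib.Helper83.irrKer χ ≠ ⊤ := by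
      intro h
      apply hχ1
      funext g
      have hg : g ∈ Cfsg.Agent.Lib.Helper83.irrKer χ := by
        rw [h]
        trivial
      rw [Cfsg.Agent.Lib.Helper83.mem_irrKer] at hg
      rw [hg, hχd]
    have hKcard : Nat.card (Cfsg.Agent.Lib.Helper83.irrKer χ) < n := by
      rw [← hGn]
      exact lt_of_le_of_ne (Subgroup.card_le_card_group _)
        (fun h => hKne (Subgroup.eq_top_of_card_eq _ h))
    have hnK := ih (Nat.card (Cfsg.Agent.Lib.Helper83.irrKer χ)) hKcard
      (Cfsg.Agent.Lib.Helper83.irrKer χ) rfl (P.subtype hPK) m hm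
      ⟨(Subgroup.subgroupOfEquivOfLe hPK).trans e⟩
      (fun N hN hodd => hc_odd_sub hO _ N hN hodd)
    haveI := Sylow.characteristic_of_normal (P.subtype hPK) hnK
    have hmap : (((P.subtype hPK : Sylow 2 (Cfsg.Agent.Lib.Helper83.irrKer χ)) :
        Subgroup (Cfsg.Agent.Lib.Helper83.irrKer χ)).map
          (Cfsg.Agent.Lib.Helper83.irrKer χ).subtype).Normal :=
      ConjAct.normal_of_characteristic_of_normal
    rw [Sylow.coe_subtype, Subgroup.map_subgroupOf_eq_of_le hPK] at hmap
    exact hmap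

end Cfsg.Agent.Lib.Helper5
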