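import Mathlib
import Cfsg.Agent.Lib.Helper81.PSolv2

/-!
# Abelian Sylow `2`-subgroups with `|N(P) : C(P)| = 3`: fusion and centralizers (helper5)
-/

set_option autoImplicit false

namespace Cfsg.Agent.Lib.Helper5

open Cfsg Subgroup

/-- The automorphism of order three of `P` induced by the normalizer, and the fusion pattern. -/
theorem hc_setup {G : Type*} [Group G] [Finite G] (P : Sylow 2 G)
    (hcomm : ∀ a ∈ (P : Subgroup G), ∀ b ∈ (P : Subgroup G), a * b = b * a)
    (hrel : (centralizer ((P : Subgroup G) : Set G)).relIndex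
      (normalizer ((P : Subgroup G) : Set G)) = 3)
    (hcz : ∀ z ∈ (P : Subgroup G), z ≠ 1 →
      centralizer ({z} : Set G) ⊓ normalizer ((P : Subgroup G) : Set G) ≤
        centralizer ((P : Subgroup G) : Set G)) :
    ∃ σ : (P : Subgroup G) ≃* (P : Subgroup G), (∀ y, σ (σ (σ y)) = y) ∧
      (∀ y, y ≠ 1 → σ y ≠ y) ∧
      (∀ y : (P : Subgroup G), y ≠ 1 → ∀ y' : (P : Subgroup G),
        (IsConj (y : G) (y' : G) ↔ y' = y ∨ y' = σ y ∨ y' = σ (σ y))) := by
  classical
  haveI : Fact (Nat.Prime 2) := ⟨Nat.prime_two⟩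
  obtain ⟨φ, hφ⟩ : ∃ φ : normalizer ((P : Subgroup G) : Set G) →* MulAut (P : Subgroup G),
      φ = (P : Subgroup G).normalizerMonoidHom := ⟨_, rfl⟩
  have hker : φ.ker = (centralizer ((P : Subgroup G) : Set G)).subgroupOf
      (normalizer ((P : Subgroup G) : Set G)) := by
    rw [hφ]; exact normalizerMonoidHom_ker _
  have hcardR : Nat.card φ.range = 3 := by
    rw [← Subgroup.index_ker, hker]; exact hrel
  have happly : ∀ (n : normalizer ((P : Subgroup G) : Set G)) (y : (P : Subgroup G)),
      ((φ n y : (P : Subgroup G)) : G) = (n : G) * (y : G) * (n : G)⁻¹ := by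
    intro n y
    rw [hφ]; exact normalizerMonoidHom_apply_apply_coe _ n y
  obtain ⟨t, ht⟩ : ∃ t : normalizer ((P : Subgroup G) : Set G), φ t ≠ 1 := by
    by_contra hno
    push Not at hno
    have hbot : φ.range = ⊥ := by
      rw [eq_bot_iff]
      rintro _ ⟨n, rfl⟩
      rw [mem_bot]
      exact hno n
    rw [hbot, Subgroup.card_bot] at hcardR
    omega
  obtain ⟨σ, hσ⟩ : ∃ σ : MulAut (P : Subgroup G), σ = φ t := ⟨_, rfl⟩
  have hσR : σ ∈ φ.range := ⟨t, hσ.symm⟩
  have hσne : σ ≠ 1 := by rw [hσ]; exact ht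
  have hσ3' : σ ^ 3 = 1 := by
    have h := pow_card_eq_one' (G := φ.range) (x := ⟨σ, hσR⟩)
    rw [hcardR] at h
    have h2 := congrArg Subtype.val h
    simpa using h2
  refine ⟨σ, ?_, ?_, ?_⟩
  · intro y
    have h := DFunLike.congr_fun hσ3' y
    rw [pow_succ, pow_two] at h
    simpa [MulAut.mul_apply] using h
  · intro y hy hfix
    apply ht
    have h1 : (t : G) * (y : G) * (t : G)⁻¹ = (y : G) := by
      rw [← happly, ← hσ]; exact congrArg Subtype.val hfix
    have h2 : (t : G) ∈ centralizer ({(y : G)} : Set G) := by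
      rw [mem_centralizer_singleton_iff]
      calc (t : G) * y = (t : G) * y * (t : G)⁻¹ * t := by group
        _ = y * t := by rw [h1]
    have h3 : (t : G) ∈ centralizer ((P : Subgroup G) : Set G) :=
      hcz (y : G) y.2 (fun h => hy (Subtype.ext h)) ⟨h2, t.2⟩
    have h4 : t ∈ φ.ker := by rw [hker, mem_subgroupOf]; exact h3
    exact MonoidHom.mem_ker.mp h4
  · intro y hy y'
    constructor
    · intro hc
      obtain ⟨g, hg⟩ := isConj_iff.mp hc
      haveI : IsMulCommutative (P : Subgroup G) :=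
        ⟨⟨fun a b => Subtype.ext (hcomm a a.2 b b.2)⟩⟩
      obtain ⟨n, hn, hnn⟩ := Sylow.conj_eq_normalizer_conj_of_mem P (y : G) g⁻¹ y.2
        (by rw [inv_inv, hg]; exact y'.2)
      rw [inv_inv, hg] at hnn
      have hm : n⁻¹ ∈ normalizer ((P : Subgroup G) : Set G) := inv_mem hn
      have hy' : y' = φ ⟨n⁻¹, hm⟩ y := by
        apply Subtype.ext
        rw [happly, hnn]
        simp
      have hmem : (⟨φ ⟨n⁻¹, hm⟩, ⟨_, rfl⟩⟩ : φ.range) ∈
          Submonoid.powers (⟨σ, hσR⟩ : φ.range) :=
        mem_powers_of_prime_card hcardR (fun h => hσne (congrArg Subtype.val h))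
      obtain ⟨k, hk⟩ := hmem
      have hk' : σ ^ k = φ ⟨n⁻¹, hm⟩ := by
        have h2 := congrArg Subtype.val hk
        simpa using h2
      rw [pow_eq_pow_mod k hσ3'] at hk'
      have hlt : k % 3 < 3 := Nat.mod_lt _ (by norm_num)
      rw [hy', ← hk']
      obtain ⟨r, hr⟩ : ∃ r, r = k % 3 := ⟨_, rfl⟩
      rw [← hr] at hlt ⊢
      interval_cases r
      · left; simp
      · right; left; simp
      · right; right
        rw [pow_two]
        simp [MulAut.mul_apply]
    · rintro (h | h | h)
      · rw [h]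
      · rw [h, isConj_iff]
        refine ⟨(t : G), ?_⟩
        rw [hσ, happly]
      · rw [h, isConj_iff]
        refine ⟨(t : G) * (t : G), ?_⟩
        rw [hσ, happly, happly]
        group

/-- The centralizer of a nontrivial element of `P` has a normal `2`-complement. -/
theorem hc_index {G : Type*} [Group G] [Finite G] (P : Sylow 2 G)
    (hcomm : ∀ a ∈ (P : Subgroup G), ∀ b ∈ (P : Subgroup G), a * b = b * a)
    (y : G) (hy : y ∈ (P : Subgroup G))
    (hcz : centralizer ({y} : Set G) ⊓ normalizer ((P : Subgroup G) : Set G) ≤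
        centralizer ((P : Subgroup G) : Set G)) :
    (pPrimeCore 2 (centralizer ({y} : Set G))).index = Nat.card P := by
  haveI : Fact (Nat.Prime 2) := ⟨Nat.prime_two⟩
  have hPC : (P : Subgroup G) ≤ centralizer ({y} : Set G) := by
    intro x hx
    rw [mem_centralizer_singleton_iff]
    exact hcomm x hx y hy
  have hN : normalizer (((P.subtype hPC : Sylow 2 (centralizer ({y} : Set G))) :
        Subgroup (centralizer ({y} : Set G))) : Set (centralizer ({y} : Set G))) ≤
      centralizer (((P.subtype hPC : Sylow 2 (centralizer ({y} : Set G))) :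
        Subgroup (centralizer ({y} : Set G))) : Set (centralizer ({y} : Set G))) := by
    intro t ht
    rw [Sylow.coe_subtype] at ht ⊢
    have htG : (t : G) ∈ normalizer ((P : Subgroup G) : Set G) := by
      rw [mem_normalizer_iff]
      intro h
      constructor
      · intro hh
        have hhC : h ∈ centralizer ({y} : Set G) := hPC hh
        have h1 := (mem_normalizer_iff.mp ht ⟨h, hhC⟩).mp (by rw [mem_subgroupOf]; exact hh)
        rw [mem_subgroupOf] at h1
        exact h1
      · intro hh
        have hhC : h ∈ centralizer ({y} : Set G) := by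
          have h1 : (t : G) * h * (t : G)⁻¹ ∈ centralizer ({y} : Set G) := hPC hh
          have h2 : h = (t : G)⁻¹ * ((t : G) * h * (t : G)⁻¹) * (t : G) := by group
          rw [h2]
          exact mul_mem (mul_mem (inv_mem t.2) h1) t.2
        have h1 := (mem_normalizer_iff.mp ht ⟨h, hhC⟩).mpr (by rw [mem_subgroupOf]; exact hh)
        rw [mem_subgroupOf] at h1
        exact h1
    have htC : (t : G) ∈ centralizer ((P : Subgroup G) : Set G) := hcz ⟨t.2, htG⟩
    rw [mem_centralizer_iff]
    intro x hx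
    rw [SetLike.mem_coe, mem_subgroupOf] at hx
    apply Subtype.ext
    exact mem_centralizer_iff.mp htC (x : G) hx
  have hc := MonoidHom.ker_transferSylow_isComplement' (P.subtype hPC) hN
  have hodd := MonoidHom.not_dvd_card_ker_transferSylow (P.subtype hPC) hN
  have hle : (MonoidHom.transferSylow (P.subtype hPC) hN).ker ≤
      Cfsg.pPrimeCore 2 (centralizer ({y} : Set G)) :=
    Cfsg.Agent.Lib.Helper81.le_pPrimeCore 2 _ (MonoidHom.normal_ker _)
      ((Nat.Prime.coprime_iff_not_dvd Nat.prime_two).2 hodd).symm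
  have h1 := Subgroup.index_dvd_of_le hle
  have hcardP : Nat.card ((P.subtype hPC : Sylow 2 (centralizer ({y} : Set G))) :
      Subgroup (centralizer ({y} : Set G))) = Nat.card P := by
    rw [Sylow.coe_subtype, Nat.card_congr (Subgroup.subgroupOfEquivOfLe hPC).toEquiv]
  rw [hc.symm.index_eq_card, hcardP] at h1
  have h2 := Subgroup.card_mul_index (Cfsg.pPrimeCore 2 (centralizer ({y} : Set G)))
  have h3 : Nat.card P ∣ Nat.card (centralizer ({y} : Set G)) :=
    Subgroup.card_dvd_of_le hPC
  obtain ⟨n, hn⟩ := (IsPGroup.iff_card (p := 2) (G := (P : Subgroup G))).mp P.isPGroup'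
  have hn' : Nat.card P = 2 ^ n := hn
  have hco : Nat.Coprime (Nat.card P) (Nat.card (Cfsg.pPrimeCore 2 (centralizer ({y} : Set G)))) := by
    have h5 := Cfsg.Agent.Lib.Helper81.pPrimeCore_coprime (G := centralizer ({y} : Set G)) 2
    rw [hn']
    exact Nat.Coprime.pow_left n h5.symm
  rw [← h2] at h3
  exact Nat.dvd_antisymm h1 (hco.dvd_of_dvd_mul_left h3)

end Cfsg.Agent.Lib.Helper5
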