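import Mathlib
import Cfsg.Agent.Lib.Helper4.CharDecomp
import Cfsg.Agent.Lib.Helper4.CharExp2
import Cfsg.Agent.Lib.Helper5.CharInd

set_option autoImplicit false

namespace Cfsg.Agent.Lib.Helper5

open Cfsg Cfsg.Agent.Lib.Helper4
open scoped ComplexConjugate

section Isom

variable {G : Type*} [Group G] [Fintype G]

theorem classInner_sub_left' (a b c : G → ℂ) :
    classInner (a - b) c = classInner a c - classInner b c := by
  rw [classInner_def, classInner_def, classInner_def, ← mul_sub, ← Finset.sum_sub_distrib]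
  congr 1
  apply Finset.sum_congr rfl
  intro g _
  rw [Pi.sub_apply, sub_mul]

theorem classInner_sub_right' (a b c : G → ℂ) :
    classInner a (b - c) = classInner a b - classInner a c := by
  rw [classInner_def, classInner_def, classInner_def, ← mul_sub, ← Finset.sum_sub_distrib]
  congr 1
  apply Finset.sum_congr rfl
  intro g _
  rw [Pi.sub_apply, map_sub, mul_sub]

/-- A generalized character is an integer combination of irreducible characters. -/
theorem gen_decomp [Fintype (IrrCharacter G)] (τ : G → ℂ) (hτ : IsGeneralizedCharacter G τ) :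
    ∃ c : IrrCharacter G → ℤ, τ = ∑ χ : IrrCharacter G, (c χ : ℂ) • (χ : G → ℂ) := by
  obtain ⟨χ, ψ, hχ, hψ, rfl⟩ := hτ
  obtain ⟨a, ha⟩ := exists_decomp_of_isCharacter χ hχ
  obtain ⟨b, hb⟩ := exists_decomp_of_isCharacter ψ hψ
  refine ⟨fun η => (a η : ℤ) - (b η : ℤ), ?_⟩
  rw [ha, hb, ← Finset.sum_sub_distrib]
  apply Finset.sum_congr rfl
  intro η _
  push_cast
  rw [sub_smul]

/-- The inner product of two differences of irreducible characters. -/
theorem classInner_diff (a b a' b' : IrrCharacter G) :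
    classInner ((a : G → ℂ) - (b : G → ℂ)) ((a' : G → ℂ) - (b' : G → ℂ)) =
      (if a = a' then 1 else 0) - (if a = b' then 1 else 0) - ((if b = a' then 1 else 0)
        - (if b = b' then 1 else 0)) := by
  rw [classInner_sub_left', classInner_sub_right', classInner_sub_right', classInner_irr,
    classInner_irr, classInner_irr, classInner_irr]

/-- Two differences of irreducible characters with inner product `1` share exactly one
constituent, with the same sign. -/
theorem gram_one (a b a' b' : IrrCharacter G) (hab : a ≠ b)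
    (h : classInner ((a : G → ℂ) - (b : G → ℂ)) ((a' : G → ℂ) - (b' : G → ℂ)) = 1) :
    (a = a' ∧ b ≠ b') ∨ (a ≠ a' ∧ b = b') := by
  classical
  rw [classInner_diff] at h
  by_cases h1 : a = a'
  · by_cases h2 : b = b'
    · exfalso
      have h3 : a ≠ b' := fun h3 => hab (h3.trans h2.symm)
      have h4 : b ≠ a' := fun h4 => hab (h1.trans h4.symm)
      rw [if_pos h1, if_pos h2, if_neg h3, if_neg h4] at h
      norm_num at h
    · exact Or.inl ⟨h1, h2⟩
  · by_cases h2 : b = b'
    · exact Or.inr ⟨h1, h2⟩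
    · exfalso
      rw [if_neg h1, if_neg h2] at h
      by_cases h3 : a = b'
      · by_cases h4 : b = a'
        · rw [if_pos h3, if_pos h4] at h; norm_num at h
        · rw [if_pos h3, if_neg h4] at h; norm_num at h
      · by_cases h4 : b = a'
        · rw [if_neg h3, if_pos h4] at h; norm_num at h
        · rw [if_neg h3, if_neg h4] at h; norm_num at h

/-- A generalized character of norm `2` vanishing at `1` is a difference of two distinct
irreducible characters. -/
theorem norm_two_decomp (τ : G → ℂ) (hτ : IsGeneralizedCharacter G τ)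
    (h2 : classInner τ τ = 2) (h1 : τ 1 = 0) :
    ∃ α β : IrrCharacter G, α ≠ β ∧ τ = (α : G → ℂ) - (β : G → ℂ) := by
  classical
  have := irr_finite (G := G)
  letI : Fintype (IrrCharacter G) := Fintype.ofFinite _
  obtain ⟨c, hc⟩ := gen_decomp τ hτ
  have hnorm : ∑ η : IrrCharacter G, c η ^ 2 = 2 := by
    have h3 : classInner τ τ = ∑ η : IrrCharacter G, (c η : ℂ) * conj (c η : ℂ) := by
      conv_lhs => rw [hc]
      exact classInner_sum_sum_irr _ _
    rw [h2] at h3
    have h4 : ((∑ η : IrrCharacter G, c η ^ 2 : ℤ) : ℂ) = ((2 : ℤ) : ℂ) := by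
      push_cast
      rw [h3]
      apply Finset.sum_congr rfl
      intro η _
      rw [map_intCast, pow_two]
    exact_mod_cast h4
  have hle : ∀ η : IrrCharacter G, c η ^ 2 ≤ 2 := by
    intro η
    rw [← hnorm]
    exact Finset.single_le_sum (f := fun η => c η ^ 2) (fun i _ => sq_nonneg (c i))
      (Finset.mem_univ η)
  have hval : ∀ η : IrrCharacter G, c η = 0 ∨ c η = 1 ∨ c η = -1 := by
    intro η
    have h3 := hle η
    have h4 : -1 ≤ c η := by nlinarith
    have h5 : c η ≤ 1 := by nlinarith
    interval_cases c η <;> simp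
  have hsq : ∀ η : IrrCharacter G, c η ^ 2 = if c η ≠ 0 then 1 else 0 := by
    intro η
    rcases hval η with h | h | h <;> rw [h] <;> simp
  have hcard : (Finset.univ.filter (fun η : IrrCharacter G => c η ≠ 0)).card = 2 := by
    have h3 : ∑ η : IrrCharacter G, c η ^ 2
        = ((Finset.univ.filter (fun η : IrrCharacter G => c η ≠ 0)).card : ℤ) := by
      rw [Finset.card_filter]
      push_cast
      apply Finset.sum_congr rfl
      intro η _
      rw [hsq η]
    rw [hnorm] at h3
    exact_mod_cast h3.symm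
  obtain ⟨η₁, η₂, hne, hsupp⟩ := Finset.card_eq_two.mp hcard
  have hη₁ : c η₁ ≠ 0 := by
    have : η₁ ∈ Finset.univ.filter (fun η : IrrCharacter G => c η ≠ 0) := by
      rw [hsupp]; simp
    exact (Finset.mem_filter.mp this).2
  have hη₂ : c η₂ ≠ 0 := by
    have : η₂ ∈ Finset.univ.filter (fun η : IrrCharacter G => c η ≠ 0) := by
      rw [hsupp]; simp
    exact (Finset.mem_filter.mp this).2
  have hτ2 : τ = (c η₁ : ℂ) • (η₁ : G → ℂ) + (c η₂ : ℂ) • (η₂ : G → ℂ) := by
    rw [hc]
    rw [← Finset.sum_subset (Finset.subset_univ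
      (Finset.univ.filter (fun η : IrrCharacter G => c η ≠ 0)))]
    · rw [hsupp, Finset.sum_pair hne]
    · intro η _ hη
      have : c η = 0 := by
        by_contra h
        exact hη (Finset.mem_filter.mpr ⟨Finset.mem_univ _, h⟩)
      rw [this, Int.cast_zero, zero_smul]
  obtain ⟨n₁, hn₁pos, hn₁⟩ := irr_one_nat η₁
  obtain ⟨n₂, hn₂pos, hn₂⟩ := irr_one_nat η₂
  have hdeg : c η₁ * (n₁ : ℤ) + c η₂ * (n₂ : ℤ) = 0 := by
    have h3 := congrFun hτ2 1
    rw [h1] at h3
    simp only [Pi.add_apply, Pi.smul_apply, smul_eq_mul, hn₁, hn₂] at h3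
    have h4 : ((c η₁ * (n₁ : ℤ) + c η₂ * (n₂ : ℤ) : ℤ) : ℂ) = ((0 : ℤ) : ℂ) := by
      push_cast
      exact h3.symm
    exact_mod_cast h4
  have hn₁' : (0 : ℤ) < n₁ := by exact_mod_cast hn₁pos
  have hn₂' : (0 : ℤ) < n₂ := by exact_mod_cast hn₂pos
  rcases hval η₁ with h | h | h
  · exact absurd h hη₁
  · rcases hval η₂ with h' | h' | h'
    · exact absurd h' hη₂
    · rw [h, h'] at hdeg; omega
    · refine ⟨η₁, η₂, hne, ?_⟩
      rw [hτ2, h, h']
      push_cast
      rw [one_smul, neg_smul, one_smul, sub_eq_add_neg]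
  · rcases hval η₂ with h' | h' | h'
    · exact absurd h' hη₂
    · refine ⟨η₂, η₁, hne.symm, ?_⟩
      rw [hτ2, h, h']
      push_cast
      rw [one_smul, neg_smul, one_smul, sub_eq_add_neg, add_comm]
    · rw [h, h'] at hdeg; omega

end Isom

end Cfsg.Agent.Lib.Helper5
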