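import Mathlib
import Cfsg.Agent.Lib.Helper72.JRDefs
import Cfsg.Agent.Lib.Helper82.JcOCPC

/-! Project JR (S2950, owner helper72), piece YP: `YOf M T K` is a nontrivial 2-group
(it lies in `O₂(N_G(W_K))`). -/

set_option autoImplicit false

namespace Cfsg.Agent.Lib.Helper5.JR

open Cfsg.Agent.Lib.Helper72.JR Cfsg.Agent.Lib.Helper72.JP Cfsg.Agent.Lib.Helper72.JM
  Cfsg.Agent.Lib.Helper72.JL Cfsg.Agent.Lib.Helper72.SC Cfsg.Agent.Lib.Helper78.Jc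

open scoped commutatorElement

universe u

theorem yp (hLoc : LocStmt.{u}) (hNw : NwStmt.{u}) (hSubw : SubwStmt.{u}) (hS42 : S42Stmt.{u}) :
    YpStmt.{u} := by
  intro G _ _ M T K hC hT hK hKM
  obtain ⟨hJN, hKN, hW2, hWne, _hWK⟩ := hNw G T K hK
  have hNloc : Cfsg.IsTwoLocal (Subgroup.normalizer (Cfsg.wOf K : Set G)) :=
    ⟨Cfsg.wOf K, hW2, hWne, rfl⟩
  have hNM : ¬ Subgroup.normalizer (Cfsg.wOf K : Set G) ≤ M := fun h => hKM (hKN.trans h)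
  obtain ⟨T₀, hT₀2, hT₀ne, hNT₀, _hJeq, hiff⟩ :=
    hLoc G M T hC hT (Subgroup.normalizer (Cfsg.wOf K : Set G)) hNloc hNM hJN
  have hle : YOf M T K ≤ Cfsg.pCoreOf 2 (Subgroup.normalizer (Cfsg.wOf K : Set G)) := by
    unfold YOf
    refine iSup₂_le ?_
    intro K' hK'
    obtain ⟨hK'c, _hK'M, hK'N⟩ := hK'
    have hsub : (K'.subgroupOf (Subgroup.normalizer (Cfsg.wOf K : Set G))).IsSubnormal :=
      hS42 G hC.hzn T₀ hT₀2 hT₀ne (Subgroup.normalizer (Cfsg.wOf K : Set G)) hNT₀ K'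
        ((hiff K').mpr hK'c) hK'N
    exact hSubw G K' (Subgroup.normalizer (Cfsg.wOf K : Set G)) hK'N hsub
  refine ⟨(Cfsg.Agent.Lib.Helper82.Jc.pc_pgroup
    (Subgroup.normalizer (Cfsg.wOf K : Set G))).to_le hle, ?_⟩
  intro hbot
  apply hWne
  have hKFam : K ∈ Fam M T K := ⟨hK, hKM, hKN⟩
  have hWY : Cfsg.wOf K ≤ YOf M T K := by
    unfold YOf
    exact le_biSup (fun K' => Cfsg.wOf K') hKFam
  rw [hbot] at hWY
  exact le_bot_iff.mp hWY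

end Cfsg.Agent.Lib.Helper5.JR
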