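import Cfsg.Agent.Lib.Helper22.PTDefs
import Cfsg.Agent.Lib.Helper20.Clifford
import Cfsg.Agent.Lib.Helper4.CharDecomp
import Cfsg.Agent.Lib.Helper4.CharClosure
import Cfsg.Agent.Lib.Helper35.Ind
import Cfsg.Agent.Lib.Helper68.BFPDEC
import Cfsg.Agent.Lib.Helper33.TIFour
import Cfsg.Agent.Lib.Helper83.IrrBasic

/-!
# S4705 project PT (helper22), piece RED (helper5)

`ζ` restricted to a normal subgroup `L` containing `z` is irreducible (Clifford + Sylow).
-/

set_option autoImplicit false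

namespace Cfsg.Agent.Lib.Helper5.PT

open Cfsg Cfsg.Agent.Lib.Helper22.BFD Cfsg.Agent.Lib.Helper22.PT
open scoped ComplexConjugate

universe u

variable {G : Type u} [Group G] [Fintype G]

/-- Sylow conjugacy inside `L`: `x z x⁻¹` is an `L`-conjugate of a power of `z`. -/
theorem red_sylow_conj (p : ℕ) [Fact p.Prime] (z : G) (hord : orderOf z = p)
    (hsq : ¬ p ^ 2 ∣ Nat.card G) (L : Subgroup G) [hL : L.Normal] (hzL : z ∈ L) (x : G) :
    ∃ (l : L) (k : ZMod p), k ≠ 0 ∧
      ∀ t : ZMod p, x * z ^ t.val * x⁻¹ = (l : G) * z ^ (k * t).val * (l : G)⁻¹ := by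
  have hp : p.Prime := Fact.out
  haveI : NeZero p := ⟨hp.ne_zero⟩
  set zL : L := ⟨z, hzL⟩ with hzLdef
  set y : L := ⟨x * z * x⁻¹, hL.conj_mem z hzL x⟩ with hydef
  have hoz : orderOf zL = p := by
    rw [← hord, ← Subgroup.orderOf_coe zL]
  have hoy : orderOf y = p := by
    rw [← Subgroup.orderOf_coe y]
    show orderOf (x * z * x⁻¹) = p
    rw [← hord]
    exact (MulAut.conj x).orderOf_eq z
  have hfac : (Nat.card L).factorization p = 1 := by
    have hne : Nat.card L ≠ 0 := Nat.card_pos.ne'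
    have h1 : p ^ 1 ∣ Nat.card L := by
      rw [pow_one, ← hoz]; exact orderOf_dvd_natCard zL
    have h2 : ¬ p ^ 2 ∣ Nat.card L :=
      fun h => hsq (h.trans (Subgroup.card_subgroup_dvd_card L))
    have h1' := (hp.pow_dvd_iff_le_factorization hne).mp h1
    have h2' : ¬ 2 ≤ (Nat.card L).factorization p :=
      fun h => h2 ((hp.pow_dvd_iff_le_factorization hne).mpr h)
    omega
  let P : Sylow p L := Sylow.ofCard (Subgroup.zpowers zL)
    (by rw [Nat.card_zpowers, hoz, hfac, pow_one])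
  let Q : Sylow p L := Sylow.ofCard (Subgroup.zpowers y)
    (by rw [Nat.card_zpowers, hoy, hfac, pow_one])
  obtain ⟨l, hl⟩ := MulAction.exists_smul_eq L P Q
  have hyQ : y ∈ (Q : Subgroup L) := Subgroup.mem_zpowers y
  rw [← hl, Sylow.coe_subgroup_smul, Subgroup.mem_smul_pointwise_iff_exists] at hyQ
  obtain ⟨s, hs, hsy⟩ := hyQ
  have hs' : s ∈ Subgroup.zpowers zL := hs
  rw [Subgroup.mem_zpowers_iff] at hs'
  obtain ⟨j, hj⟩ := hs'
  have hy' : x * z * x⁻¹ = (l : G) * z ^ j * (l : G)⁻¹ := by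
    have h1 : (l * s * l⁻¹ : L) = y := hsy
    have h2 := congrArg (Subtype.val) h1
    rw [← hj] at h2
    simpa using h2.symm
  refine ⟨l, (j : ZMod p), ?_, ?_⟩
  · intro hj0
    have hdvd : (p : ℤ) ∣ j := (ZMod.intCast_zmod_eq_zero_iff_dvd j p).mp hj0
    have hz1 : z ^ j = 1 := by
      rw [← hord] at hdvd
      exact orderOf_dvd_iff_zpow_eq_one.mp hdvd
    rw [hz1, mul_one, mul_inv_cancel] at hy'
    have hz : z = 1 := by
      have h3 : x * z = x := by
        have := congrArg (· * x) hy'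
        simpa using this
      exact mul_eq_left.mp h3
    rw [hz, orderOf_one] at hord
    exact hp.one_lt.ne hord
  · intro t
    have h1 : x * z ^ t.val * x⁻¹ = (x * z * x⁻¹) ^ t.val := (conj_pow).symm
    rw [h1, hy', conj_pow]
    congr 2
    rw [← zpow_natCast, ← zpow_mul, ← zpow_natCast z (((j : ZMod p) * t).val)]
    rw [zpow_eq_zpow_iff_modEq, hord]
    rw [← ZMod.intCast_eq_intCast_iff]
    push_cast
    rw [ZMod.natCast_zmod_val, ZMod.natCast_zmod_val]

/-- The sum of a class function of `L` over the powers of `z` is invariant under `G`-conjugation. -/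
theorem red_sum_conj (p : ℕ) [Fact p.Prime] (z : G) (hord : orderOf z = p)
    (hsq : ¬ p ^ 2 ∣ Nat.card G) (L : Subgroup G) [hL : L.Normal] (hzL : z ∈ L)
    (θ : L → ℂ) (hθ : IsClassFunction L θ) (x : G) :
    ∑ t : ZMod p, Helper20.conjFun L θ x (⟨z, hzL⟩ ^ t.val) = ∑ t : ZMod p, θ (⟨z, hzL⟩ ^ t.val) := by
  have hp : p.Prime := Fact.out
  haveI : NeZero p := ⟨hp.ne_zero⟩
  obtain ⟨l, k, hk, hlk⟩ := red_sylow_conj p z hord hsq L hzL x
  have h1 : ∀ t : ZMod p, Helper20.conjFun L θ x (⟨z, hzL⟩ ^ t.val) =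
      θ ((⟨z, hzL⟩ : L) ^ (k * t).val) := by
    intro t
    rw [Helper20.conjFun_apply]
    have h2 : (⟨x * ((⟨z, hzL⟩ : L) ^ t.val : L) * x⁻¹,
        hL.conj_mem _ ((⟨z, hzL⟩ : L) ^ t.val : L).2 x⟩ : L) =
        l * (⟨z, hzL⟩ : L) ^ (k * t).val * l⁻¹ := by
      apply Subtype.ext
      simp only [Subgroup.coe_mul, Subgroup.coe_pow, Subgroup.coe_inv]
      exact hlk t
    rw [h2]
    exact hθ _ l
  rw [Finset.sum_congr rfl (fun t _ => h1 t)]
  exact Equiv.sum_comp (Equiv.mulLeft₀ k hk) (fun t => θ ((⟨z, hzL⟩ : L) ^ t.val))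

/-- The sum of a character over a cyclic group of order `p` is a multiple of `p`. -/
theorem red_sum_nat {H : Type u} [Group H] [Fintype H] (p : ℕ) [Fact p.Prime] (θ : H → ℂ)
    (hθ : IsCharacter H θ) (y : H) (hy : y ^ p = 1) :
    ∃ n : ℕ, ∑ t : ZMod p, θ (y ^ t.val) = (p : ℂ) * (n : ℂ) := by
  have hp : p.Prime := Fact.out
  haveI : NeZero p := ⟨hp.ne_zero⟩
  have hw : IsPrimitiveRoot (Complex.exp (2 * Real.pi * Complex.I / p)) p :=
    Complex.isPrimitiveRoot_exp p hp.ne_zero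
  obtain ⟨a, ha⟩ := Helper68.BFT.pdec p _ hw θ hθ y hy
  refine ⟨a 0, ?_⟩
  rw [Finset.sum_congr rfl (fun t _ => ha t), Finset.sum_comm]
  have h1 : ∀ u : ZMod p, ∑ t : ZMod p, (a u : ℂ) * Complex.exp (2 * Real.pi * Complex.I / p) ^ (u * t).val
      = (a u : ℂ) * (if u = 0 then (p : ℂ) else 0) := by
    intro u
    rw [← Finset.mul_sum, Helper33.TI.sum_pow_val p _ hw u]
  rw [Finset.sum_congr rfl (fun u _ => h1 u)]
  simp [mul_comm]

/-- the inertia group of a function on a normal subgroup -/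
def red_inertia (L : Subgroup G) [hL : L.Normal] (θ : L → ℂ) : Subgroup G where
  carrier := {g | Helper20.conjFun L θ g = θ}
  mul_mem' := by
    intro a b ha hb
    show Helper20.conjFun L θ (a * b) = θ
    have ha' : Helper20.conjFun L θ a = θ := ha
    have hb' : Helper20.conjFun L θ b = θ := hb
    rw [← Helper20.conjFun_conjFun, ha', hb']
  one_mem' := Helper20.conjFun_one L θ
  inv_mem' := by
    intro a ha
    show Helper20.conjFun L θ a⁻¹ = θ
    have ha' : Helper20.conjFun L θ a = θ := ha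
    have h : Helper20.conjFun L (Helper20.conjFun L θ a) a⁻¹ = θ := by
      rw [Helper20.conjFun_conjFun, mul_inv_cancel, Helper20.conjFun_one]
    rwa [ha'] at h

/-- PIECE RED -/
theorem red (p : ℕ) [Fact p.Prime] (z : G) (ζ : G → ℂ) (h : Hyp G p z ζ)
    (hfix : ∑ t : ZMod p, ζ (z ^ t.val) = (p : ℂ)) (L : Subgroup G) [L.Normal] (hzL : z ∈ L) :
    IsIrrCharacter L (fun l : L => ζ l) := by
  classical
  have hp : p.Prime := Fact.out
  haveI : NeZero p := ⟨hp.ne_zero⟩
  haveI : Fintype L := Fintype.ofFinite L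
  have hfinI := Helper4.irr_finite (G := L)
  let _ : Fintype (IrrCharacter L) := Fintype.ofFinite _
  have hchar : IsCharacter L (fun l : L => ζ l) :=
    Helper4.isCharacter_restrict L ζ (Helper35.isChar_of_irr h.irr)
  obtain ⟨m, hm⟩ := Helper4.exists_decomp_of_isCharacter (fun l : L => ζ l) hchar
  -- some constituent
  have hex : ∃ θ : IrrCharacter L, m θ ≠ 0 := by
    by_contra hcon
    push Not at hcon
    have h0 : (fun l : L => ζ l) 1 = 0 := by
      rw [hm]; simp [hcon]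
    have h1 : ζ 1 = 0 := h0
    rw [h.deg] at h1
    have h2 : (p : ℂ) = 2 := by linear_combination h1
    have h3 : p = 2 := by exact_mod_cast h2
    have := h.p5
    omega
  obtain ⟨θ, hθ⟩ := hex
  have he : classInner (fun l : L => ζ l) (θ : L → ℂ) = (m θ : ℂ) := by
    rw [hm]; exact Helper4.classInner_sum_irr (fun χ => (m χ : ℂ)) θ
  have hcon : classInner (fun l : L => ζ l) (θ : L → ℂ) ≠ 0 := by
    rw [he]; exact_mod_cast hθ
  have hθirr : IsIrrCharacter L (θ : L → ℂ) := θ.2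
  have hθcf : IsClassFunction L (θ : L → ℂ) := fun g x => Helper83.irr_classFunction hθirr g x
  set T : Subgroup G := red_inertia L (θ : L → ℂ) with hT
  have hTmem : ∀ g : G, g ∈ T ↔ Helper20.conjFun L (θ : L → ℂ) g = θ := fun g => Iff.rfl
  have hres := Helper20.clifford_res L hθirr h.irr hcon T hTmem
  -- the sum over the powers of z
  have hzp : (⟨z, hzL⟩ : L) ^ p = 1 := by
    apply Subtype.ext
    simp only [Subgroup.coe_pow, Subgroup.coe_one]
    rw [← h.ord]; exact pow_orderOf_eq_one z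
  obtain ⟨n, hn⟩ := red_sum_nat p (θ : L → ℂ) (Helper35.isChar_of_irr hθirr) ⟨z, hzL⟩ hzp
  have hsum : ∑ t : ZMod p, ζ (z ^ t.val) = (m θ : ℂ) / (Nat.card T : ℂ) *
      ((Nat.card G : ℂ) * ((p : ℂ) * (n : ℂ))) := by
    have h1 : ∀ t : ZMod p, ζ (z ^ t.val) = (m θ : ℂ) / (Nat.card T : ℂ) *
        ∑ x : G, Helper20.conjFun L (θ : L → ℂ) x ((⟨z, hzL⟩ : L) ^ t.val) := by
      intro t
      have := hres ((⟨z, hzL⟩ : L) ^ t.val)
      rw [he] at this
      simpa using this
    rw [Finset.sum_congr rfl (fun t _ => h1 t), ← Finset.mul_sum, Finset.sum_comm]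
    congr 1
    rw [Finset.sum_congr rfl (fun x _ => red_sum_conj p z h.ord h.sq L hzL (θ : L → ℂ) hθcf x)]
    rw [Finset.sum_const, Finset.card_univ, nsmul_eq_mul, hn, Nat.card_eq_fintype_card]
  rw [hfix] at hsum
  -- arithmetic: m θ * |G| * n = |T|
  have hTpos : 0 < Nat.card T := Nat.card_pos
  have hTne : (Nat.card T : ℂ) ≠ 0 := by exact_mod_cast hTpos.ne'
  have hpne : (p : ℂ) ≠ 0 := by exact_mod_cast hp.ne_zero
  have harith : m θ * Nat.card G * n = Nat.card T := by
    have h1 : (p : ℂ) * (Nat.card T : ℂ) = (p : ℂ) * ((m θ : ℂ) * (Nat.card G : ℂ) * (n : ℂ)) := by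
      calc (p : ℂ) * (Nat.card T : ℂ)
          = ((m θ : ℂ) / (Nat.card T : ℂ) * ((Nat.card G : ℂ) * ((p : ℂ) * (n : ℂ)))) *
            (Nat.card T : ℂ) := by rw [← hsum]
        _ = (p : ℂ) * ((m θ : ℂ) * (Nat.card G : ℂ) * (n : ℂ)) := by field_simp
    have h2 := mul_left_cancel₀ hpne h1
    exact_mod_cast h2.symm
  have hTle : Nat.card T ≤ Nat.card G := Subgroup.card_le_card_group T
  have hn1 : n ≠ 0 := by
    rintro rfl
    rw [mul_zero] at harith
    omega
  have hm1 : m θ = 1 := by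
    by_contra hne
    have h2 : 2 ≤ m θ := by omega
    have h3 : 2 * Nat.card G * 1 ≤ m θ * Nat.card G * n :=
      Nat.mul_le_mul (Nat.mul_le_mul h2 le_rfl) (by omega)
    have hGpos : 0 < Nat.card G := Nat.card_pos
    omega
  have hTG : Nat.card T = Nat.card G := by
    rw [hm1, one_mul] at harith
    have h3 : Nat.card G * 1 ≤ Nat.card G * n := Nat.mul_le_mul le_rfl (by omega)
    omega
  have hTtop : T = ⊤ := Subgroup.card_eq_iff_eq_top T |>.mp hTG
  -- conclusion
  have hfinal : (fun l : L => ζ l) = (θ : L → ℂ) := by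
    funext l
    have h1 := hres l
    rw [he, hm1, hTG] at h1
    have h2 : ∀ x : G, Helper20.conjFun L (θ : L → ℂ) x l = (θ : L → ℂ) l := by
      intro x
      have hx : x ∈ T := by rw [hTtop]; exact Subgroup.mem_top x
      rw [(hTmem x).mp hx]
    rw [Finset.sum_congr rfl (fun x _ => h2 x), Finset.sum_const, Finset.card_univ,
      nsmul_eq_mul, ← Nat.card_eq_fintype_card] at h1
    have hGne : (Nat.card G : ℂ) ≠ 0 := by exact_mod_cast (Nat.card_pos (α := G)).ne'
    rw [h1]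
    push_cast
    field_simp
  rw [hfinal]
  exact hθirr

end Cfsg.Agent.Lib.Helper5.PT
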