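import Mathlib

set_option autoImplicit false

namespace Cfsg.Agent.Lib.Helper5

open Polynomial

section

variable {V : Type*} [AddCommGroup V] [Module ℂ V]

/-- A non-scalar operator of finite order on a complex vector space has two eigenvectors with
distinct eigenvalues. -/
theorem pd_two_eigen [FiniteDimensional ℂ V] (T : V →ₗ[ℂ] V) (m : ℕ) (hm : 0 < m) (hT : T ^ m = 1)
    (hns : ¬ ∃ c : ℂ, ∀ v, T v = c • v) :
    ∃ (a b : ℂ) (v w : V), a ≠ b ∧ v ≠ 0 ∧ w ≠ 0 ∧ T v = a • v ∧ T w = b • w := by
  have hnt : Nontrivial V := by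
    by_contra hV
    rw [not_nontrivial_iff_subsingleton] at hV
    exact hns ⟨0, fun v => Subsingleton.elim _ _⟩
  have hdvd : minpoly ℂ T ∣ (X ^ m - C (1 : ℂ)) := by
    apply minpoly.dvd
    simp [hT]
  have hsep : (X ^ m - C (1 : ℂ)).Separable :=
    separable_X_pow_sub_C (1 : ℂ) (by exact_mod_cast hm.ne') one_ne_zero
  have hsep' : (minpoly ℂ T).Separable := hsep.of_dvd hdvd
  have hnd : (minpoly ℂ T).roots.Nodup := nodup_roots hsep'
  have hsplit : (minpoly ℂ T).Splits := IsAlgClosed.splits _
  have hcard : (minpoly ℂ T).roots.card = (minpoly ℂ T).natDegree :=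
    splits_iff_card_roots.mp hsplit
  have hint : IsIntegral ℂ T := Algebra.IsIntegral.isIntegral T
  have hmonic : (minpoly ℂ T).Monic := minpoly.monic hint
  have hdeg : 2 ≤ (minpoly ℂ T).natDegree := by
    by_contra hlt
    have h1 : (minpoly ℂ T).natDegree = 1 := by
      have := minpoly.natDegree_pos hint
      omega
    apply hns
    have h2 := hmonic.eq_X_add_C h1
    refine ⟨-(minpoly ℂ T).coeff 0, fun v => ?_⟩
    have h3 := minpoly.aeval ℂ T
    rw [h2] at h3
    simp only [map_add, aeval_X, aeval_C] at h3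
    have h4 := congrArg (fun f : V →ₗ[ℂ] V => f v) h3
    simp only [LinearMap.add_apply, LinearMap.zero_apply, Module.algebraMap_end_apply] at h4
    rw [neg_smul]
    exact eq_neg_of_add_eq_zero_left h4
  have hfc : 1 < (minpoly ℂ T).roots.toFinset.card := by
    rw [Multiset.toFinset_card_of_nodup hnd, hcard]
    omega
  obtain ⟨a, ha, b, hb, hab⟩ := Finset.one_lt_card.mp hfc
  rw [Multiset.mem_toFinset, mem_roots hmonic.ne_zero] at ha hb
  have hea : Module.End.HasEigenvalue T a := Module.End.hasEigenvalue_iff_isRoot.mpr ha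
  have heb : Module.End.HasEigenvalue T b := Module.End.hasEigenvalue_iff_isRoot.mpr hb
  obtain ⟨v, hv⟩ := hea.exists_hasEigenvector
  obtain ⟨w, hw⟩ := heb.exists_hasEigenvector
  exact ⟨a, b, v, w, hab, hv.2, hw.2, hv.apply_eq_smul, hw.apply_eq_smul⟩

/-- In dimension two, an operator with two eigenvectors for distinct eigenvalues has no other
eigenlines. -/
theorem pd_eigen_dichotomy (hdim : Module.finrank ℂ V = 2) (T : V →ₗ[ℂ] V) {a b : ℂ} {v w : V}
    (hab : a ≠ b) (hv : v ≠ 0) (hw : w ≠ 0) (hTv : T v = a • v) (hTw : T w = b • w)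
    (u : V) (c : ℂ) (hu : T u = c • u) :
    (∃ d : ℂ, u = d • v) ∨ (∃ d : ℂ, u = d • w) := by
  have hli : LinearIndependent ℂ ![v, w] := by
    rw [LinearIndependent.pair_iff' hv]
    intro d hd
    have h1 : T w = a • w := by rw [← hd, map_smul, hTv, smul_comm]
    rw [hTw] at h1
    have h2 : (b - a) • w = 0 := by rw [sub_smul, h1, sub_self]
    rcases smul_eq_zero.mp h2 with h3 | h3
    · exact hab (sub_eq_zero.mp h3).symm
    · exact hw h3
  let B := basisOfLinearIndependentOfCardEqFinrank hli (by simp [hdim])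
  have hB0 : B 0 = v := by simp [B]
  have hB1 : B 1 = w := by simp [B]
  have hrep : u = B.repr u 0 • v + B.repr u 1 • w := by
    have := B.sum_repr u
    rw [Fin.sum_univ_two, hB0, hB1] at this
    exact this.symm
  set x := B.repr u 0
  set y := B.repr u 1
  have h1 : (x * (a - c)) • v + (y * (b - c)) • w = 0 := by
    have h2 : T u = c • u := hu
    rw [hrep, map_add, map_smul, map_smul, hTv, hTw, smul_add, smul_smul, smul_smul, smul_smul,
      smul_smul] at h2
    have h3 : (x * (a - c)) • v + (y * (b - c)) • w =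
        (x * a) • v + (y * b) • w - ((c * x) • v + (c * y) • w) := by
      rw [mul_sub, mul_sub, sub_smul, sub_smul, mul_comm x c, mul_comm y c]
      abel
    rw [h3, h2, sub_self]
  obtain ⟨h4, h5⟩ := (LinearIndependent.pair_iff.mp hli) _ _ h1
  by_cases hx : x = 0
  · right
    exact ⟨y, by rw [hrep, hx, zero_smul, zero_add]⟩
  · left
    have hac : a = c := by
      rcases mul_eq_zero.mp h4 with h | h
      · exact absurd h hx
      · exact sub_eq_zero.mp h
    have hy : y = 0 := by
      rcases mul_eq_zero.mp h5 with h | h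
      · exact h
      · exact absurd (hac.trans (sub_eq_zero.mp h).symm) hab
    exact ⟨x, by rw [hrep, hy, zero_smul, add_zero]⟩

end

end Cfsg.Agent.Lib.Helper5
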