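import Mathlib

set_option autoImplicit false

namespace Cfsg.Agent.Lib.Helper5

theorem pd_arith1 (N a b c : ℕ) (hN : N = 2 * a) (hb : N = 2 * b ∨ N = 3 * b) (hc : c ∣ N)
    (hb3 : 3 ≤ b) (hc3 : 3 ≤ c) (hsum : a + b + c = N + 2) :
    N = 12 ∨ N = 24 ∨ N = 60 := by
  rcases hb with hb | hb
  · omega
  · have h6 : 6 * c = N + 12 := by omega
    have h12 : c ∣ 12 := by
      have h1 : c ∣ 6 * c := Dvd.intro_left 6 rfl
      have h2 : c ∣ 6 * c - N := Nat.dvd_sub h1 hc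
      have h3 : 6 * c - N = 12 := by omega
      rwa [h3] at h2
    have hle : c ≤ 12 := Nat.le_of_dvd (by norm_num) h12
    interval_cases c <;> omega

theorem pd_arith2 (N a b c : ℕ) (hN : N = 2 * a) (hb : b ∣ N) (hc : c ∣ N)
    (hb3 : 3 ≤ b) (hc3 : 3 ≤ c) (hb2 : 2 * b ≤ N) (hc2 : 2 * c ≤ N)
    (hsum : a + b + c = N + 2) :
    N = 12 ∨ N = 24 ∨ N = 60 := by
  obtain ⟨eb, heb⟩ := hb
  obtain ⟨ec, hec⟩ := hc
  have hcases : eb ≤ 3 ∨ ec ≤ 3 := by
    by_contra hcon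
    push Not at hcon
    obtain ⟨h1, h2⟩ := hcon
    have h3 : b * 4 ≤ b * eb := Nat.mul_le_mul_left b h1
    have h4 : c * 4 ≤ c * ec := Nat.mul_le_mul_left c h2
    omega
  rcases hcases with h | h
  · have h2 : 2 ≤ eb := by
      by_contra hlt
      have h3 : b * eb ≤ b * 1 := Nat.mul_le_mul_left b (by omega)
      omega
    have hb' : N = 2 * b ∨ N = 3 * b := by
      interval_cases eb
      · left; omega
      · right; omega
    exact pd_arith1 N a b c hN hb' ⟨ec, hec⟩ hb3 hc3 hsum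
  · have h2 : 2 ≤ ec := by
      by_contra hlt
      have h3 : c * ec ≤ c * 1 := Nat.mul_le_mul_left c (by omega)
      omega
    have hc' : N = 2 * c ∨ N = 3 * c := by
      interval_cases ec
      · left; omega
      · right; omega
    exact pd_arith1 N a c b hN hc' ⟨eb, heb⟩ hc3 hb3 (by omega)

theorem pd_arith3 (N a b c : ℕ) (ha : a ∣ N) (hb : b ∣ N) (hc : c ∣ N)
    (ha3 : 3 ≤ a) (hb3 : 3 ≤ b) (hc3 : 3 ≤ c) (ha2 : 2 * a ≤ N) (hb2 : 2 * b ≤ N)
    (hc2 : 2 * c ≤ N) (hsum : a + b + c = N + 2) :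
    N = 12 ∨ N = 24 ∨ N = 60 := by
  have key : ∀ x : ℕ, x ∣ N → 3 ≤ x → 2 * x ≤ N → N = 2 * x ∨ 3 * x ≤ N := by
    intro x hx hx3 hx2
    obtain ⟨e, he⟩ := hx
    by_cases h : 3 ≤ e
    · right
      have := Nat.mul_le_mul_left x h
      omega
    · left
      have h2 : 2 ≤ e := by
        by_contra hlt
        have h3 : x * e ≤ x * 1 := Nat.mul_le_mul_left x (by omega)
        omega
      have : e = 2 := by omega
      subst this
      omega
  rcases key a ha ha3 ha2 with h1 | h1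
  · exact pd_arith2 N a b c h1 hb hc hb3 hc3 hb2 hc2 hsum
  rcases key b hb hb3 hb2 with h2 | h2
  · exact pd_arith2 N b a c h2 ha hc ha3 hc3 ha2 hc2 (by omega)
  rcases key c hc hc3 hc2 with h3 | h3
  · exact pd_arith2 N c a b h3 ha hb ha3 hb3 ha2 hb2 (by omega)
  omega

/-- The arithmetic of the pole count: if the orbit sizes `n ω` all divide `N`, are at least `3`
and at most `N / 2`, and `∑ (N - n ω) = 2 (N - 1)`, then `N` is `12`, `24` or `60`. -/
theorem pd_arith {Ω : Type*} [Fintype Ω] (N : ℕ) (n : Ω → ℕ) (hN : 1 < N)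
    (hdvd : ∀ ω, n ω ∣ N) (h3 : ∀ ω, 3 ≤ n ω) (h2 : ∀ ω, 2 * n ω ≤ N)
    (hsum : (∑ ω, n ω) + 2 * N = Fintype.card Ω * N + 2) :
    N = 12 ∨ N = 24 ∨ N = 60 := by
  have hS3 : Fintype.card Ω * 3 ≤ ∑ ω, n ω := by
    have := Finset.card_nsmul_le_sum Finset.univ n 3 (fun ω _ => h3 ω)
    simpa [Finset.card_univ] using this
  have hS2 : 2 * ∑ ω, n ω ≤ Fintype.card Ω * N := by
    rw [Finset.mul_sum]
    have := Finset.sum_le_card_nsmul Finset.univ (fun ω => 2 * n ω) N (fun ω _ => h2 ω)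
    simpa [Finset.card_univ] using this
  set S := ∑ ω, n ω with hS
  set r := Fintype.card Ω with hr
  have hr3 : r = 3 := by
    have hle : r ≤ 3 := by
      by_contra hcon
      have : 4 * N ≤ r * N := Nat.mul_le_mul_right N (by omega)
      omega
    have hge : 3 ≤ r := by
      by_contra hcon
      have h1 : r * N ≤ 2 * N := Nat.mul_le_mul_right N (by omega)
      have h4 : S ≤ 2 := by omega
      have h5 : r = 0 := by omega
      rw [h5] at hsum hS2
      omega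
    omega
  let e : Ω ≃ Fin 3 := Fintype.equivFinOfCardEq hr3
  have hS' : S = n (e.symm 0) + n (e.symm 1) + n (e.symm 2) := by
    rw [hS, ← Equiv.sum_comp e.symm n, Fin.sum_univ_three]
  rw [hr3] at hsum
  exact pd_arith3 N _ _ _ (hdvd (e.symm 0)) (hdvd (e.symm 1)) (hdvd (e.symm 2))
    (h3 _) (h3 _) (h3 _) (h2 _) (h2 _) (h2 _) (by omega)

end Cfsg.Agent.Lib.Helper5
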