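import Mathlib
import Cfsg.Agent.Lib.Helper5.PdA
import Cfsg.Agent.Lib.Helper5.PdB

set_option autoImplicit false

namespace Cfsg.Agent.Lib.Helper5

open scoped LinearAlgebra.Projectivization
open MulAction

section

variable {G : Type*} [Group G] {V : Type*} [AddCommGroup V] [Module ℂ V]
  [DistribMulAction G V] [SMulCommClass G ℂ V]

/-- A point of the projective line is fixed by `g` iff it is spanned by an eigenvector. -/
theorem pd_fix_iff (g : G) {v : V} (hv : v ≠ 0) :
    g • Projectivization.mk ℂ v hv = Projectivization.mk ℂ v hv ↔ ∃ c : ℂ, g • v = c • v := by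
  rw [Projectivization.smul_mk, Projectivization.mk_eq_mk_iff']
  constructor
  · rintro ⟨c, hc⟩
    exact ⟨c, hc.symm⟩
  · rintro ⟨c, hc⟩
    exact ⟨c, hc.symm⟩

/-- In a faithful linear action, an element acting as a scalar is central. -/
theorem pd_central_of_scalar (hfaith : ∀ g : G, (∀ v : V, g • v = v) → g = 1) (g : G) (c : ℂ)
    (hg : ∀ v : V, g • v = c • v) : g ∈ Subgroup.center G := by
  rw [Subgroup.mem_center_iff]
  intro h
  have h1 : (g * h)⁻¹ * (h * g) = 1 := by
    apply hfaith
    intro v
    have h2 : (h * g) • v = (g * h) • v := by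
      rw [mul_smul, mul_smul, hg v, hg (h • v), smul_comm]
    rw [mul_smul, h2, inv_smul_smul]
  exact (inv_mul_eq_one.mp h1).symm

/-- A non-central element of a finite group acting faithfully and linearly on a plane fixes
exactly two points of the projective line. -/
theorem pd_fix_two [Finite G] [FiniteDimensional ℂ V] (hdim : Module.finrank ℂ V = 2)
    (hfaith : ∀ g : G, (∀ v : V, g • v = v) → g = 1) (g : G) (hg : g ∉ Subgroup.center G) :
    ∃ x y : ℙ ℂ V, x ≠ y ∧ ∀ z : ℙ ℂ V, g • z = z ↔ (z = x ∨ z = y) := by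
  set T : V →ₗ[ℂ] V := DistribMulAction.toLinearMap ℂ V g with hTdef
  have hTapp : ∀ v, T v = g • v := fun v => rfl
  have hpow : ∀ k : ℕ, ∀ v, (T ^ k) v = g ^ k • v := by
    intro k
    induction k with
    | zero => intro v; simp
    | succ k ih =>
      intro v
      rw [pow_succ, Module.End.mul_apply, hTapp, ih, pow_succ, mul_smul]
  have hT : T ^ orderOf g = 1 := by
    ext v
    rw [hpow, pow_orderOf_eq_one, one_smul]
    rfl
  have hns : ¬ ∃ c : ℂ, ∀ v, T v = c • v := by
    rintro ⟨c, hc⟩
    exact hg (pd_central_of_scalar hfaith g c hc)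
  obtain ⟨a, b, v, w, hab, hv, hw, hTv, hTw⟩ :=
    pd_two_eigen T (orderOf g) (orderOf_pos g) hT hns
  refine ⟨Projectivization.mk ℂ v hv, Projectivization.mk ℂ w hw, ?_, ?_⟩
  · intro heq
    rw [Projectivization.mk_eq_mk_iff'] at heq
    obtain ⟨d, hd⟩ := heq
    have h1 : a • v = b • v := by
      rw [← hTv, ← hd, map_smul, hTw, smul_comm]
    have h2 : (a - b) • v = 0 := by rw [sub_smul, h1, sub_self]
    rcases smul_eq_zero.mp h2 with h3 | h3
    · exact hab (sub_eq_zero.mp h3)
    · exact hv h3
  · intro z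
    induction z using Projectivization.ind with
    | h u hu =>
      rw [pd_fix_iff g hu]
      constructor
      · rintro ⟨c, hc⟩
        rcases pd_eigen_dichotomy hdim T hab hv hw hTv hTw u c hc with ⟨d, hd⟩ | ⟨d, hd⟩
        · left
          rw [Projectivization.mk_eq_mk_iff']
          exact ⟨d, hd.symm⟩
        · right
          rw [Projectivization.mk_eq_mk_iff']
          exact ⟨d, hd.symm⟩
      · rintro (h | h)
        · rw [Projectivization.mk_eq_mk_iff'] at h
          obtain ⟨d, hd⟩ := h
          refine ⟨a, ?_⟩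
          rw [← hd, ← hTapp, map_smul, hTv, smul_comm]
        · rw [Projectivization.mk_eq_mk_iff'] at h
          obtain ⟨d, hd⟩ := h
          refine ⟨b, ?_⟩
          rw [← hd, ← hTapp, map_smul, hTw, smul_comm]

end

end Cfsg.Agent.Lib.Helper5
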