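import Mathlib
import Cfsg.Agent.Lib.Helper5.PdC

set_option autoImplicit false

namespace Cfsg.Agent.Lib.Helper5

open scoped LinearAlgebra.Projectivization
open MulAction

section

variable {G : Type*} [Group G] {V : Type*} [AddCommGroup V] [Module ℂ V]
  [DistribMulAction G V] [SMulCommClass G ℂ V]

/-- The pole count: a finite group acting faithfully and linearly on a complex plane, with the
centre acting by scalars, and such that no point of the projective line has a stabilizer of
index `1` or `2`, has centre of index `12`, `24` or `60`. -/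
theorem pd_pole_count [Fintype G] [FiniteDimensional ℂ V] (hdim : Module.finrank ℂ V = 2)
    (hfaith : ∀ g : G, (∀ v : V, g • v = v) → g = 1)
    (hcent : ∀ g : G, g ∈ Subgroup.center G → ∃ c : ℂ, ∀ v : V, g • v = c • v)
    (hirr : ∀ x : ℙ ℂ V, stabilizer G x ≠ ⊤)
    (hprim : ∀ x : ℙ ℂ V, (stabilizer G x).index ≠ 2) :
    (Subgroup.center G).index = 12 ∨ (Subgroup.center G).index = 24 ∨
      (Subgroup.center G).index = 60 := by
  classical
  have hZfix : ∀ g ∈ Subgroup.center G, ∀ x : ℙ ℂ V, g • x = x := by
    intro g hg x
    obtain ⟨c, hc⟩ := hcent g hg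
    induction x using Projectivization.ind with
    | h u hu =>
      rw [pd_fix_iff g hu]
      exact ⟨c, hc u⟩
  let P : SubMulAction G (ℙ ℂ V) :=
    { carrier := {x | ∃ g : G, g ∉ Subgroup.center G ∧ g • x = x}
      smul_mem' := by
        rintro h x ⟨g, hg, hgx⟩
        refine ⟨h * g * h⁻¹, ?_, ?_⟩
        · intro hc
          apply hg
          have h1 := (inferInstance : (Subgroup.center G).Normal).conj_mem _ hc h⁻¹
          simpa [mul_assoc] using h1
        · rw [mul_smul, mul_smul, inv_smul_smul, hgx] }
  have hPmem : ∀ x : ℙ ℂ V, x ∈ P ↔ ∃ g : G, g ∉ Subgroup.center G ∧ g • x = x :=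
    fun x => Iff.rfl
  have hPfin : Finite P := by
    have hsub : {x : ℙ ℂ V | x ∈ P} ⊆
        ⋃ g ∈ {g : G | g ∉ Subgroup.center G}, {x : ℙ ℂ V | g • x = x} := by
      intro x hx
      obtain ⟨g, hg, hgx⟩ := (hPmem x).mp hx
      exact Set.mem_biUnion (show g ∈ {g : G | g ∉ Subgroup.center G} from hg) hgx
    have hfin : {x : ℙ ℂ V | x ∈ P}.Finite := by
      refine Set.Finite.subset (Set.Finite.biUnion (Set.toFinite _) ?_) hsub
      intro g hg
      obtain ⟨x, y, -, hxy⟩ := pd_fix_two hdim hfaith g hg
      have : {z : ℙ ℂ V | g • z = z} = {x, y} := by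
        ext z
        simp only [Set.mem_setOf_eq, Set.mem_insert_iff, Set.mem_singleton_iff]
        exact hxy z
      rw [this]
      exact Set.toFinite _
    exact Set.finite_coe_iff.mpr hfin
  letI : Fintype P := Fintype.ofFinite P
  -- Burnside
  have hB := MulAction.sum_card_fixedBy_eq_card_orbits_mul_card_group G P
  have hfix : ∀ g : G, Fintype.card (fixedBy P g) =
      if g ∈ Subgroup.center G then Fintype.card P else 2 := by
    intro g
    split_ifs with hg
    · rw [Fintype.card_eq_nat_card, Fintype.card_eq_nat_card]
      exact Nat.card_congr (Equiv.subtypeUnivEquiv (fun x : P => by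
        rw [mem_fixedBy]
        exact Subtype.ext (hZfix g hg x.1)))
    · obtain ⟨x, y, hne, hxy⟩ := pd_fix_two hdim hfaith g hg
      have hx : x ∈ P := (hPmem x).mpr ⟨g, hg, (hxy x).mpr (Or.inl rfl)⟩
      have hy : y ∈ P := (hPmem y).mpr ⟨g, hg, (hxy y).mpr (Or.inr rfl)⟩
      have hset : fixedBy P g = {(⟨x, hx⟩ : P), ⟨y, hy⟩} := by
        ext z
        simp only [mem_fixedBy, Set.mem_insert_iff, Set.mem_singleton_iff]
        rw [Subtype.ext_iff, Subtype.ext_iff, Subtype.ext_iff, SubMulAction.val_smul]
        exact hxy z.1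
      rw [Fintype.card_eq_nat_card, Nat.card_coe_set_eq, hset]
      exact Set.ncard_pair (fun h => hne (congrArg Subtype.val h))
  simp only [hfix] at hB
  rw [Finset.sum_ite, Finset.sum_const, Finset.sum_const, smul_eq_mul, smul_eq_mul] at hB
  have hcZ : (Finset.univ.filter (fun g : G => g ∈ Subgroup.center G)).card =
      Nat.card (Subgroup.center G) := by
    rw [Nat.card_eq_fintype_card, Fintype.card_subtype]
  have hcZ' : (Finset.univ.filter (fun g : G => g ∉ Subgroup.center G)).card =
      Nat.card G - Nat.card (Subgroup.center G) := by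
    have := Finset.card_filter_add_card_filter_not (s := (Finset.univ : Finset G))
      (fun g : G => g ∈ Subgroup.center G)
    rw [hcZ, Finset.card_univ, ← Nat.card_eq_fintype_card] at this
    omega
  rw [hcZ, hcZ'] at hB
  -- class formula
  have hC := MulAction.card_eq_sum_card_group_div_card_stabilizer G P
  have hterm : ∀ ω : Quotient (orbitRel G P),
      Fintype.card G / Fintype.card (stabilizer G ω.out) = (stabilizer G ω.out).index := by
    intro ω
    rw [Fintype.card_eq_nat_card, Fintype.card_eq_nat_card]
    apply Nat.div_eq_of_eq_mul_right Nat.card_pos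
    exact ((stabilizer G ω.out).card_mul_index).symm
  simp only [hterm] at hC
  -- numerical data
  set N := (Subgroup.center G).index with hN
  set z := Nat.card (Subgroup.center G) with hz
  have hzpos : 0 < z := Nat.card_pos
  have hGc : Nat.card G = z * N := ((Subgroup.center G).card_mul_index).symm
  have hNpos : 0 < N := Nat.pos_of_ne_zero Subgroup.index_ne_zero_of_finite
  have hN1 : 1 < N := by
    by_contra hcon
    have h1 : N = 1 := by omega
    have htop : Subgroup.center G = ⊤ := Subgroup.index_eq_one.mp h1
    have : Nontrivial V := Module.nontrivial_of_finrank_pos (R := ℂ) (by omega)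
    obtain ⟨v, hv⟩ := exists_ne (0 : V)
    apply hirr (Projectivization.mk ℂ v hv)
    rw [eq_top_iff]
    intro g _
    rw [mem_stabilizer_iff]
    exact hZfix g (by rw [htop]; exact Subgroup.mem_top g) _
  have hZS : ∀ x : P, Subgroup.center G ≤ stabilizer G x := by
    intro x g hg
    rw [mem_stabilizer_iff]
    exact Subtype.ext (hZfix g hg x.1)
  have hS : ∀ x : P, stabilizer G x = stabilizer G (x : ℙ ℂ V) :=
    fun x => SubMulAction.stabilizer_of_subMul x
  apply pd_arith N (fun ω : Quotient (orbitRel G P) => (stabilizer G ω.out).index) hN1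
  · intro ω
    exact Subgroup.index_dvd_of_le (hZS ω.out)
  · intro ω
    have h0 : (stabilizer G ω.out).index ≠ 0 := Subgroup.index_ne_zero_of_finite
    have h1 : (stabilizer G ω.out).index ≠ 1 := by
      rw [Ne, Subgroup.index_eq_one, hS]
      exact hirr _
    have h2 : (stabilizer G ω.out).index ≠ 2 := by
      rw [hS]
      exact hprim _
    show 3 ≤ (stabilizer G ω.out).index
    omega
  · intro ω
    have h1 := Subgroup.relIndex_mul_index (hZS ω.out)
    have h2 : 2 ≤ (Subgroup.center G).relIndex (stabilizer G ω.out) := by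
      have h0 : (Subgroup.center G).relIndex (stabilizer G ω.out) ≠ 0 :=
        Subgroup.index_ne_zero_of_finite
      have h1 : (Subgroup.center G).relIndex (stabilizer G ω.out) ≠ 1 := by
        rw [Ne, Subgroup.relIndex_eq_one]
        intro hle
        obtain ⟨g, hg, hgx⟩ := (hPmem ω.out.1).mp ω.out.2
        apply hg
        apply hle
        rw [hS, mem_stabilizer_iff]
        exact hgx
      omega
    have h3 := Nat.mul_le_mul_right (stabilizer G ω.out).index h2
    show 2 * (stabilizer G ω.out).index ≤ N
    omega
  · show (∑ ω : Quotient (orbitRel G P), (stabilizer G ω.out).index) + 2 * N =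
      Fintype.card (Quotient (orbitRel G P)) * N + 2
    rw [← hC]
    rw [← Nat.card_eq_fintype_card (α := G), hGc] at hB
    set S := Fintype.card P with hSdef
    set r := Fintype.card (Quotient (orbitRel G P)) with hr
    have e2 : z ≤ z * N := Nat.le_mul_of_pos_right z hNpos
    have e3 : z * (S + 2 * N) = z * (r * N + 2) := by
      have e4 : z * (S + 2 * N) = z * S + 2 * (z * N) := by ring
      have e5 : z * (r * N + 2) = r * (z * N) + 2 * z := by ring
      have e6 : 2 * (z * N - z) = (z * N - z) * 2 := by ring
      have e7 : z * S = z * S := rfl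
      omega
    exact Nat.eq_of_mul_eq_mul_left hzpos e3

end

end Cfsg.Agent.Lib.Helper5
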