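import Mathlib
import Cfsg.Prelude.Def_Characters
import Cfsg.Agent.Lib.Helper4.CharLinear
import Cfsg.Agent.Lib.Helper4.CharClosure
import Cfsg.Agent.Lib.Helper46.Ind

set_option autoImplicit false

namespace Cfsg.Agent.Lib.Helper5

open Cfsg

section

variable {G : Type*} [Group G] [Fintype G] {V : Type*} [AddCommGroup V] [Module ℂ V]
  [FiniteDimensional ℂ V]

/-- A two-dimensional representation with a line whose stabilizer has index two is induced from
a linear character of that stabilizer. -/
theorem pd_index_two_induced (ρ : Representation ℂ G V)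
    (hdim : Module.finrank ℂ V = 2) (H : Subgroup G) (hH : H.index = 2) (u : V) (hu : u ≠ 0)
    (hHu : ∀ g : G, g ∈ H ↔ ∃ c : ℂ, ρ g u = c • u) :
    ∃ θ : H → ℂ, IsCharacter H θ ∧ ρ.character = indFun H θ := by
  classical
  have hex : ∀ h : H, ∃ c : ℂ, ρ (h : G) u = c • u := fun h => (hHu h).mp h.2
  choose θ hθ using hex
  have hinj : Function.Injective (fun c : ℂ => c • u) := smul_left_injective ℂ hu
  have hθ1 : θ 1 = 1 := by
    apply hinj
    show θ 1 • u = (1 : ℂ) • u
    rw [← hθ, one_smul]
    simp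
  have hθmul : ∀ h k : H, θ (h * k) = θ h * θ k := by
    intro h k
    apply hinj
    show θ (h * k) • u = (θ h * θ k) • u
    rw [← hθ, Subgroup.coe_mul, map_mul, Module.End.mul_apply, hθ k, map_smul, hθ h, smul_smul,
      mul_comm]
  let θ₀ : H →* ℂ := { toFun := θ, map_one' := hθ1, map_mul' := hθmul }
  have hchar : IsCharacter H θ := by
    have h1 := Helper4.isCharacter_of_irr ⟨_, Helper4.isIrrCharacter_lin θ₀.toHomUnits⟩
    exact h1
  have hcf : IsClassFunction H θ := by
    intro g h
    rw [hθmul, hθmul, mul_comm (θ h), mul_assoc, ← hθmul, mul_inv_cancel, hθ1, mul_one]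
  have hnorm : H.Normal := Subgroup.normal_of_index_eq_two hH
  obtain ⟨s, hs⟩ : ∃ s : G, s ∉ H := by
    by_contra hcon
    push Not at hcon
    have : H = ⊤ := (Subgroup.eq_top_iff' H).mpr hcon
    rw [this, Subgroup.index_top] at hH
    omega
  have hmem2 : ∀ a b : G, a ∉ H → b ∉ H → a * b ∈ H := fun a b ha hb =>
    (Subgroup.mul_mem_iff_of_index_two hH).mpr ⟨fun h => absurd h ha, fun h => absurd h hb⟩
  have hsinv : s⁻¹ ∉ H := fun h => hs (by simpa using H.inv_mem h)
  set w := ρ s u with hw
  have hli : LinearIndependent ℂ ![u, w] := by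
    rw [LinearIndependent.pair_iff' hu]
    intro d hd
    exact hs ((hHu s).mpr ⟨d, hd.symm⟩)
  let B := basisOfLinearIndependentOfCardEqFinrank hli (by simp [hdim])
  have hB0 : B 0 = u := by simp [B]
  have hB1 : B 1 = w := by simp [B]
  have htr : ∀ g : G, ρ.character g = B.repr (ρ g u) 0 + B.repr (ρ g w) 1 := by
    intro g
    rw [Representation.character, LinearMap.trace_eq_matrix_trace ℂ B, Matrix.trace_fin_two,
      LinearMap.toMatrix_apply, LinearMap.toMatrix_apply, hB0, hB1]
  have hbij : Function.Bijective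
      (fun p : Fin 2 × H => (![1, s] : Fin 2 → G) p.1 * (p.2 : G)) := by
    constructor
    · rintro ⟨i, h⟩ ⟨j, k⟩ heq
      fin_cases i <;> fin_cases j
      · simp only [Fin.zero_eta, Matrix.cons_val_zero, one_mul] at heq
        rw [Subtype.ext heq]
      · exfalso
        simp only [Fin.zero_eta, Matrix.cons_val_zero, one_mul, Fin.mk_one,
          Matrix.cons_val_one] at heq
        apply hs
        have h1 : s = (h : G) * (k : G)⁻¹ := by rw [heq]; group
        rw [h1]
        exact H.mul_mem h.2 (H.inv_mem k.2)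
      · exfalso
        simp only [Fin.zero_eta, Matrix.cons_val_zero, one_mul, Fin.mk_one,
          Matrix.cons_val_one] at heq
        apply hs
        have h1 : s = (k : G) * (h : G)⁻¹ := by rw [← heq]; group
        rw [h1]
        exact H.mul_mem k.2 (H.inv_mem h.2)
      · simp only [Fin.mk_one, Matrix.cons_val_one, mul_right_inj] at heq
        rw [Subtype.ext heq]
    · intro g
      by_cases hg : g ∈ H
      · exact ⟨(0, ⟨g, hg⟩), by simp⟩
      · exact ⟨(1, ⟨s⁻¹ * g, hmem2 _ _ hsinv hg⟩), by simp⟩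
  have hind : ∀ g, indFun H θ g = extendByZero H θ g + extendByZero H θ (s⁻¹ * g * s) := by
    intro g
    rw [Helper46.indFun_eq_sum_transversal H θ hcf ![1, s] hbij g, Fin.sum_univ_two]
    simp
  refine ⟨θ, hchar, ?_⟩
  funext g
  rw [htr, hind]
  by_cases hg : g ∈ H
  · have hg' : s⁻¹ * g * s ∈ H := by
      have := hnorm.conj_mem g hg s⁻¹
      simpa using this
    rw [Helper46.extendByZero_of_mem H θ hg, Helper46.extendByZero_of_mem H θ hg']
    have e1 : ρ g u = θ ⟨g, hg⟩ • u := hθ ⟨g, hg⟩
    have e2 : ρ g w = θ ⟨_, hg'⟩ • w := by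
      have h1 : g * s = s * (s⁻¹ * g * s) := by group
      rw [hw, ← Module.End.mul_apply, ← map_mul, h1, map_mul, Module.End.mul_apply]
      have h2 := hθ ⟨_, hg'⟩
      rw [h2, map_smul]
    rw [e1, e2, map_smul, map_smul, ← hB0, ← hB1]
    simp
  · have hg' : s⁻¹ * g * s ∉ H := by
      intro h
      apply hg
      have := hnorm.conj_mem _ h s
      simpa [mul_assoc] using this
    rw [Helper46.extendByZero_of_not_mem H θ hg, Helper46.extendByZero_of_not_mem H θ hg',
      add_zero]
    have h1 : s⁻¹ * g ∈ H := hmem2 _ _ hsinv hg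
    have h2 : g * s ∈ H := hmem2 _ _ hg hs
    have e1 : ρ g u = θ ⟨_, h1⟩ • w := by
      have h3 : g = s * (s⁻¹ * g) := by group
      conv_lhs => rw [h3]
      rw [map_mul, Module.End.mul_apply]
      have h4 := hθ ⟨_, h1⟩
      rw [h4, map_smul]
    have e2 : ρ g w = θ ⟨_, h2⟩ • u := by
      rw [hw, ← Module.End.mul_apply, ← map_mul]
      exact hθ ⟨_, h2⟩
    rw [e1, e2, map_smul, map_smul, ← hB0, ← hB1]
    simp

end

end Cfsg.Agent.Lib.Helper5
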