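import Mathlib
import Cfsg.Prelude.Def_Characters
import Cfsg.Agent.Lib.Helper5.PdD
import Cfsg.Agent.Lib.Helper5.PdE
import Cfsg.Agent.Lib.Helper5.CharInt
import Cfsg.Agent.Lib.Helper82.CharCore

set_option autoImplicit false

namespace Cfsg.Agent.Lib.Helper5

open Cfsg
open scoped LinearAlgebra.Projectivization

section

variable {G : Type*} [Group G] [Fintype G] {V : Type*} [AddCommGroup V] [Module ℂ V]
  [FiniteDimensional ℂ V]

/-- A finite group with a faithful irreducible primitive complex representation of degree two
has centre of index `12`, `24` or `60`. -/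
theorem pd_rep_main (ρ : Representation ℂ G V) [ρ.IsIrreducible]
    (hdim : Module.finrank ℂ V = 2) (hfaith : ∀ g : G, ρ g = 1 → g = 1)
    (hprim : ∀ H : Subgroup G, H ≠ ⊤ → ∀ θ : H → ℂ, IsCharacter H θ →
      ρ.character ≠ indFun H θ) :
    (Subgroup.center G).index = 12 ∨ (Subgroup.center G).index = 24 ∨
      (Subgroup.center G).index = 60 := by
  letI : DistribMulAction G V := DistribMulAction.compHom V ρ
  have hsmul : ∀ (g : G) (v : V), g • v = ρ g v := fun g v => rfl
  haveI : SMulCommClass G ℂ V := ⟨fun g c v => by rw [hsmul, hsmul, map_smul]⟩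
  have hstab : ∀ (u : V) (hu : u ≠ 0) (g : G),
      g ∈ MulAction.stabilizer G (Projectivization.mk ℂ u hu) ↔ ∃ c : ℂ, ρ g u = c • u := by
    intro u hu g
    rw [MulAction.mem_stabilizer_iff, pd_fix_iff g hu]
    simp only [hsmul]
  apply pd_pole_count hdim
  · intro g hg
    apply hfaith
    ext v
    exact hg v
  · intro g hg
    obtain ⟨c, hc⟩ := Helper82.schur_scalar ρ (ρ g) (fun h => by
      rw [← map_mul, ← map_mul, Subgroup.mem_center_iff.mp hg h])
    exact ⟨c, fun v => by rw [hsmul, hc]; simp⟩
  · intro x hx
    induction x using Projectivization.ind with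
    | h u hu =>
      have hall : ∀ g : G, ∃ c : ℂ, ρ g u = c • u := fun g =>
        (hstab u hu g).mp (by rw [hx]; exact Subgroup.mem_top g)
      have hW : ∀ g : G, ∀ v ∈ Submodule.span ℂ {u}, ρ g v ∈ Submodule.span ℂ {u} := by
        intro g v hv
        rw [Submodule.mem_span_singleton] at hv ⊢
        obtain ⟨d, rfl⟩ := hv
        obtain ⟨c, hc⟩ := hall g
        exact ⟨d * c, by rw [map_smul, hc, smul_smul]⟩
      rcases irr_stable_eq_bot_or_top ρ _ hW with h | h
      · rw [Submodule.span_singleton_eq_bot] at h
        exact hu h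
      · have h3 := finrank_span_singleton (K := ℂ) hu
        rw [h, finrank_top, hdim] at h3
        omega
  · intro x hx
    induction x using Projectivization.ind with
    | h u hu =>
      obtain ⟨θ, hθ, heq⟩ := pd_index_two_induced ρ hdim _ hx u hu (hstab u hu)
      refine hprim _ ?_ θ hθ heq
      intro htop
      rw [htop, Subgroup.index_top] at hx
      omega

end

end Cfsg.Agent.Lib.Helper5
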