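import Cfsg.Agent.Lib.Helper96.PiDefs
import Cfsg.Agent.Lib.Helper96.PiGlueB
import Cfsg.Agent.Lib.Helper96.PiOmega
import Cfsg.Agent.Lib.Helper9.HeUNIPPOW

/-!
Project PI (S5989, helper96), piece X2NOFIX: an isometry `x` with `x * x = -1` has only
even-dimensional invariant nondegenerate subspaces (the form `B u (x v)` is alternating).
-/

set_option autoImplicit false
set_option linter.unusedSectionVars false
set_option linter.unusedVariables false

namespace Cfsg.Agent.Lib.Helper5.Pi

open Module Cfsg.Agent.Lib.Helper96.Sp Cfsg.Agent.Lib.Helper96.BG Cfsg.Agent.Lib.Helper96.Hy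
  Cfsg.Agent.Lib.Helper96.Pi Cfsg.Agent.Lib.Helper47

universe u

variable {F : Type u} [Field F] [Fintype F] {V : Type u} [AddCommGroup V] [Module F V]
  [FiniteDimensional F V] {B : LinearMap.BilinForm F V}

-- PIECE X2NOFIX
theorem even_of_inv_sq_neg (hS : B.IsSymm) (h2 : (2 : F) ≠ 0) (x : Module.End F V)
    (hx : Isom B x) (hx2 : x * x = -1) (W : Submodule F V) (hW : ND B W) (hWx : W.map x ≤ W) :
    Even (finrank F W) := by
  have hxx : ∀ v : V, x (x v) = -v := by
    intro v
    have h := congrArg (fun f : Module.End F V => f v) hx2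
    simpa using h
  have hA : (B.compl₂ x : LinearMap.BilinForm F V).IsAlt := by
    intro u
    show B u (x u) = 0
    have h1 : B u (x u) = B (x u) (x (x u)) := (hx u (x u)).symm
    rw [hxx, map_neg, hS.eq (x u) u] at h1
    have h3 : (2 : F) * B u (x u) = 0 := by linear_combination h1
    exact (mul_eq_zero.mp h3).resolve_left h2
  have hND : ND (B.compl₂ x : LinearMap.BilinForm F V) W := by
    intro u hu h
    apply hW u hu
    intro w hw
    have hv : -(x w) ∈ W := W.neg_mem (hWx (Submodule.mem_map_of_mem hw))
    have h4 := h (-(x w)) hv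
    rw [LinearMap.compl₂_apply, map_neg, hxx, neg_neg] at h4
    exact h4
  exact even_finrank_of_nd hA W hND

end Cfsg.Agent.Lib.Helper5.Pi
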