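import Cfsg.Agent.Lib.Helper96.PmGlue
import Cfsg.Agent.Lib.Helper42.PiEXA
import Cfsg.Agent.Lib.Helper64.PiCONA
import Cfsg.Agent.Lib.Helper87.PiUNIC
import Cfsg.Agent.Lib.Helper53.PiU3
import Cfsg.Agent.Lib.Lead.PiU1
import Cfsg.Agent.Lib.Lead.PiU2
import Cfsg.Agent.Lib.Lead.PiU4

/-!
Project PM (S5991, helper96), piece DISC: an odd-dimensional nondegenerate `X₀` with an at least
2-dimensional orthogonal complement can be enlarged by a vector `ℓ₀ ⊥ X₀` to a space of type `-1`.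
-/

set_option autoImplicit false
set_option linter.unusedSectionVars false
set_option linter.unusedVariables false

namespace Cfsg.Agent.Lib.Helper5.Pm

open Module Cfsg.Agent.Lib.Helper96.Sp Cfsg.Agent.Lib.Helper96.BG Cfsg.Agent.Lib.Helper96.Hy
  Cfsg.Agent.Lib.Helper96.Pi Cfsg.Agent.Lib.Helper47

universe u

variable {F : Type u} [Field F] [Fintype F] {V : Type u} [AddCommGroup V] [Module F V]
  [FiniteDimensional F V] {B : LinearMap.BilinForm F V}

/-- an orthogonal pair `u, ℓ` with `B u u = c₀ ≠ 0`, `B ℓ ℓ = -(c₀ * η)`, `η` a non-square: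
the plane is nondegenerate of dimension 2 and of type `-1` -/
theorem disc_helper5_plane (hS : B.IsSymm) (h2 : (2 : F) ≠ 0) (hF : Facts B) (u ℓ : V) (c₀ η : F)
    (hc₀ : c₀ ≠ 0) (hη : ¬ IsSquare η) (huu : B u u = c₀) (hll : B ℓ ℓ = -(c₀ * η))
    (hul : B u ℓ = 0) :
    ND B (Submodule.span F {u, ℓ}) ∧ Typ B (Submodule.span F {u, ℓ}) (-1) := by
  have hlu : B ℓ u = 0 := by rw [hS.eq ℓ u]; exact hul
  have hη0 : η ≠ 0 := by
    intro h
    exact hη ⟨0, by rw [h, mul_zero]⟩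
  have hc₁ : c₀ * η ≠ 0 := mul_ne_zero hc₀ hη0
  have hcoef : ∀ s t : F, (∀ w ∈ Submodule.span F {u, ℓ}, B (s • u + t • ℓ) w = 0) →
      s = 0 ∧ t = 0 := by
    intro s t h
    have h1 := h u (Submodule.subset_span (Set.mem_insert _ _))
    have h3 := h ℓ (Submodule.subset_span (Set.mem_insert_of_mem _ (Set.mem_singleton _)))
    rw [map_add, map_smul, map_smul, LinearMap.add_apply, LinearMap.smul_apply,
      LinearMap.smul_apply, hlu, huu, smul_eq_mul, smul_eq_mul, mul_zero, add_zero] at h1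
    rw [map_add, map_smul, map_smul, LinearMap.add_apply, LinearMap.smul_apply,
      LinearMap.smul_apply, hul, hll, smul_eq_mul, smul_eq_mul, mul_zero, zero_add] at h3
    exact ⟨(mul_eq_zero.mp h1).resolve_right hc₀,
      (mul_eq_zero.mp h3).resolve_right (neg_ne_zero.mpr hc₁)⟩
  have hli : LinearIndependent F ![u, ℓ] := by
    rw [LinearIndependent.pair_iff]
    intro s t hst
    apply hcoef s t
    intro w _
    rw [hst, map_zero, LinearMap.zero_apply]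
  have hPnd : ND B (Submodule.span F {u, ℓ}) := by
    intro x hx h
    obtain ⟨s, t, rfl⟩ := Submodule.mem_span_pair.mp hx
    obtain ⟨hs, ht⟩ := hcoef s t h
    rw [hs, ht, zero_smul, zero_smul, add_zero]
  have hPdim : finrank F (Submodule.span F {u, ℓ}) = 2 := by
    have h1 := finrank_span_eq_card hli
    rw [Matrix.range_cons_cons_empty] at h1
    simpa using h1
  refine ⟨hPnd, ?_⟩
  rcases hF.typ_ex _ hPnd 0 (by rw [hPdim]) with h1 | h1
  · exfalso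
    obtain ⟨-, U, hUP, hUU, hUdim⟩ := hF.hyp_of_typ _ hPnd h1
    have hpos : 0 < finrank F U := by omega
    obtain ⟨⟨w, hwU⟩, hw0⟩ := Module.finrank_pos_iff_exists_ne_zero.mp hpos
    have hw0' : w ≠ 0 := fun h => hw0 (Subtype.ext h)
    have hwP := hUP hwU
    rw [Submodule.mem_span_pair] at hwP
    obtain ⟨s, t, rfl⟩ := hwP
    have hww := hUU _ hwU _ hwU
    have hexp : B (s • u + t • ℓ) (s • u + t • ℓ) = c₀ * (s * s - η * (t * t)) := by
      simp only [map_add, map_smul, LinearMap.add_apply, LinearMap.smul_apply, smul_eq_mul]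
      linear_combination (s * t) * hul + (t * s) * hlu + (s * s) * huu + (t * t) * hll
    rw [hexp] at hww
    have hst : s * s - η * (t * t) = 0 := (mul_eq_zero.mp hww).resolve_left hc₀
    by_cases ht : t = 0
    · rw [ht, mul_zero, mul_zero, sub_zero] at hst
      have hs : s = 0 := mul_self_eq_zero.mp hst
      apply hw0'
      rw [hs, ht, zero_smul, zero_smul, add_zero]
    · apply hη
      refine ⟨s / t, ?_⟩
      rw [div_mul_div_comm, eq_div_iff (mul_ne_zero ht ht)]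
      linear_combination -hst
  · exact h1

-- PIECE DISC
theorem exists_disc (hS : B.IsSymm) (h2 : (2 : F) ≠ 0) (hN : ND B ⊤) (hF : Facts B)
    (X₀ : Submodule F V) (hX₀ : ND B X₀) (hodd : Odd (finrank F X₀))
    (hroom : 2 ≤ finrank F (B.orthogonal X₀)) :
    ∃ c₁ : F, c₁ ≠ 0 ∧ ∃ ℓ₀ ∈ B.orthogonal X₀, B ℓ₀ ℓ₀ = -c₁ ∧
      Typ B (X₀ ⊔ Submodule.span F {ℓ₀}) (-1) := by
  obtain ⟨w, hw⟩ := hodd
  obtain ⟨H', hH'X, hHyp, hH'dim⟩ := hF.hyp_sub X₀ hX₀ w (by omega)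
  have hH'nd : ND B H' := hHyp.1
  obtain ⟨hLnd, hsup, hdim⟩ := Cfsg.Agent.Lib.Helper98.O72.nd_rel hS h2 hH'nd hX₀ hH'X
  have hLdim : finrank F ↥(X₀ ⊓ B.orthogonal H') = 1 := by omega
  obtain ⟨⟨u₀, hu₀L⟩, hu₀ne, hu₀span⟩ := finrank_eq_one_iff'.mp hLdim
  have hu₀0 : u₀ ≠ 0 := fun h => hu₀ne (Subtype.ext h)
  have hLeq : X₀ ⊓ B.orthogonal H' = Submodule.span F {u₀} := by
    apply le_antisymm
    · intro x hx
      obtain ⟨c, hc⟩ := hu₀span ⟨x, hx⟩
      have hc' : c • u₀ = x := congrArg Subtype.val hc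
      rw [← hc']
      exact Submodule.smul_mem _ _ (Submodule.mem_span_singleton_self u₀)
    · rw [Submodule.span_singleton_le_iff_mem]
      exact hu₀L
  have hu₀X : u₀ ∈ X₀ := hu₀L.1
  have hu₀H : ∀ h ∈ H', B u₀ h = 0 :=
    (Cfsg.Agent.Lib.Helper98.O72.mem_perp_iff' hS h2).mp hu₀L.2
  have hc₀ : B u₀ u₀ ≠ 0 := by
    intro h0
    apply hu₀0
    apply hLnd u₀ hu₀L
    intro v hv
    rw [hLeq, Submodule.mem_span_singleton] at hv
    obtain ⟨c, rfl⟩ := hv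
    rw [map_smul, smul_eq_mul, h0, mul_zero]
  have hchar : ringChar F ≠ 2 := by
    intro hc
    apply h2
    have h3 : ((2 : ℕ) : F) = 0 := (ringChar.spec F 2).mpr (by rw [hc])
    exact_mod_cast h3
  obtain ⟨η, hη⟩ := FiniteField.exists_nonsquare hchar
  have hη0 : η ≠ 0 := by
    intro h
    exact hη ⟨0, by rw [h, mul_zero]⟩
  have hc₁ : B u₀ u₀ * η ≠ 0 := mul_ne_zero hc₀ hη0
  obtain ⟨ℓ₀, hℓ₀, hℓℓ⟩ := hF.rep (B.orthogonal X₀)
    (Cfsg.Agent.Lib.Helper98.O72.nd_perp hS h2 hN hX₀) hroom (-(B u₀ u₀ * η))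
    (neg_ne_zero.mpr hc₁)
  have hℓX : ∀ x ∈ X₀, B ℓ₀ x = 0 := (Cfsg.Agent.Lib.Helper98.O72.mem_perp_iff' hS h2).mp hℓ₀
  have hul : B u₀ ℓ₀ = 0 := by rw [hS.eq u₀ ℓ₀]; exact hℓX u₀ hu₀X
  obtain ⟨hPnd, hPtyp⟩ := disc_helper5_plane hS h2 hF u₀ ℓ₀ (B u₀ u₀) η hc₀ hη rfl hℓℓ hul
  refine ⟨B u₀ u₀ * η, hc₁, ℓ₀, hℓ₀, hℓℓ, ?_⟩
  have hXP : X₀ ⊔ Submodule.span F {ℓ₀} = H' ⊔ Submodule.span F {u₀, ℓ₀} := by
    rw [Submodule.span_insert, ← sup_assoc, ← hLeq, hsup]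
  rw [hXP]
  rcases Nat.eq_zero_or_pos w with hw0 | hwpos
  · have hH'bot : H' = ⊥ := by
      apply Submodule.finrank_eq_zero.mp
      rw [hH'dim, hw0]
    rw [hH'bot, bot_sup_eq]
    exact hPtyp
  · have hTypH : Typ B H' 1 := hF.typ_of_hyp H' hHyp (by rw [hH'dim]; omega)
    have horth : Orth B H' (Submodule.span F {u₀, ℓ₀}) := by
      intro h hh p hp
      obtain ⟨s, t, rfl⟩ := Submodule.mem_span_pair.mp hp
      have e1 : B h u₀ = 0 := by rw [hS.eq h u₀]; exact hu₀H h hh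
      have e2 : B h ℓ₀ = 0 := by rw [hS.eq h ℓ₀]; exact hℓX h (hH'X hh)
      rw [map_add, map_smul, map_smul, e1, e2, smul_zero, smul_zero, add_zero]
    have h := hF.typ_sup H' (Submodule.span F {u₀, ℓ₀}) 1 (-1) hH'nd hPnd horth hTypH hPtyp
    rw [one_mul] at h
    exact h

end Cfsg.Agent.Lib.Helper5.Pm
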