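import Mathlib
import Cfsg.Agent.S0266
import Cfsg.Agent.Lib.Helper27.PslnCard

/-!
# Piece Q3 of S0730: `S₄ ≃* PGL(2, 3)`

A subgroup of order `24` of the symmetric group on four letters is isomorphic to
`PGL(2, ZMod 3)`.
-/

set_option autoImplicit false

namespace Cfsg.Agent.Lib.Helper5.S0730Q3b

/-- `|PGL(2, 3)| = 24`. -/
theorem card_pgl_two_three : Nat.card (Matrix.ProjGenLinGroup (Fin 2) (ZMod 3)) = 24 := by
  have h := Cfsg.Agent.Lib.Helper27.PslnCard.card_pgl (F := ZMod 3) (q := 3)
    (ZMod.card 3) 2 (by norm_num)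
  rw [Fin.prod_univ_two] at h
  generalize Nat.card (Matrix.ProjGenLinGroup (Fin 2) (ZMod 3)) = N at h ⊢
  norm_num at h
  omega

/-- The projective line over `ZMod 3` has four points. -/
theorem card_proj_line_three :
    Nat.card (Projectivization (ZMod 3) (Fin 2 → ZMod 3)) = 4 := by
  rw [Projectivization.card_of_finrank_two (ZMod 3) (Fin 2 → ZMod 3) (by simp)]
  simp

/-- `PGL(2, 3)` acts faithfully on the projective line over `ZMod 3`. -/
theorem toPermHom_pgl_injective :
    Function.Injective (MulAction.toPermHom (Matrix.ProjGenLinGroup (Fin 2) (ZMod 3))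
      (Projectivization (ZMod 3) (Fin 2 → ZMod 3))) := by
  classical
  rw [injective_iff_map_eq_one]
  intro g hg
  have : Finite (Projectivization (ZMod 3) (Fin 2 → ZMod 3)) :=
    Nat.finite_of_card_ne_zero (by rw [card_proj_line_three]; norm_num)
  have : Fintype (Projectivization (ZMod 3) (Fin 2 → ZMod 3)) := Fintype.ofFinite _
  have hc : 2 < Fintype.card (Projectivization (ZMod 3) (Fin 2 → ZMod 3)) := by
    rw [← Nat.card_eq_fintype_card, card_proj_line_three]
    norm_num
  obtain ⟨a, b, c, hab, hac, hbc⟩ := Fintype.two_lt_card_iff.mp hc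
  have hfix : ∀ x : Projectivization (ZMod 3) (Fin 2 → ZMod 3), g • x = x := by
    intro x
    have := congrArg (fun f : Equiv.Perm (Projectivization (ZMod 3) (Fin 2 → ZMod 3)) => f x) hg
    exact this
  exact (Cfsg.Agent.S0266.result (F := ZMod 3)).2 g a b c hab hac hbc (hfix a) (hfix b) (hfix c)

/-- `PGL(2, 3)` is isomorphic to the symmetric group on its projective line. -/
theorem pgl_mulEquiv_perm :
    Nonempty (Matrix.ProjGenLinGroup (Fin 2) (ZMod 3) ≃*
      Equiv.Perm (Projectivization (ZMod 3) (Fin 2 → ZMod 3))) := by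
  classical
  have : Finite (Projectivization (ZMod 3) (Fin 2 → ZMod 3)) :=
    Nat.finite_of_card_ne_zero (by rw [card_proj_line_three]; norm_num)
  have : Fintype (Projectivization (ZMod 3) (Fin 2 → ZMod 3)) := Fintype.ofFinite _
  have : Finite (Matrix.ProjGenLinGroup (Fin 2) (ZMod 3)) :=
    Nat.finite_of_card_ne_zero (by rw [card_pgl_two_three]; norm_num)
  have hcard : Nat.card (Matrix.ProjGenLinGroup (Fin 2) (ZMod 3)) =
      Nat.card (Equiv.Perm (Projectivization (ZMod 3) (Fin 2 → ZMod 3))) := by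
    rw [card_pgl_two_three, Nat.card_eq_fintype_card, Fintype.card_perm,
      ← Nat.card_eq_fintype_card, card_proj_line_three]
    rfl
  have hbij : Function.Bijective (MulAction.toPermHom (Matrix.ProjGenLinGroup (Fin 2) (ZMod 3))
      (Projectivization (ZMod 3) (Fin 2 → ZMod 3))) :=
    (Nat.bijective_iff_injective_and_card _).mpr ⟨toPermHom_pgl_injective, hcard⟩
  exact ⟨MulEquiv.ofBijective _ hbij⟩

/-- **Piece Q3 of S0730.** A subgroup of order `24` of the symmetric group on four letters is
isomorphic to `PGL(2, 3)`. -/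
theorem perm_four_iso_pgl {α : Type*} [Fintype α] [DecidableEq α] (hα : Fintype.card α = 4)
    (G : Subgroup (Equiv.Perm α)) (hG : Nat.card G = 24) :
    Nonempty (G ≃* Matrix.ProjGenLinGroup (Fin 2) (ZMod 3)) := by
  classical
  have hperm : Nat.card (Equiv.Perm α) = 24 := by
    rw [Nat.card_eq_fintype_card, Fintype.card_perm, hα]
    rfl
  have htop : G = ⊤ := Subgroup.eq_top_of_card_eq G (by rw [hG, hperm])
  subst htop
  have : Finite (Projectivization (ZMod 3) (Fin 2 → ZMod 3)) :=
    Nat.finite_of_card_ne_zero (by rw [card_proj_line_three]; norm_num)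
  have hcardeq : Nat.card α = Nat.card (Projectivization (ZMod 3) (Fin 2 → ZMod 3)) := by
    rw [card_proj_line_three, Nat.card_eq_fintype_card, hα]
  obtain ⟨e⟩ := pgl_mulEquiv_perm
  obtain ⟨f⟩ : Nonempty (α ≃ Projectivization (ZMod 3) (Fin 2 → ZMod 3)) :=
    Finite.card_eq.mp hcardeq
  exact ⟨(Subgroup.topEquiv.trans (Equiv.permCongrHom f)).trans e.symm⟩

end Cfsg.Agent.Lib.Helper5.S0730Q3b
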