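import Mathlib
import Cfsg.Agent.Lib.Helper91.SpU

set_option autoImplicit false

namespace Cfsg.Agent.Lib.Helper5.SpA2

open Matrix Cfsg.Agent.Lib.Helper91.SpU

theorem sylow_of_normalizer {G : Type*} [Group G] [Finite G] (p : ℕ) [Fact p.Prime]
    (U : Subgroup G) (hU : IsPGroup p U)
    (h : ∀ x ∈ Subgroup.normalizer (U : Set G), (∃ k : ℕ, x ^ p ^ k = 1) → x ∈ U) :
    ∃ S : Sylow p G, (S : Subgroup G) = U := by
  obtain ⟨S, hUS⟩ := hU.exists_le_sylow
  refine ⟨S, ?_⟩
  by_contra hne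
  have hlt : U < (S : Subgroup G) := lt_of_le_of_ne hUS (Ne.symm hne)
  have hnil : Group.IsNilpotent (S : Subgroup G) := S.isPGroup'.isNilpotent
  have hNC : NormalizerCondition (S : Subgroup G) :=
    @Group.normalizerCondition_of_isNilpotent _ _ hnil
  have hlt' : U.subgroupOf (S : Subgroup G) < ⊤ := by
    rw [lt_top_iff_ne_top]
    intro htop
    rw [Subgroup.subgroupOf_eq_top] at htop
    exact hne (le_antisymm htop hUS)
  have hN := hNC _ hlt'
  obtain ⟨x, hxN, hxU⟩ := SetLike.exists_of_lt hN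
  have hxU' : (x : G) ∉ U := fun hx => hxU (Subgroup.mem_subgroupOf.2 hx)
  apply hxU'
  apply h
  · rw [Subgroup.mem_normalizer_iff]
    intro g
    rw [Subgroup.mem_normalizer_iff] at hxN
    constructor
    · intro hg
      have := (hxN ⟨g, hUS hg⟩).1 (Subgroup.mem_subgroupOf.2 hg)
      exact Subgroup.mem_subgroupOf.1 this
    · intro hg
      have hgS : g ∈ (S : Subgroup G) := by
        have h1 : (x : G)⁻¹ * ((x : G) * g * (x : G)⁻¹) * (x : G) ∈ (S : Subgroup G) :=
          Subgroup.mul_mem _ (Subgroup.mul_mem _ (Subgroup.inv_mem _ x.2) (hUS hg)) x.2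
        have h2 : (x : G)⁻¹ * ((x : G) * g * (x : G)⁻¹) * (x : G) = g := by group
        rwa [h2] at h1
      have := (hxN ⟨g, hgS⟩).2 (Subgroup.mem_subgroupOf.2 hg)
      exact Subgroup.mem_subgroupOf.1 this
  · obtain ⟨k, hk⟩ := S.isPGroup' x
    refine ⟨k, ?_⟩
    have := congrArg Subtype.val hk
    simpa using this

end Cfsg.Agent.Lib.Helper5.SpA2
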