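import Mathlib
import Cfsg.Agent.Lib.Helper91.SpU

set_option autoImplicit false

namespace Cfsg.Agent.Lib.Helper5.SpH1a

open Matrix Cfsg.Agent.Lib.Helper91.SpU

theorem exists_central {G : Type*} [Group G] [Finite G] (p : ℕ) [Fact p.Prime] (U T : Subgroup G)
    (hU : IsPGroup p U) (hT : T ≤ U) (hT1 : T ≠ ⊥) (hTn : ∀ u ∈ U, ∀ x ∈ T, u * x * u⁻¹ ∈ T) :
    ∃ z ∈ T, z ≠ 1 ∧ ∀ u ∈ U, u * z = z * u := by
  have hnorm : (T.subgroupOf U).Normal := by
    constructor
    intro n hn g
    rw [Subgroup.mem_subgroupOf] at hn ⊢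
    exact hTn g g.2 n hn
  let _ : MulAction U (T.subgroupOf U) :=
    MulAction.compHom _ (MulAut.conjNormal (H := T.subgroupOf U))
  have hsmul : ∀ (u : U) (b : T.subgroupOf U),
      (((u • b : T.subgroupOf U) : U) : G) = (u : G) * ((b : U) : G) * (u : G)⁻¹ := by
    intro u b
    rfl
  have hPT : IsPGroup p (T.subgroupOf U) := hU.to_subgroup _
  have hcard : p ∣ Nat.card (T.subgroupOf U) := by
    rcases hPT.card_eq_or_dvd with h1 | h1
    · exfalso
      rw [Subgroup.card_eq_one, Subgroup.subgroupOf_eq_bot] at h1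
      apply hT1
      have := h1.eq_bot
      rwa [inf_of_le_left hT] at this
    · exact h1
  have hfix1 : (1 : T.subgroupOf U) ∈ MulAction.fixedPoints U (T.subgroupOf U) := by
    intro u
    apply Subtype.ext
    apply Subtype.ext
    rw [hsmul]
    simp
  obtain ⟨b, hb, hb1⟩ :=
    hU.exists_fixed_point_of_prime_dvd_card_of_fixed_point (T.subgroupOf U) hcard hfix1
  refine ⟨((b : U) : G), Subgroup.mem_subgroupOf.1 b.2, ?_, ?_⟩
  · intro hz
    apply hb1
    apply Subtype.ext
    apply Subtype.ext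
    simpa using hz.symm
  · intro u hu
    have := hb ⟨u, hu⟩
    have h2 := congrArg (fun c : T.subgroupOf U => ((c : U) : G)) this
    simp only [hsmul] at h2
    calc u * ((b : U) : G) = u * ((b : U) : G) * u⁻¹ * u := by group
      _ = ((b : U) : G) * u := by rw [h2]

end Cfsg.Agent.Lib.Helper5.SpH1a
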