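import Mathlib
import Cfsg.Prelude.Def_GeometricClasses
import Cfsg.Agent.Lib.Helper97.Transv
import Cfsg.Agent.Lib.Helper97.TransvM
import Cfsg.Agent.Lib.Helper71.TP0
import Cfsg.Agent.Lib.Helper71.TP1

set_option autoImplicit false

namespace Cfsg.Agent.Lib.Helper5.TPP0

open Matrix Cfsg.Agent.Lib.Helper71.TP Cfsg.Agent.Lib.Helper97
open scoped Kronecker

variable {a b : ℕ} {F : Type*} [Field F]

/-- P0 -/
theorem NN_lt_SL (ha : 2 ≤ a) (hb : 2 ≤ b) :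
    NN a b F < Cfsg.Geo.specialLinear (Fin a × Fin b) F := by
  classical
  refine lt_of_le_of_ne NN_le_SL ?_
  intro heq
  obtain ⟨i0, i1, hi⟩ : ∃ i0 i1 : Fin a, i0 ≠ i1 :=
    ⟨⟨0, by omega⟩, ⟨1, by omega⟩, by simp [Fin.ext_iff]⟩
  obtain ⟨j0, j1, hj⟩ : ∃ j0 j1 : Fin b, j0 ≠ j1 :=
    ⟨⟨0, by omega⟩, ⟨1, by omega⟩, by simp [Fin.ext_iff]⟩
  have hdot : pt (Pi.single i1 (1 : F)) (Pi.single j1 (1 : F)) ⬝ᵥ
      pt (Pi.single i0 (1 : F)) (Pi.single j0 (1 : F)) = 0 := by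
    rw [pt_dotProduct_pt]
    simp [hi.symm]
  obtain ⟨t, htS, htval⟩ : ∃ t : GL (Fin a × Fin b) F,
      t ∈ Cfsg.Geo.specialLinear (Fin a × Fin b) F ∧
      (t : Matrix (Fin a × Fin b) (Fin a × Fin b) F) =
        tv (pt (Pi.single i0 (1 : F)) (Pi.single j0 (1 : F)))
          (pt (Pi.single i1 (1 : F)) (Pi.single j1 (1 : F))) :=
    ⟨tvG _ _ hdot, tvG_mem_specialLinear _ _ hdot, tvG_val _ _ hdot⟩
  have ht : t ∈ NN a b F := by
    rw [heq]
    exact htS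
  obtain ⟨⟨A, B, hAB⟩, _⟩ := mem_NN.mp ht
  have hval : ∀ p q : Fin a × Fin b, (A : Matrix (Fin a) (Fin a) F) p.1 q.1 *
      (B : Matrix (Fin b) (Fin b) F) p.2 q.2 =
      (if p = q then 1 else 0) +
        (pt (Pi.single i0 (1 : F)) (Pi.single j0 (1 : F)) p) *
          (pt (Pi.single i1 (1 : F)) (Pi.single j1 (1 : F)) q) := by
    intro p q
    have h1 : (t : Matrix (Fin a × Fin b) (Fin a × Fin b) F) p q =
        (A : Matrix (Fin a) (Fin a) F) p.1 q.1 * (B : Matrix (Fin b) (Fin b) F) p.2 q.2 := by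
      rw [hAB]
      rfl
    rw [← h1, htval, tv, Matrix.add_apply, Matrix.one_apply, Matrix.vecMulVec_apply]
  have h00 := hval (i0, j0) (i0, j0)
  have h01 := hval (i0, j0) (i1, j1)
  have h10 := hval (i0, j0) (i1, j0)
  simp [hi, hi.symm, hj, hj.symm] at h00 h01 h10
  rcases h10 with h | h
  · rw [h, zero_mul] at h01
    exact zero_ne_one h01
  · rw [h, mul_zero] at h00
    exact zero_ne_one h00

end Cfsg.Agent.Lib.Helper5.TPP0
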