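import Mathlib
import Cfsg.Prelude.Def_GeometricClasses
import Cfsg.Agent.Lib.Helper97.Transv
import Cfsg.Agent.Lib.Helper97.TransvM
import Cfsg.Agent.Lib.Helper71.TP0
import Cfsg.Agent.Lib.Helper71.TP1

set_option autoImplicit false

namespace Cfsg.Agent.Lib.Helper5.TPSLP

open Matrix Cfsg.Agent.Lib.Helper71.TP Cfsg.Agent.Lib.Helper97
open scoped Kronecker

variable {a b : ℕ} {F : Type*} [Field F]

/-- SLP -/
theorem sl_le_of_pure (ha : 1 ≤ a) (hb : 2 ≤ b) (M : Subgroup (GL (Fin a × Fin b) F))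
    (h : ∀ (u : Fin a → F) (w : Fin b → F), pt u w ∈ centres M) :
    Cfsg.Geo.specialLinear (Fin a × Fin b) F ≤ M := by
  have hnt : Nontrivial (Fin a × Fin b) :=
    ⟨⟨(⟨0, by omega⟩, ⟨0, by omega⟩), (⟨0, by omega⟩, ⟨1, by omega⟩),
      by simp [Prod.ext_iff, Fin.ext_iff]⟩⟩
  have h0 : (0 : Fin a × Fin b → F) ∈ centres M := by
    have h00 := h 0 0
    have e : pt (0 : Fin a → F) (0 : Fin b → F) = 0 := by
      funext p
      simp
    rwa [e] at h00
  have hall : ∀ v : Fin a × Fin b → F, v ∈ centres M := by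
    intro v
    rw [eq_sum_pt v]
    refine Finset.sum_induction _ (· ∈ centres M) (fun x y hx hy => centres_add M hx hy) h0 ?_
    intro i _
    refine Finset.sum_induction _ (· ∈ centres M) (fun x y hx hy => centres_add M hx hy) h0 ?_
    intro j _
    exact centres_smul M (h _ _) _
  exact specialLinear_le_of_tv M (fun v φ hφ t ht => hall v φ hφ t ht)

end Cfsg.Agent.Lib.Helper5.TPSLP
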