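import Cfsg.Agent.Lib.Helper22.W2Defs
import Cfsg.Agent.Lib.Helper4.CharPerm
import Cfsg.Agent.Lib.Helper83.Linear

/-!
Project W2 (S4707, helper22), piece PERMCHAR: the fixed-point counting function of a
permutation group is a character (the character of the permutation representation).
-/

set_option autoImplicit false

namespace Cfsg.Agent.Lib.Helper5.W2

open Cfsg Cfsg.Agent.Lib.Helper83 Cfsg.Agent.Lib.Helper22.W2
open scoped ComplexConjugate

universe u

variable {α : Type*} [Fintype α] [DecidableEq α]

/-- PIECE PERMCHAR -/
theorem permchar (G : Subgroup (Equiv.Perm α)) : IsCharacter G (fixc G) := by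
  have h := Cfsg.Agent.Lib.Helper4.isCharacter_of_rep (Representation.ofMulAction ℂ ↥G α)
  have e : (Representation.ofMulAction ℂ ↥G α).character = fixc G := by
    funext g
    rw [Cfsg.Agent.Lib.Helper4.char_ofMulAction]
    rfl
  rw [← e]
  exact h

end Cfsg.Agent.Lib.Helper5.W2
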